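import Cfsg.Agent.Class.Tens.Bil
import Cfsg.Agent.Class.SpMax

/-!
Overgroups of `Sp ⊗ O` in `Sp` (odd characteristic): the local analysis.
-/

set_option autoImplicit false

namespace Cfsg.Lib.Class.Tn

open Module Form AO

variable {F U W V : Type*} [Field F] [AddCommGroup U] [Module F U] [AddCommGroup W] [Module F W]
  [AddCommGroup V] [Module F V] {β : V →ₗ[F] V →ₗ[F] F} {X : Subgroup (V ≃ₗ[F] V)}

theorem finrank_ker_two' [FiniteDimensional F W] (hn : 3 ≤ finrank F W) (φ ψ : Dual F W) :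
    ∃ y, y ≠ 0 ∧ φ y = 0 ∧ ψ y = 0 := by
  have := finrank_ker_two φ ψ
  obtain ⟨y, h1, h2⟩ := Submodule.exists_mem_ne_zero_of_ne_bot
    (p := LinearMap.ker φ ⊓ LinearMap.ker ψ) fun h => by rw [h, finrank_bot] at this; omega
  exact ⟨y, h2, h1⟩

/-- A connected spanning set of transvection centres generates the symplectic group. -/
theorem le_of_TSet_conn [FiniteDimensional F V] (hβ : Hm β (-1)) (h2 : (2 : F) ≠ 0)
    (hA : LinearMap.BilinForm.IsAlt β)
    (H : ∀ u v, u ≠ 0 → v ≠ 0 → ∃ y ∈ TSet hA X, β u y ≠ 0 ∧ β v y ≠ 0) : isomGroup β ≤ X := by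
  have k1 : ∀ u ∈ TSet hA X, ∀ v ∈ TSet hA X, ∀ z ∈ TSet hA X, β u z ≠ 0 → β v z ≠ 0 →
      β (u + v) z ≠ 0 → u + v ∈ TSet hA X := fun u hu v hv z hz h1 h3 h4 => by
    by_cases h0 : β u v = 0
    · have h5 := add_mem_TSet (add_mem_TSet hu hz h1) hv (by simpa [h0] using hβ.ne_comm h3)
      have h6 := add_smul_mem_TSet h5 hz (by simpa [hA z] using h4) (-1)
      convert h6 using 1
      module
    · exact add_mem_TSet hu hv h0
  have k2 : ∀ u ∈ TSet hA X, ∀ v ∈ TSet hA X, v ≠ 0 → β u v = 0 → ∀ z ∈ TSet hA X, β u z ≠ 0 →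
      β v z = 0 → u + v ∈ TSet hA X := fun u hu v hv hv0 huv z hz h1 h3 => by
    obtain ⟨y, hy, h4, h5, h6⟩ : ∃ y ∈ TSet hA X, β u y ≠ 0 ∧ β v y ≠ 0 ∧ β y z ≠ 0 := by
      obtain ⟨y, hy, h4, h5⟩ := H u v (fun h0 => by simp [h0] at h1) hv0
      by_cases h6 : β y z = 0
      · exact ⟨y + u, add_mem_TSet hy hu (hβ.ne_comm h4), by simpa [hA u] using h4,
          by simpa [hβ.comm huv] using h5, by simpa [h6] using h1⟩
      · exact ⟨y, hy, h4, h5, h6⟩
    by_cases h7 : β (u + v) y = 0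
    · refine k1 u hu v hv _ (add_smul_mem_TSet hy hz h6 (β u y / β u z)) ?_ (by simpa [h3]) ?_
      · simpa [h1, ← two_mul, h2] using h4
      · rw [map_add, h7]; simpa [h1, h3] using h4
    · exact k1 u hu v hv y hy h4 h5 h7
  let K : Submodule F V :=
    { carrier := TSet hA X
      zero_mem' := zero_mem_TSet hA X
      smul_mem' := fun c _ hv => smul_mem_TSet hv c
      add_mem' := fun {u v} hu hv => by
        by_cases h0 : u + v = 0
        · rw [h0]; exact zero_mem_TSet hA X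
        by_cases hu0 : u = 0
        · simpa [hu0] using hv
        by_cases hv0 : v = 0
        · simpa [hv0] using hu
        by_cases huv : β u v = 0
        · obtain ⟨z, hz, h1, -⟩ := H _ _ h0 h0
          by_cases h3 : β v z = 0
          · exact k2 u hu v hv hv0 huv z hz (by simpa [h3] using h1) h3
          by_cases h4 : β u z = 0
          · rw [add_comm]; exact k2 v hv u hu hu0 (hβ.comm huv) z hz h3 h4
          · exact k1 u hu v hv z hz h4 h3 h1
        · exact add_mem_TSet hu hv huv }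
  refine SpB_le_of_TSet hβ.nondeg hA fun v => by_contra fun hv => ?_
  obtain ⟨w, h3, h4⟩ := hβ.exists_sep (S := K) hv
  obtain ⟨y, hy, h5, -⟩ := H w w (fun h0 => by simp [h0] at h4) fun h0 => by simp [h0] at h4
  exact h5 (h3 y hy)

variable {T : U →ₗ[F] W →ₗ[F] V} {f : U →ₗ[F] U →ₗ[F] F} {h : W →ₗ[F] W →ₗ[F] F}

/-- An overgroup of `Sp ⊗ O` in `Sp`. -/
structure SCtx (T : U →ₗ[F] W →ₗ[F] V) (f : U →ₗ[F] U →ₗ[F] F) (h : W →ₗ[F] W →ₗ[F] F)
    (β : V →ₗ[F] V →ₗ[F] F) (X : Subgroup (V ≃ₗ[F] V)) : Prop extends TF T f (-1) h 1 β where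
  two : (2 : F) ≠ 0
  le : X ≤ isomGroup β
  ge : ∀ g ∈ tensG T, g ∈ isomGroup β → g ∈ X

namespace SCtx

variable (c : SCtx T f h β X)
include c

theorem ctx : Ctx T f (-1) h 1 β X :=
  ⟨c.toTF, c.le, fun _ _ _ _ m hm hm' _ => c.ge m hm hm', fun _ _ _ _ m hm hm' _ => c.ge m hm hm'⟩

theorem mpE_mem {a : U ≃ₗ[F] U} {b : W ≃ₗ[F] W} (ha : a ∈ isomGroup f) (hb : b ∈ isomGroup h) :
    c.hT.mpE a b ∈ X := c.ge _ (c.hT.mpE_mem a b) (c.mpE_isom' ha hb)

variable [FiniteDimensional F U] [FiniteDimensional F W]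

omit [FiniteDimensional F W] in
theorem hβ : Hm β (-1) := by simpa using c.hm

omit [FiniteDimensional F W] in
theorem isAlt : LinearMap.BilinForm.IsAlt β := c.hβ.alt c.two

variable [Finite F]

theorem le_of_TSet (hW : 3 ≤ finrank F W) {x : U} {p : W} (hx : x ≠ 0) (hp0 : p ≠ 0)
    (hp : h p p = 0) (H : T x p ∈ TSet c.isAlt X) : isomGroup β ≤ X := by
  have := c.hT.finiteDimensional
  have hS := c.hh.spanOpp_of_three c.two hW
  have h1 : ∀ y q, h q q = 0 → T y q ∈ TSet c.isAlt X := fun y q hq => by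
    by_cases hy0 : y = 0
    · simpa [hy0] using zero_mem_TSet _ _
    by_cases hq0 : q = 0
    · simpa [hq0] using zero_mem_TSet _ _
    obtain ⟨a, ha, e⟩ := SpB_exists_apply_eq c.hf.nondeg (c.hf.alt c.two) hx hy0
    obtain ⟨b, hb, -, s, hs, e'⟩ := c.ctx.flip.exists_move hS hp0 hp hq0 hq
    simpa [e, e', smul_smul, hs] using smul_mem_TSet
      (apply_mem_TSet (c.mpE_mem ha hb) (c.mpE_isom' ha hb) H) s⁻¹
  have h2 : ∀ v, v ≠ 0 → ∀ p, p ≠ 0 → h p p = 0 →
      ∃ q, h q q = 0 ∧ h q p ≠ 0 ∧ c.flip.c q v ≠ 0 := fun v hv p hp0 hp => by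
    by_contra! hc
    let K : Submodule F W :=
      { carrier := {q | c.flip.c q v = 0}
        zero_mem' := by simp [TF.c]
        add_mem' := fun ha hb => by
          rw [Set.mem_setOf, c.flip.c_add, ha, hb, add_zero]
        smul_mem' := fun t _ ha => by rw [Set.mem_setOf, c.flip.c_smul, ha, smul_zero] }
    refine hv (c.hβ.sep' v (c.hT.ind (by simp) (fun a b ha hb => by simp [ha, hb]) fun y q => ?_))
    have : q ∈ K := hS p hp0 hp K hc ▸ Submodule.mem_top
    exact (c.flip.left q y v).trans (by rw [this, map_zero])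
  refine le_of_TSet_conn c.hβ c.two c.isAlt fun u v hu hv => ?_
  obtain ⟨q, h3, h4, h5⟩ := h2 u hu p hp0 hp
  obtain ⟨q', h6, h7, h8⟩ := h2 v hv q (fun h0 => by simp [h0] at h4) h3
  obtain ⟨a, ha⟩ := c.hf.exists_eq_one h5
  obtain ⟨a', -, h9, h10⟩ := exists_mem_both_ne_zero ⊤ (f a) (f (c.flip.c q' v))
    ((c.hf.exists_ne fun h0 => by simp [h0] at ha).imp fun _ h => ⟨trivial, h⟩)
    ((c.hf.exists_ne h8).imp fun _ h => ⟨trivial, h⟩)
  have h11 : β u (T a q) ≠ 0 := by rw [show T a q = T.flip q a from rfl, c.flip.right]; simp [ha]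
  have h12 : β v (T a' q') ≠ 0 := by
    rw [show T a' q' = T.flip q' a' from rfl, c.flip.right]; simpa
  by_cases h13 : β u (T a' q') = 0
  · by_cases h14 : β v (T a q) = 0
    · exact ⟨_, add_mem_TSet (h1 a q h3) (h1 a' q' h6) (by simp [c.tens, h9, c.hh.ne_comm h7]),
        by simpa [h13], by simpa [h14]⟩
    · exact ⟨_, h1 a q h3, h11, h14⟩
  · exact ⟨_, h1 a' q' h6, h13, h12⟩

/-- The local theorem with symplectic root factor. -/
theorem mem_tensG_of_stab
    (hW : 4 ≤ finrank F W ∨ 3 ≤ finrank F W ∧ ∃ t : F, t ≠ 0 ∧ t ^ 2 ≠ 1)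
    (hX : ¬ isomGroup β ≤ X) {x : U} (hx0 : x ≠ 0) {g : V ≃ₗ[F] V} (hg : g ∈ X)
    (hJ : ∀ w, g (T x w) ∈ JL T x) : g ∈ tensG T := by
  have : Nontrivial W := Module.nontrivial_of_finrank_pos (R := F) (by omega)
  have hx := c.hf.alt c.two x
  obtain ⟨x', hxx⟩ := c.hf.exists_eq_one hx0
  have hΓ : ∀ γ, c.ctx.Gam x γ → ∃ s : F, γ = s • 1 := fun γ h1 => by_contra fun h2 => by
    obtain ⟨p, -, hp0, hp⟩ := exists_iso_mem h (S := ⊤) (by rw [finrank_top]; omega)
    obtain ⟨d, hd, h3⟩ := c.hh.exists_root_selfadj c.two hW hp0 hp (fun _ _ => Ctx.Gam.sub hx)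
      (fun s => Ctx.Gam.scalar hx (by simp)) (fun b hb γ hγ => hγ.conj (c.ctx.radR_mem hp hb))
      (fun γ hγ w w' => by simpa using hγ.adj hx hxx w w') h1 h2
    refine hX (c.le_of_TSet (by omega) hx0 hp0 hp fun t => ?_)
    obtain ⟨k, hk, e⟩ := smul_of_sq c.two (A := c.ctx.Gam x) (fun _ _ => Ctx.Gam.sub hx)
      (fun a => by
        by_cases ha0 : a = 0
        · simpa [ha0] using Ctx.Gam.zero _ _
        obtain ⟨g, hg, e⟩ := SpB_exists_apply_eq c.hf.nondeg (c.hf.alt c.two) hx0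
          (smul_ne_zero ha0 hx0)
        rw [sq]
        exact Ctx.Gam.smul_iff.1 (e ▸ h3.mapL hg (c.mpE_mem hg (one_mem _))))
      (-(t / d))
    convert hk using 1
    ext v
    rw [e, altTEquiv_apply', c.hβ.skew, c.left]
    simp [smul_smul, ← mul_assoc, hd]
  refine c.ctx.mem_tensG_of_stab hx0 hx (c.ctx.loc_of hx hxx hΓ fun u e hu hu' he => ?_)
    (Or.inr ⟨1, one_ne_zero, by simp⟩) hg hJ
  have h1 : ∀ e, c.ctx.Eel x x' u e → ∃ s : F, ∀ w w', h (e w) (e w') = s * h w w' := by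
    rintro e ⟨q, hq, hR, he⟩
    obtain ⟨a, ha, e'⟩ := c.hf.exists_tv (c.hf.alt c.two u) (c := 1) (by simp)
    obtain ⟨δ, h1, h2⟩ := c.ctx.exists_comm_conj hx hxx hq hq hR hR
      (c.ctx.radL_mem (c.hf.alt c.two u) ha) (by simp [e', c.hf.comm hu])
      (by simp [e', c.hf.comm hu'])
    obtain ⟨s, rfl⟩ := hΓ _ h1
    refine ⟨-s / 2, fun w w' => ?_⟩
    have h3 := h2 w w'
    simp only [c.mpE_tv e', add_sub_cancel_left, one_smul, c.left, c.right, map_sub, he,
      TF.c_apply, c.hf.comm hu', zero_smul, sub_zero, LinearMap.smul_apply, End.one_apply,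
      map_smul, smul_eq_mul, LinearMap.sub_apply, hu', zero_mul, map_zero] at h3
    have := c.two
    field_simp
    linear_combination -h3
  obtain ⟨δ, h2, h3⟩ := he.exists_gam hx hxx hu hu'
  obtain ⟨s, rfl⟩ := hΓ _ h2
  refine c.hh.scalar_of_aniso c.two (by omega) fun w hw => ?_
  obtain ⟨r, hr, e1, e2⟩ := c.hh.exists_refl hw
  obtain ⟨s', h4⟩ := h1 _ ((he.conj (c.mpE_mem (one_mem _) hr)).sub hu hu' he)
  have h5 : ∀ y, h w y = 0 → (r.conj e - e) y = -(2 / h w w * h w (e y)) • w := fun y hy => by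
    simp [LinearEquiv.conj_apply_apply, e2, e1, hy]
  have h6 : s' = 0 := by
    obtain ⟨y, h6, h7⟩ := Tn.finrank_ker_two' (show 3 ≤ finrank F W by omega) (h w) (h w ∘ₗ e)
    obtain ⟨y', hy'⟩ := c.hh.exists_eq_one h6
    simpa [h5 y h7.1, show h w (e y) = 0 from h7.2, hy'] using (h4 y y').symm
  refine c.hh.mem_span_of_orth (fun h0 => by simp [h0] at hw) fun y hy => ?_
  have h7 := h4 y y
  have h8 := h3 y w
  simp only [h5 y hy, h6, map_smul, LinearMap.smul_apply, smul_eq_mul, zero_mul, mul_eq_zero, hw,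
    neg_eq_zero, div_eq_zero_iff, c.two, or_false, false_or, or_self] at h7
  simp only [LinearMap.smul_apply, End.one_apply, map_smul, smul_eq_mul, c.hh.comm hy,
    c.hh.comm h7] at h8
  linear_combination h8

/-- The local theorem with orthogonal root factor. -/
theorem mem_tensG_of_stab' (hW : 5 ≤ finrank F W) [Nontrivial U]
    (hX : ¬ isomGroup β ≤ X) {p : W} (hp0 : p ≠ 0) (hp : h p p = 0) {g : V ≃ₗ[F] V} (hg : g ∈ X)
    (hJ : ∀ y, g (T y p) ∈ JL T.flip p) : g ∈ tensG T := by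
  rw [← tensG_flip]
  refine c.ctx.flip.loc_orth c.two hW hp0 hp (fun γ h1 => by_contra fun h2 => hX ?_)
    (fun A h1 _ => c.hf.scalar_of_comm_alt c.two A h1) hg hJ
  obtain ⟨p', hpp⟩ := c.hh.exists_eq_one hp0
  obtain ⟨w, hw⟩ : ∃ w, f w (γ w) ≠ 0 := by
    by_contra! hc
    refine h2 (LinearMap.ext fun w' => c.hf.sep' _ fun w => ?_)
    have h3 := hc (w + w')
    have h4 := h1.adj hp hpp w w'
    simp only [map_add, LinearMap.add_apply, hc, c.hf.skew w' (γ w)] at h3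
    exact (mul_eq_zero.1 (by linear_combination h3 + h4)).resolve_left c.two
  refine c.le_of_TSet (x := w) (by omega) (fun h0 => by simp [h0] at hw) hp0 hp fun t => ?_
  have hw' := c.hf.alt c.two w
  obtain ⟨k, hk, e⟩ := smul_of_sq c.two (A := c.ctx.flip.Gam p) (fun _ _ => Ctx.Gam.sub hp)
    (γ := (2 * f w (γ w)) • (f w).smulRight w) (fun a => by
      obtain ⟨b, hb, e⟩ := c.hf.exists_tv hw' (c := a) (by simp)
      obtain ⟨b', hb', e'⟩ := c.hf.exists_tv hw' (c := -a) (by simp)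
      convert (h1.sub hp (h1.conj (c.ctx.flip.radR_mem hw' hb))).add hp
        (h1.sub hp (h1.conj (c.ctx.flip.radR_mem hw' hb'))) using 1
      ext y
      simp only [LinearMap.smul_apply, LinearMap.smulRight_apply, LinearMap.add_apply,
        LinearMap.sub_apply, conj_tv_apply hw' e, conj_tv_apply hw' e']
      module) (-(t / (2 * f w (γ w))))
  convert hk using 1
  ext v
  rw [e, altTEquiv_apply', c.hβ.skew, show T w p = T.flip p w from rfl, c.flip.left]
  have := c.two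
  simp only [LinearMap.smul_apply, LinearMap.smulRight_apply, smul_smul, map_smul]
  congr 2
  field_simp

end SCtx

end Cfsg.Lib.Class.Tn
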