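import Cfsg.Agent.Class.AO.Tens

/-!
Abstract tensor decompositions `T : U × W → V` of a vector space: the maps `a ⊗ b`,
contractions, and the subspaces `A ⊗ B`.
-/

set_option autoImplicit false

namespace Cfsg.Lib.Class.Tn

open Module TensorProduct AO

variable {F U W V : Type*} [Field F] [AddCommGroup U] [Module F U] [AddCommGroup W] [Module F W]
  [AddCommGroup V] [Module F V]

/-- The bilinear map `T` identifies `V` with the tensor product of `U` and `W`. -/
def IsTens (T : U →ₗ[F] W →ₗ[F] V) : Prop := Function.Bijective (TensorProduct.lift T)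

theorem tensG_flip (T : U →ₗ[F] W →ₗ[F] V) : tensG T.flip = tensG T := by
  ext g
  exact ⟨fun ⟨a, b, h⟩ => ⟨b, a, fun x y => h y x⟩, fun ⟨a, b, h⟩ => ⟨b, a, fun x y => h y x⟩⟩

theorem map₂_flip' (T : U →ₗ[F] W →ₗ[F] V) (A : Submodule F U) (B : Submodule F W) :
    Submodule.map₂ T.flip B A = Submodule.map₂ T A B := Submodule.map₂_flip T A B

namespace IsTens

variable {T : U →ₗ[F] W →ₗ[F] V} (h : IsTens T)
include h

/-- The isomorphism from the tensor product. -/
noncomputable def eqv : U ⊗[F] W ≃ₗ[F] V := LinearEquiv.ofBijective _ h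

@[simp] theorem eqv_tmul (x : U) (y : W) : h.eqv (x ⊗ₜ y) = T x y := lift.tmul x y

@[simp] theorem eqv_symm_apply (x : U) (y : W) : h.eqv.symm (T x y) = x ⊗ₜ y := by
  rw [← h.eqv_tmul, LinearEquiv.symm_apply_apply]

theorem ind {P : V → Prop} (h0 : P 0) (hadd : ∀ u v, P u → P v → P (u + v))
    (hT : ∀ x y, P (T x y)) (v : V) : P v := by
  obtain ⟨z, rfl⟩ := h.eqv.surjective v
  induction z using TensorProduct.induction_on with
  | zero => rwa [map_zero]
  | tmul x y => rw [eqv_tmul]; exact hT x y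
  | add a b ha hb => rw [map_add]; exact hadd _ _ ha hb

theorem ext {M : Type*} [AddCommGroup M] [Module F M] {a b : V →ₗ[F] M}
    (H : ∀ x y, a (T x y) = b (T x y)) : a = b :=
  LinearMap.ext (h.ind (by simp) (fun u v hu hv => by simp [hu, hv]) H)

theorem extE {a b : V ≃ₗ[F] V} (H : ∀ x y, a (T x y) = b (T x y)) : a = b :=
  LinearEquiv.toLinearMap_injective (h.ext H)

theorem flip : IsTens T.flip := by
  have : TensorProduct.lift T.flip = TensorProduct.lift T ∘ₗ (TensorProduct.comm F W U).toLinearMap :=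
    TensorProduct.ext' fun x y => by simp
  unfold IsTens
  rw [this, LinearMap.coe_comp]
  exact h.comp (TensorProduct.comm F W U).bijective

theorem span : Submodule.map₂ T ⊤ ⊤ = ⊤ :=
  eq_top_iff.2 fun v _ => h.ind (P := fun v => v ∈ Submodule.map₂ T ⊤ ⊤) (zero_mem _)
    (fun _ _ => add_mem) (fun _ _ => Submodule.apply_mem_map₂ _ trivial trivial) v

theorem finrank_eq : finrank F V = finrank F U * finrank F W := by
  rw [← h.eqv.finrank_eq, finrank_tensorProduct]

theorem finiteDimensional [FiniteDimensional F U] [FiniteDimensional F W] :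
    FiniteDimensional F V := h.eqv.finiteDimensional

/-- The linear map defined by a bilinear map. -/
noncomputable def lift {M : Type*} [AddCommGroup M] [Module F M] (B : U →ₗ[F] W →ₗ[F] M) :
    V →ₗ[F] M := TensorProduct.lift B ∘ₗ h.eqv.symm.toLinearMap

@[simp] theorem lift_apply {M : Type*} [AddCommGroup M] [Module F M] (B : U →ₗ[F] W →ₗ[F] M)
    (x : U) (y : W) : h.lift B (T x y) = B x y := by simp [lift]

/-- The endomorphism `a ⊗ b`. -/
noncomputable def mp (a : End F U) (b : End F W) : End F V := h.lift (T.compl₁₂ a b)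

@[simp] theorem mp_apply (a : End F U) (b : End F W) (x : U) (y : W) :
    h.mp a b (T x y) = T (a x) (b y) := by simp [mp]

theorem mp_flip (a : End F U) (b : End F W) : h.flip.mp b a = h.mp a b :=
  h.ext fun x y => (h.flip.mp_apply b a y x).trans (h.mp_apply a b x y).symm

theorem mp_mul (a c : End F U) (b d : End F W) : h.mp (a * c) (b * d) = h.mp a b * h.mp c d :=
  h.ext fun x y => by simp

@[simp] theorem mp_one : h.mp 1 1 = 1 := h.ext fun x y => by simp

@[simp] theorem mp_zero_left (b : End F W) : h.mp 0 b = 0 := h.ext fun x y => by simp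

@[simp] theorem mp_zero_right (a : End F U) : h.mp a 0 = 0 := h.ext fun x y => by simp

theorem mp_add_left (a c : End F U) (b : End F W) : h.mp (a + c) b = h.mp a b + h.mp c b :=
  h.ext fun x y => by simp

theorem mp_add_right (a : End F U) (b d : End F W) : h.mp a (b + d) = h.mp a b + h.mp a d :=
  h.ext fun x y => by simp

theorem mp_sub_left (a c : End F U) (b : End F W) : h.mp (a - c) b = h.mp a b - h.mp c b :=
  h.ext fun x y => by simp

theorem mp_sub_right (a : End F U) (b d : End F W) : h.mp a (b - d) = h.mp a b - h.mp a d :=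
  h.ext fun x y => by simp

theorem mp_neg_left (a : End F U) (b : End F W) : h.mp (-a) b = -h.mp a b :=
  h.ext fun x y => by simp

theorem mp_neg_right (a : End F U) (b : End F W) : h.mp a (-b) = -h.mp a b :=
  h.ext fun x y => by simp

theorem mp_smul_left (c : F) (a : End F U) (b : End F W) : h.mp (c • a) b = c • h.mp a b :=
  h.ext fun x y => by simp

theorem mp_smul_right (c : F) (a : End F U) (b : End F W) : h.mp a (c • b) = c • h.mp a b :=
  h.ext fun x y => by simp

/-- The algebra homomorphism `a ↦ a ⊗ 1`. -/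
noncomputable def inL : End F U →ₐ[F] End F V :=
  AlgHom.ofLinearMap
    { toFun a := h.mp a 1
      map_add' a c := h.mp_add_left a c 1
      map_smul' c a := h.mp_smul_left c a 1 } h.mp_one
    (fun a c => by rw [LinearMap.coe_mk, AddHom.coe_mk, ← h.mp_mul, mul_one])

/-- The algebra homomorphism `b ↦ 1 ⊗ b`. -/
noncomputable def inR : End F W →ₐ[F] End F V :=
  AlgHom.ofLinearMap
    { toFun b := h.mp 1 b
      map_add' a c := h.mp_add_right 1 a c
      map_smul' c a := h.mp_smul_right c 1 a } h.mp_one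
    (fun a c => by rw [LinearMap.coe_mk, AddHom.coe_mk, ← h.mp_mul, mul_one])

@[simp] theorem inL_apply (a : End F U) : h.inL a = h.mp a 1 := rfl

@[simp] theorem inR_apply (b : End F W) : h.inR b = h.mp 1 b := rfl

/-- The automorphism `a ⊗ b`. -/
noncomputable def mpE (a : U ≃ₗ[F] U) (b : W ≃ₗ[F] W) : V ≃ₗ[F] V :=
  LinearEquiv.ofLinearMap (h.mp a b) (h.mp a.symm b.symm) (h.ext fun x y => by simp)
    (h.ext fun x y => by simp)

@[simp] theorem mpE_apply (a : U ≃ₗ[F] U) (b : W ≃ₗ[F] W) (x : U) (y : W) :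
    h.mpE a b (T x y) = T (a x) (b y) := h.mp_apply _ _ x y

theorem coe_mpE (a : U ≃ₗ[F] U) (b : W ≃ₗ[F] W) : (h.mpE a b : V →ₗ[F] V) = h.mp a b := rfl

theorem mpE_apply' (a : U ≃ₗ[F] U) (b : W ≃ₗ[F] W) (v : V) : h.mpE a b v = h.mp a b v := rfl

theorem mpE_flip (a : U ≃ₗ[F] U) (b : W ≃ₗ[F] W) : h.flip.mpE b a = h.mpE a b :=
  h.extE fun x y => (h.flip.mpE_apply b a y x).trans (h.mpE_apply a b x y).symm

theorem mpE_mem (a : U ≃ₗ[F] U) (b : W ≃ₗ[F] W) : h.mpE a b ∈ tensG T :=
  ⟨a, b, h.mpE_apply a b⟩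

theorem mem_tensG {g : V ≃ₗ[F] V} : g ∈ tensG T ↔ ∃ a b, g = h.mpE a b :=
  ⟨fun ⟨a, b, H⟩ => ⟨a, b, h.extE fun x y => by rw [H, mpE_apply]⟩,
    fun ⟨a, b, H⟩ => H ▸ h.mpE_mem a b⟩

theorem mpE_mul (a c : U ≃ₗ[F] U) (b d : W ≃ₗ[F] W) :
    h.mpE (a * c) (b * d) = h.mpE a b * h.mpE c d := h.extE fun x y => by simp

@[simp] theorem mpE_one : h.mpE 1 1 = 1 := h.extE fun x y => by simp

/-- The homomorphism `(a, b) ↦ a ⊗ b`. -/
noncomputable def mpHom : (U ≃ₗ[F] U) × (W ≃ₗ[F] W) →* (V ≃ₗ[F] V) where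
  toFun p := h.mpE p.1 p.2
  map_one' := h.mpE_one
  map_mul' _ _ := h.mpE_mul _ _ _ _

@[simp] theorem mpHom_apply (p : (U ≃ₗ[F] U) × (W ≃ₗ[F] W)) : h.mpHom p = h.mpE p.1 p.2 := rfl

theorem mpE_inv (a : U ≃ₗ[F] U) (b : W ≃ₗ[F] W) : (h.mpE a b)⁻¹ = h.mpE a⁻¹ b⁻¹ :=
  (map_inv h.mpHom (a, b)).symm

theorem mpE_symm (a : U ≃ₗ[F] U) (b : W ≃ₗ[F] W) : (h.mpE a b).symm = h.mpE a.symm b.symm :=
  h.mpE_inv a b

/-- Contraction with a functional on the first factor. -/
noncomputable def cL (ξ : Dual F U) : V →ₗ[F] W := h.lift ((LinearMap.lsmul F W).comp ξ)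

/-- Contraction with a functional on the second factor. -/
noncomputable def cR (η : Dual F W) : V →ₗ[F] U := h.flip.cL η

@[simp] theorem cL_apply (ξ : Dual F U) (x : U) (y : W) : h.cL ξ (T x y) = ξ x • y := by
  simp [cL]

@[simp] theorem cR_apply (η : Dual F W) (x : U) (y : W) : h.cR η (T x y) = η y • x :=
  h.flip.cL_apply η y x

theorem cL_flip (η : Dual F W) : h.flip.cL η = h.cR η := rfl

theorem cR_flip (ξ : Dual F U) : h.flip.cR ξ = h.cL ξ := h.ext fun x y => by
  rw [cL_apply]; exact h.flip.cR_apply ξ y x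

theorem cL_add (ξ ξ' : Dual F U) : h.cL (ξ + ξ') = h.cL ξ + h.cL ξ' :=
  h.ext fun x y => by simp [add_smul]

theorem cL_smul (c : F) (ξ : Dual F U) : h.cL (c • ξ) = c • h.cL ξ :=
  h.ext fun x y => by simp [mul_smul]

@[simp] theorem cL_zero : h.cL 0 = 0 := h.ext fun x y => by simp

theorem cL_mp (ξ : Dual F U) (a : End F U) (b : End F W) (v : V) :
    h.cL ξ (h.mp a b v) = b (h.cL (ξ ∘ₗ a) v) :=
  LinearMap.congr_fun (h.ext (a := h.cL ξ ∘ₗ h.mp a b) (b := b ∘ₗ h.cL (ξ ∘ₗ a))
    fun x y => by simp) v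

theorem cR_mp (η : Dual F W) (a : End F U) (b : End F W) (v : V) :
    h.cR η (h.mp a b v) = a (h.cR (η ∘ₗ b) v) := by
  rw [← h.mp_flip, ← cL_flip, h.flip.cL_mp]; rfl

theorem apply_cL (ξ : Dual F U) (η : Dual F W) (v : V) : η (h.cL ξ v) = ξ (h.cR η v) :=
  LinearMap.congr_fun (h.ext (a := η ∘ₗ h.cL ξ) (b := ξ ∘ₗ h.cR η) fun x y => by
    simp [mul_comm]) v

theorem mp_smulRight (ξ : Dual F U) (x : U) (b : End F W) (v : V) :
    h.mp (ξ.smulRight x) b v = T x (b (h.cL ξ v)) :=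
  LinearMap.congr_fun (h.ext (a := h.mp (ξ.smulRight x) b) (b := T x ∘ₗ b ∘ₗ h.cL ξ)
    fun x y => by simp) v

theorem mp_smulRight' (a : End F U) (η : Dual F W) (y : W) (v : V) :
    h.mp a (η.smulRight y) v = T (a (h.cR η v)) y := by
  rw [← h.mp_flip, h.flip.mp_smulRight]; rfl

theorem eq_sum {ι : Type*} [Fintype ι] (e : Basis ι F U) (v : V) :
    v = ∑ i, T (e i) (h.cL (e.coord i) v) := by
  refine h.ind (P := fun v => v = ∑ i, T (e i) (h.cL (e.coord i) v)) (by simp)
    (fun u v hu hv => by simp only [map_add, Finset.sum_add_distrib, ← hu, ← hv]) (fun x y => ?_) v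
  conv_lhs => rw [← e.sum_repr x, map_sum, LinearMap.sum_apply]
  simp

theorem ne_zero {x : U} {y : W} (hx : x ≠ 0) (hy : y ≠ 0) : T x y ≠ 0 := fun h0 => by
  obtain ⟨ξ, hξ⟩ := Module.Projective.exists_dual_eq_one F hx
  have := h.cL_apply ξ x y
  rw [h0, map_zero, hξ, one_smul] at this
  exact hy this.symm

theorem eq_zero_iff {x : U} {y : W} : T x y = 0 ↔ x = 0 ∨ y = 0 :=
  ⟨fun h0 => by_contra fun hc => h.ne_zero (not_or.1 hc).1 (not_or.1 hc).2 h0,
    fun h0 => h0.elim (fun h1 => by simp [h1]) fun h1 => by simp [h1]⟩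

theorem injective {x : U} (hx : x ≠ 0) : Function.Injective (T x) :=
  (injective_iff_map_eq_zero _).2 fun _ hy => (h.eq_zero_iff.1 hy).resolve_left hx

theorem injective' {y : W} (hy : y ≠ 0) {x x' : U} (e : T x y = T x' y) : x = x' :=
  h.flip.injective hy e

theorem cL_mem {A : Submodule F U} {B : Submodule F W} {v : V} (hv : v ∈ Submodule.map₂ T A B)
    (ξ : Dual F U) : h.cL ξ v ∈ B :=
  (Submodule.map₂_le (r := B.comap (h.cL ξ))).2
    (fun x _ y hy => by rw [Submodule.mem_comap, cL_apply]; exact B.smul_mem _ hy) hv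

theorem cR_mem {A : Submodule F U} {B : Submodule F W} {v : V} (hv : v ∈ Submodule.map₂ T A B)
    (η : Dual F W) : h.cR η v ∈ A := h.flip.cL_mem (map₂_flip' T A B ▸ hv) η

theorem mp_mem {A A' : Submodule F U} {B B' : Submodule F W} {a : End F U} {b : End F W}
    (ha : ∀ x ∈ A, a x ∈ A') (hb : ∀ y ∈ B, b y ∈ B') {v : V} (hv : v ∈ Submodule.map₂ T A B) :
    h.mp a b v ∈ Submodule.map₂ T A' B' :=
  (Submodule.map₂_le (r := (Submodule.map₂ T A' B').comap (h.mp a b))).2
    (fun x hx y hy => by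
      rw [Submodule.mem_comap, mp_apply]; exact Submodule.apply_mem_map₂ _ (ha x hx) (hb y hy)) hv

theorem range_mp (a : End F U) (b : End F W) :
    LinearMap.range (h.mp a b) = Submodule.map₂ T (LinearMap.range a) (LinearMap.range b) := by
  refine le_antisymm ?_ (Submodule.map₂_le.2 ?_)
  · rintro _ ⟨v, rfl⟩
    exact h.mp_mem (A := ⊤) (B := ⊤) (fun x _ => a.mem_range_self x) (fun x _ => b.mem_range_self x)
      (h.span ▸ Submodule.mem_top)
  · rintro _ ⟨x, rfl⟩ _ ⟨y, rfl⟩
    exact ⟨T x y, h.mp_apply a b x y⟩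

theorem mem_map₂_span_left {x : U} {B : Submodule F W} {v : V} :
    v ∈ Submodule.map₂ T (Submodule.span F {x}) B ↔ ∃ y ∈ B, T x y = v := by
  rw [Submodule.map₂_span_singleton_eq_map]; rfl

theorem mem_map₂_span_right {A : Submodule F U} {y : W} {v : V} :
    v ∈ Submodule.map₂ T A (Submodule.span F {y}) ↔ ∃ x ∈ A, T x y = v := by
  rw [← map₂_flip', h.flip.mem_map₂_span_left]; rfl

section FinU

variable [FiniteDimensional F U]

theorem eq_zero_of_cL {v : V} (hv : ∀ ξ, h.cL ξ v = 0) : v = 0 := by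
  rw [h.eq_sum (Module.finBasis F U) v]; simp [hv]

theorem eq_of_cL {u v : V} (hv : ∀ ξ, h.cL ξ u = h.cL ξ v) : u = v :=
  sub_eq_zero.1 (h.eq_zero_of_cL fun ξ => by rw [map_sub, hv, sub_self])

theorem mem_map₂_top_left {B : Submodule F W} {v : V} :
    v ∈ Submodule.map₂ T ⊤ B ↔ ∀ ξ, h.cL ξ v ∈ B := by
  refine ⟨h.cL_mem, fun hv => ?_⟩
  rw [h.eq_sum (Module.finBasis F U) v]
  exact Submodule.sum_mem _ fun i _ => Submodule.apply_mem_map₂ _ trivial (hv _)

theorem ker_mp_one (b : End F W) :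
    LinearMap.ker (h.mp 1 b) = Submodule.map₂ T ⊤ (LinearMap.ker b) := by
  ext v
  rw [h.mem_map₂_top_left, LinearMap.mem_ker]
  refine ⟨fun hv ξ => ?_, fun hv => h.eq_zero_of_cL fun ξ => ?_⟩
  · have := h.cL_mp ξ 1 b v
    rw [hv, map_zero] at this
    exact this.symm
  · rw [cL_mp]; exact hv _

/-- An endomorphism commuting with `End U ⊗ 1` lies in `1 ⊗ End W`. -/
theorem exists_eq_mp_one [Nontrivial U] {s : End F V}
    (hs : ∀ (ξ : Dual F U) (x : U), s * h.mp (ξ.smulRight x) 1 = h.mp (ξ.smulRight x) 1 * s) :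
    ∃ b, s = h.mp 1 b := by
  obtain ⟨x₀, hx₀⟩ := exists_ne (0 : U)
  obtain ⟨ξ, hξ⟩ := Module.Projective.exists_dual_eq_one F hx₀
  refine ⟨h.cL ξ ∘ₗ s ∘ₗ T x₀, h.ext fun x y => ?_⟩
  have := LinearMap.congr_fun (hs ξ x) (T x₀ y)
  simpa [mp_smulRight, hξ] using this

end FinU

section FinW

variable [FiniteDimensional F W]

theorem eq_zero_of_cR {v : V} (hv : ∀ η, h.cR η v = 0) : v = 0 := h.flip.eq_zero_of_cL hv

theorem eq_of_cR {u v : V} (hv : ∀ η, h.cR η u = h.cR η v) : u = v := h.flip.eq_of_cL hv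

theorem mem_map₂_top_right {A : Submodule F U} {v : V} :
    v ∈ Submodule.map₂ T A ⊤ ↔ ∀ η, h.cR η v ∈ A := by
  rw [← map₂_flip']; exact h.flip.mem_map₂_top_left

theorem ker_mp_one' (a : End F U) :
    LinearMap.ker (h.mp a 1) = Submodule.map₂ T (LinearMap.ker a) ⊤ := by
  rw [← map₂_flip', ← h.mp_flip]; exact h.flip.ker_mp_one a

theorem exists_eq_mp_one' [Nontrivial W] {s : End F V}
    (hs : ∀ (η : Dual F W) (y : W), s * h.mp 1 (η.smulRight y) = h.mp 1 (η.smulRight y) * s) :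
    ∃ a, s = h.mp a 1 := by
  simpa only [h.mp_flip] using h.flip.exists_eq_mp_one (s := s) (by simpa only [h.mp_flip] using hs)

end FinW

theorem mp_injective_left {b : End F W} (hb : b ≠ 0) {a c : End F U} (e : h.mp a b = h.mp c b) :
    a = c := by
  obtain ⟨y, hy⟩ : ∃ y, b y ≠ 0 := by by_contra! hc; exact hb (LinearMap.ext hc)
  exact LinearMap.ext fun x => h.injective' hy (by simpa using LinearMap.congr_fun e (T x y))

theorem mp_injective_right {a : End F U} (ha : a ≠ 0) {b d : End F W}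
    (e : h.mp a b = h.mp a d) : b = d :=
  h.flip.mp_injective_left ha (by rwa [h.mp_flip, h.mp_flip])

theorem finrank_map₂ (A : Submodule F U) (B : Submodule F W) :
    finrank F (Submodule.map₂ T A B) = finrank F A * finrank F B := by
  rw [TensorProduct.map₂_eq_range_lift_comp_mapIncl, LinearMap.finrank_range_of_inj,
    finrank_tensorProduct]
  rw [LinearMap.coe_comp]
  exact h.1.comp (Module.Flat.tensorProduct_mapIncl_injective_of_right A B)

variable [FiniteDimensional F U] [FiniteDimensional F W]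

theorem mem_map₂ {A : Submodule F U} {B : Submodule F W} {v : V} :
    v ∈ Submodule.map₂ T A B ↔ (∀ ξ, h.cL ξ v ∈ B) ∧ ∀ η, h.cR η v ∈ A := by
  refine ⟨fun hv => ⟨h.cL_mem hv, h.cR_mem hv⟩, fun ⟨h1, h2⟩ => ?_⟩
  obtain ⟨A', hA⟩ := A.exists_isCompl
  obtain ⟨B', hB⟩ := B.exists_isCompl
  set p := A.subtype ∘ₗ A.projectionOnto A' hA
  set q := B.subtype ∘ₗ B.projectionOnto B' hB
  have e1 : h.mp 1 q v = v := h.eq_of_cL fun ξ => by
    rw [cL_mp]; exact congrArg Subtype.val (B.projectionOnto_apply_left hB ⟨_, h1 ξ⟩)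
  have e2 : h.mp p 1 v = v := h.eq_of_cR fun η => by
    rw [cR_mp]; exact congrArg Subtype.val (A.projectionOnto_apply_left hA ⟨_, h2 η⟩)
  have e3 : h.mp p q v = v := by
    rw [← mul_one p, ← one_mul q, mp_mul, End.mul_apply, e1, e2]
  rw [← e3]
  exact h.mp_mem (A := ⊤) (B := ⊤) (fun x _ => Submodule.coe_mem _) (fun x _ => Submodule.coe_mem _)
    (h.span ▸ Submodule.mem_top)

theorem map₂_inf (A A' : Submodule F U) (B B' : Submodule F W) :
    Submodule.map₂ T A B ⊓ Submodule.map₂ T A' B' = Submodule.map₂ T (A ⊓ A') (B ⊓ B') := by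
  ext v
  simp only [Submodule.mem_inf, h.mem_map₂, forall_and]
  tauto

theorem det_mp (a : End F U) (b : End F W) :
    LinearMap.det (h.mp a b) = LinearMap.det a ^ finrank F W * LinearMap.det b ^ finrank F U := by
  have : h.mp a b = h.eqv.toLinearMap ∘ₗ TensorProduct.map a b ∘ₗ h.eqv.symm.toLinearMap :=
    h.ext fun x y => by simp
  rw [this, LinearMap.det_conj, ← LinearMap.det_toMatrix ((finBasis F U).tensorProduct (finBasis F W)),
    TensorProduct.toMatrix_map, Matrix.det_kronecker]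
  simp

end IsTens

theorem _root_.Cfsg.Lib.Class.AO.Tens.isTens [FiniteDimensional F U] [FiniteDimensional F W]
    [FiniteDimensional F V] {Q : QuadraticForm F V} {T : U →ₗ[F] W →ₗ[F] V}
    {f : LinearMap.BilinForm F U} {g : LinearMap.BilinForm F W} (h : Tens Q T f g) : IsTens T :=
  h.bijective

theorem isTens_of_span [FiniteDimensional F U] [FiniteDimensional F W] [FiniteDimensional F V]
    {T : U →ₗ[F] W →ₗ[F] V} (hs : Submodule.map₂ T ⊤ ⊤ = ⊤)
    (hd : finrank F V = finrank F U * finrank F W) : IsTens T := by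
  have h2 : Function.Surjective (TensorProduct.lift T) := by
    rw [← LinearMap.range_eq_top, eq_top_iff, ← hs, TensorProduct.map₂_eq_range_lift_comp_mapIncl]
    exact LinearMap.range_comp_le_range _ _
  exact ⟨(LinearMap.injective_iff_surjective_of_finrank_eq_finrank
    (by rw [finrank_tensorProduct, hd])).2 h2, h2⟩

end Cfsg.Lib.Class.Tn
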