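import Cfsg.Agent.Class.Tens.Gen

/-!
Symmetric and alternating factors in odd characteristic.
-/

set_option autoImplicit false

namespace Cfsg.Lib.Class.Tn

open Module Form AO

variable {F U W V : Type*} [Field F] [AddCommGroup U] [Module F U] [AddCommGroup W] [Module F W]
  [AddCommGroup V] [Module F V]

theorem smul_of_sq {M : Type*} [AddCommGroup M] [Module F M] (h2 : (2 : F) ≠ 0) {A : M → Prop}
    (hA : ∀ a b, A a → A b → A (a - b)) {γ : M} (h : ∀ c : F, A (c ^ 2 • γ)) (t : F) :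
    A (t • γ) := by
  convert hA _ _ (h ((t + 1) / 2)) (h ((t - 1) / 2)) using 1
  rw [← sub_smul]
  congr 1
  field_simp
  ring

theorem exists_iso_mem [Finite F] [FiniteDimensional F W] (h : W →ₗ[F] W →ₗ[F] F)
    {S : Submodule F W} (hS : 3 ≤ finrank F S) : ∃ p ∈ S, p ≠ 0 ∧ h p p = 0 :=
  OMax.exists_singular_mem (LinearMap.BilinMap.toQuadraticMap h) hS

theorem finrank_ker_two [FiniteDimensional F W] (φ ψ : Dual F W) :
    finrank F W ≤ finrank F (LinearMap.ker φ ⊓ LinearMap.ker ψ : Submodule F W) + 2 := by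
  have h3 := Submodule.finrank_sup_add_finrank_inf_eq (LinearMap.ker φ) (LinearMap.ker ψ)
  have h4 := φ.finrank_range_add_finrank_ker
  have h5 := ψ.finrank_range_add_finrank_ker
  have h6 := (LinearMap.range φ).finrank_le
  have h7 := (LinearMap.range ψ).finrank_le
  have h8 := (LinearMap.ker φ ⊔ LinearMap.ker ψ).finrank_le
  rw [finrank_self] at h6 h7
  omega

theorem exists_iso_orth [Finite F] [FiniteDimensional F W] (h : W →ₗ[F] W →ₗ[F] F)
    (hn : 5 ≤ finrank F W) (x y : W) : ∃ p, p ≠ 0 ∧ h p p = 0 ∧ h x p = 0 ∧ h y p = 0 := by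
  have := finrank_ker_two (h x) (h y)
  obtain ⟨p, h1, h2, h3⟩ := exists_iso_mem h (S := LinearMap.ker (h x) ⊓ LinearMap.ker (h y))
    (by omega)
  exact ⟨p, h2, h3, h1.1, h1.2⟩

namespace Hm

section Gen

variable {σ : F →+* F} {h : W →ₛₗ[σ] W →ₗ[F] F} {ε : F} (hh : Hm h ε)
include hh

theorem exists_orth_ne {x y : W} (hx0 : x ≠ 0) (hy : ∀ a : F, y ≠ a • x) :
    ∃ u, h x u = 0 ∧ h y u = 1 := by
  obtain ⟨u, h1, h2⟩ : ∃ u, h x u = 0 ∧ h y u ≠ 0 := by
    by_contra! hc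
    obtain ⟨a, ha⟩ := hh.mem_span_of_orth hx0 fun u hu => hh.comm (hc u hu)
    exact hy a ha
  exact ⟨(h y u)⁻¹ • u, by simp [h1], by simp [h2]⟩

theorem ne_smul_of {x x' y : W} (hxx : h x x' = 1) (hy0 : y ≠ 0) (hy : h x' y = 0) (a : F) :
    y ≠ a • x := by
  rintro rfl
  simp [hh.swap_one hxx, hh.eps_ne] at hy
  simp [hy] at hy0

/-- The isotropic vectors of `x^⊥` span it. -/
theorem iso_span {x p : W} (hx0 : x ≠ 0) (hp : h p p = 0) (hxp : h x p = 0)
    (hp' : ∀ a : F, p ≠ a • x) {K : Submodule F W} (hK : ∀ y, h y y = 0 → h x y = 0 → y ∈ K)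
    {u : W} (hu : h x u = 0) : u ∈ K := by
  obtain ⟨y, h1, h2⟩ := hh.exists_orth_ne hx0 hp'
  obtain ⟨a, h3, h4⟩ := hh.partner hp h2
  obtain ⟨b, h5, -⟩ := hh.partner hp (y := u + (1 - h p u) • y) (by simp [h2])
  have h6 := hK _ h3 (by simp [h1, hxp])
  have h7 := hK _ h5 (by simp [h1, hxp, hu])
  convert K.add_mem (K.sub_mem h7 (K.smul_mem (1 - h p u) h6))
    (K.smul_mem (b - (1 - h p u) * a) (hK p hp hxp)) using 1
  module

end Gen

variable {h : W →ₗ[F] W →ₗ[F] F}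

theorem symm (hh : Hm h 1) (u v : W) : h u v = h v u := by simpa using hh.sym u v

theorem skew (hh : Hm h (-1)) (u v : W) : h u v = -h v u := by simpa using hh.sym u v

theorem alt (hh : Hm h (-1)) (h2 : (2 : F) ≠ 0) (u : W) : h u u = 0 :=
  (mul_eq_zero.1 (by linear_combination hh.skew u u)).resolve_left h2

theorem nondeg {ε : F} (hh : Hm h ε) : LinearMap.BilinForm.Nondegenerate h := ⟨hh.sep, hh.sep'⟩

theorem _root_.Cfsg.Lib.Class.Tn.hm_of_alt (hn : LinearMap.BilinForm.Nondegenerate h)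
    (ha : ∀ u, h u u = 0) : Hm h (-1) :=
  ⟨fun _ => rfl, by simp, fun u v => by simp [← LinearMap.IsAlt.neg ha v u], hn.1,
    fun u => ⟨0, by simp [ha]⟩⟩

theorem _root_.Cfsg.Lib.Class.Tn.hm_of_symm (h2 : (2 : F) ≠ 0)
    (hn : LinearMap.BilinForm.Nondegenerate h) (hs : ∀ u v, h u v = h v u) : Hm h 1 :=
  ⟨fun _ => rfl, by simp, fun u v => by simp [hs u v], hn.1,
    fun u => ⟨h u u / 2, by simp only [RingHom.id_apply]; field_simp; ring⟩⟩

variable [FiniteDimensional F W]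

theorem exists_aniso (hh : Hm h 1) (h2 : (2 : F) ≠ 0) (l : List W)
    (hn : 2 * l.length < finrank F W) : ∃ d, (∀ x ∈ l, h x d = 0) ∧ h d d ≠ 0 := by
  by_contra! hc
  let S := Submodule.span F {x | x ∈ l}
  have h1 : finrank F S ≤ l.length := by
    classical
    have := (finrank_span_finset_le_card (R := F) l.toFinset).trans l.toFinset_card_le
    rwa [List.coe_toFinset] at this
  obtain ⟨u, hu, hu'⟩ := exists_orth_notMem (B := h) l S (by omega)
  obtain ⟨w, h3, h4⟩ := hh.exists_sep hu'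
  have h5 : ∀ x ∈ l, h x w = 0 := fun x hx => hh.comm (h3 x (Submodule.subset_span hx))
  have := hc (u + w) fun x hx => by simp [hu x hx, h5 x hx]
  simp only [map_add, LinearMap.add_apply, hc u hu, hc w h5, hh.symm u w, h4] at this
  exact h2 (by linear_combination this)

theorem eigen_of_selfadj (hh : Hm h 1) (h2 : (2 : F) ≠ 0)
    (hn : 4 ≤ finrank F W ∨ 3 ≤ finrank F W ∧ ∃ t : F, t ≠ 0 ∧ t ^ 2 ≠ 1) {p : W} (hp0 : p ≠ 0)
    (hp : h p p = 0) {γ : End F W} (hs : ∀ w w', h (γ w) w' = h w (γ w'))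
    (hγ : ∀ b ∈ Rad h (Submodule.span F {p}), ∃ c : F, b.conj γ - γ = c • 1) :
    ∃ d : F, γ p = d • p := by
  refine hh.mem_span_of_fix (by omega) hp0 hp (fun b hb => ?_) fun hv => ?_
  · obtain ⟨c, hc⟩ := hγ b hb
    exact ⟨c, by rw [apply_of_conj hc, (mem_Rad_span.1 hb).2.1]⟩
  have hv' := hh.comm hv
  have R : ∀ u, h p u = 0 → ∀ w, ∃ c, 2 * c = h u u ∧
      h (γ (w + h p w • u - (h u w + c * h p w) • p)) (w + h p w • u - (h u w + c * h p w) • p) =
        h (γ w) w + h u (γ p) * h w w := fun u hu w => by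
    obtain ⟨b, hb, c, hc, e⟩ := hh.exists_eich hp hu
    obtain ⟨d, hd⟩ := hγ b hb
    have h1 := apply_of_conj hd p
    rw [(mem_Rad_span.1 hb).2.1, e, hv] at h1
    have h3 : d = -h u (γ p) :=
      smul_left_injective F hp0 (by linear_combination (norm := module) -h1)
    have h4 := iso hb.1 (γ w) w
    rw [apply_of_conj hd, map_add, LinearMap.add_apply, map_smul, LinearMap.smul_apply,
      iso hb.1, e, one_mul, smul_eq_mul, h3] at h4
    exact ⟨c, by linear_combination hc, by linear_combination h4⟩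
  rcases hn with hn | ⟨hn, t, ht0, ht⟩
  · have h1 : ∀ y, h p y = 0 → y ∉ Submodule.span F {γ p, p} → h (γ p) y = 0 := fun y hy hy' => by
      obtain ⟨c, hc⟩ := hh.mem_span_of_orth hp0 (y := (2 * h (γ p) y) • y + h y y • γ p)
        fun u hu => by
          obtain ⟨c, -, h3⟩ := R u hu y
          simp only [hy, map_sub, map_smul, LinearMap.sub_apply, LinearMap.smul_apply, hv', zero_smul,
            add_zero, mul_zero, smul_eq_mul, hs y p, hh.symm y (γ p)] at h3
          simp only [map_add, map_smul, smul_eq_mul]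
          linear_combination -h3
      by_contra h0
      refine hy' (Submodule.mem_span_pair.2 ⟨-((2 * h (γ p) y)⁻¹ * h y y), (2 * h (γ p) y)⁻¹ * c, ?_⟩)
      rw [mul_smul, ← hc, smul_add, inv_smul_smul₀ (mul_ne_zero h2 h0)]
      module
    have h3 := Orth.finrank_span_pair_le (F := F) (γ p) p
    obtain ⟨y, h4, h5⟩ := exists_orth_notMem (B := h) [p] (Submodule.span F {γ p, p})
      (by simp only [List.length_singleton]; omega)
    have h6 := h4 p (by simp)
    have h7 := h1 (y + γ p) (by simp [h6, hv])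
      (by rwa [Submodule.add_mem_iff_left _ (Submodule.subset_span (by simp))])
    rw [map_add, h1 y h6 h5, zero_add] at h7
    intro u hu
    by_cases h8 : u ∈ Submodule.span F {γ p, p}
    · obtain ⟨a, b, rfl⟩ := Submodule.mem_span_pair.1 h8
      simp [h7, hv]
    · exact hh.comm (h1 u hu h8)
  · obtain ⟨p', hp', hpp⟩ := hh.exists_partner hp0 hp
    have hpp' := hh.swap_one hpp
    have h1 : ∀ u, h p u = 0 → h p' u = 0 → h u u * h u (γ p) = 0 := fun u hu hu' => by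
      have key : ∀ s : F, 2 * s * h (γ p') u - s ^ 2 * h u u * h (γ p) p' + s ^ 2 * h (γ u) u -
          s ^ 3 * h u u * h u (γ p) = 0 := fun s => by
        obtain ⟨c, h3, h4⟩ := R (s • u) (by simp [hu]) p'
        simp only [hpp, hp', map_add, map_sub, map_smul, LinearMap.add_apply, LinearMap.sub_apply,
          LinearMap.smul_apply, smul_eq_mul, hv', hh.comm hu', hs u p', hs u p, hs p' p,
          hh.symm u (γ p'), hh.symm (γ p) u, hh.symm p' (γ p)] at h3 h4
        linear_combination h4 + (h (γ p) p' + s * h u (γ p)) * h3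
      have : 2 * t * (1 - t ^ 2) * (h u u * h u (γ p)) = 0 := by
        linear_combination key t - key (-t) - t * key 1 + t * key (-1)
      simpa [h2, ht0, sub_eq_zero, ht.symm] using this
    intro u hu
    have h3 := h1 (u - h p' u • p) (by simp [hu, hp]) (by simp [hpp'])
    have h4 := h1 (γ p - h p' (γ p) • p) (by simp [hv, hp]) (by simp [hpp'])
    have h5 := h1 (u - h p' u • p + (γ p - h p' (γ p) • p)) (by simp [hu, hv, hp]) (by simp [hpp'])
    simp only [map_add, map_sub, map_smul, LinearMap.add_apply, LinearMap.sub_apply,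
      LinearMap.smul_apply, smul_eq_mul, hp, hu, hv, hv', hh.comm hu, hh.symm (γ p) u, mul_zero,
      sub_zero, mul_self_eq_zero] at h3 h4 h5
    have : 2 * h u (γ p) ^ 2 = 0 := by
      rw [h4] at h5
      linear_combination h5 - h3
    simpa [h2] using this

theorem cent_selfadj (hh : Hm h 1) (h2 : (2 : F) ≠ 0)
    (hn : 4 ≤ finrank F W ∨ 3 ≤ finrank F W ∧ ∃ t : F, t ≠ 0 ∧ t ^ 2 ≠ 1) {p : W} (hp0 : p ≠ 0)
    (hp : h p p = 0) {γ : End F W} (hs : ∀ w w', h (γ w) w' = h w (γ w'))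
    (hγ : ∀ b ∈ Rad h (Submodule.span F {p}), ∃ c : F, b.conj γ - γ = c • 1) :
    ∃ c d : F, ∀ y, γ y = c • y + (d * h p y) • p := by
  obtain ⟨d, hd⟩ := hh.eigen_of_selfadj h2 hn hp0 hp hs hγ
  obtain ⟨p', hp'⟩ := hh.exists_eq_one hp0
  obtain ⟨c, z, h3, h4, h5⟩ := hh.cent (by omega) hp hp' (Hm.comm_of_eigen hp0 hd hγ)
  have h6 : ∀ u, h p u = 0 → h u z = 0 := fun u hu => by
    have h7 := hs u p'
    simp only [h5 u hu, h4, map_add, map_sub, map_smul, LinearMap.sub_apply, LinearMap.smul_apply,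
      smul_eq_mul, hp'] at h7
    exact (mul_eq_zero.1 (by linear_combination -h7)).resolve_left h2
  obtain ⟨s, rfl⟩ := hh.mem_span_of_orth hp0 h6
  refine ⟨c, s, fun y => ?_⟩
  have h7 := h5 (y - h p y • p') (by simp [hp'])
  rw [h6 _ (by simp [hp']), map_sub, map_smul, h4] at h7
  linear_combination (norm := module) h7

/-- An invariant family of self-adjoint maps contains the root maps, or consists of scalars. -/
theorem exists_root_selfadj (hh : Hm h 1) (h2 : (2 : F) ≠ 0)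
    (hn : 4 ≤ finrank F W ∨ 3 ≤ finrank F W ∧ ∃ t : F, t ≠ 0 ∧ t ^ 2 ≠ 1) {p : W} (hp0 : p ≠ 0)
    (hp : h p p = 0) {A : End F W → Prop} (h1 : ∀ γ δ, A γ → A δ → A (γ - δ))
    (h3 : ∀ c : F, A (c • 1)) (h4 : ∀ b ∈ Rad h (Submodule.span F {p}), ∀ γ, A γ → A (b.conj γ))
    (hs : ∀ γ, A γ → ∀ w w', h (γ w) w' = h w (γ w')) {γ : End F W} (hγ : A γ)
    (hγ' : ¬ ∃ s : F, γ = s • 1) : ∃ d : F, d ≠ 0 ∧ A (d • (h p).smulRight p) := by
  obtain ⟨γ, h5, h6, h7⟩ := exists_fix_Rad (B := h) (S := Submodule.span F {p})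
    (A := A) (A₀ := fun γ => ∃ s : F, γ = s • 1)
    (fun b hb γ hγ => h1 _ _ (h4 b hb γ hγ) hγ) ⟨0, by simp⟩ hγ hγ'
  obtain ⟨c, d, e⟩ := hh.cent_selfadj h2 hn hp0 hp (hs γ h5) h7
  refine ⟨d, fun h0 => h6 ⟨c, LinearMap.ext fun y => by simp [e, h0]⟩, ?_⟩
  convert h1 _ _ h5 (h3 c) using 1
  ext y
  simp [e, mul_smul]

theorem scalar_of_aniso (hh : Hm h 1) (h2 : (2 : F) ≠ 0) (hn : 3 ≤ finrank F W) {e : End F W}
    (he : ∀ w, h w w ≠ 0 → ∃ c : F, e w = c • w) : ∃ s : F, e = s • 1 := by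
  have key : ∀ w w' (a b : F), h w w ≠ 0 → h w' w' ≠ 0 → e w = a • w → e w' = b • w' → a = b := by
    intro w w' a b hw hw' ha hb
    by_contra hab
    have h0 : ∀ s t : F, s • w = t • w' → s = 0 := fun s t hst => by
      have h3 := congrArg e hst
      rw [map_smul, map_smul, ha, hb, smul_comm t, ← hst] at h3
      have : (s * (a - b)) • w = 0 := by linear_combination (norm := module) h3
      simpa [sub_eq_zero, hab, show w ≠ 0 from fun h0 => by simp [h0] at hw] using this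
    have h1 : ∀ t : F, t ≠ 0 → h (w + t • w') (w + t • w') = 0 := fun t ht => by
      by_contra hc
      obtain ⟨c, hc⟩ := he _ hc
      rw [map_add, map_smul, ha, hb] at hc
      have h3 := h0 (a - c) (t * (c - b)) (by linear_combination (norm := module) hc)
      rw [show c = a by linear_combination -h3] at hc
      have : (t * (a - b)) • w' = 0 := by linear_combination (norm := module) -hc
      simp [sub_eq_zero, hab, ht, show w' ≠ 0 from fun h0 => by simp [h0] at hw'] at this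
    have h3 := h1 1 one_ne_zero
    have h4 := h1 (-1) (by simp)
    simp only [map_add, map_smul, LinearMap.add_apply, LinearMap.smul_apply, smul_eq_mul,
      hh.symm w' w] at h3 h4
    have h5 : h w w' = 0 := (mul_eq_zero.1 (show 2 * 2 * h w w' = 0 by
      linear_combination h3 - h4)).resolve_left (mul_ne_zero h2 h2)
    obtain ⟨d, h6, h7, h8⟩ : ∃ d, h w d = 0 ∧ h w' d = 0 ∧ h d d ≠ 0 := by
      obtain ⟨u, hu, hu0⟩ := exists_orth_notMem (B := h) [w, w'] ⊥ (by simp; omega)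
      obtain ⟨v, hv⟩ := hh.exists_eq_one (u := u) hu0
      have a1 := hu w (by simp)
      have a2 := hu w' (by simp)
      by_contra! hc
      have b1 : h w (v - (h w v / h w w) • w - (h w' v / h w' w') • w') = 0 := by simp [hw, h5]
      have b2 : h w' (v - (h w v / h w w) • w - (h w' v / h w' w') • w') = 0 := by
        simp [hw', hh.comm h5]
      have b3 : h u (v - (h w v / h w w) • w - (h w' v / h w' w') • w') = 1 := by
        simp [hh.comm a1, hh.comm a2, hv]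
      generalize v - (h w v / h w w) • w - (h w' v / h w' w') • w' = y at b1 b2 b3
      have := hc (u + y) (by simp [a1, b1]) (by simp [a2, b2])
      simp only [map_add, LinearMap.add_apply, hc u a1 a2, hc y b1 b2, hh.symm y u, b3] at this
      exact h2 (by linear_combination this)
    obtain ⟨s, hs⟩ := he (w + w' + d) (by
      simp only [map_add, LinearMap.add_apply, h5, h6, h7, hh.comm h5, hh.comm h6, hh.comm h7]
      exact fun h0 => h8 (by linear_combination h0 - h3 + 2 * h5))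
    obtain ⟨c, hc⟩ := he d h8
    have h9 := congrArg (h w) hs
    have h10 := congrArg (h w') hs
    simp [ha, hb, hc, h5, h6, h7, hh.comm h5, hw, hw'] at h9 h10
    exact hab (h9.trans h10.symm)
  obtain ⟨w, -, hw⟩ := hh.exists_aniso h2 [] (by simp; omega)
  obtain ⟨s, hs⟩ := he w hw
  have h1 : ∀ y, h y y ≠ 0 → e y = s • y := fun y hy => by
    obtain ⟨c, hc⟩ := he y hy
    rw [hc, key y w c s hy hw hc hs]
  refine ⟨s, LinearMap.ext fun y => ?_⟩
  change e y = s • y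
  by_cases h3 : h y y = 0
  · by_cases h4 : h (y + w) (y + w) = 0
    · have := h1 (y - w) fun h5 => by
        simp only [map_add, map_sub, LinearMap.add_apply, LinearMap.sub_apply, h3] at h4 h5
        exact mul_ne_zero h2 hw (by linear_combination h4 + h5)
      rw [map_sub, hs] at this
      linear_combination (norm := module) this
    · have := h1 _ h4
      rw [map_add, hs] at this
      linear_combination (norm := module) this
  · exact h1 y h3

theorem exists_refl (hh : Hm h 1) {w : W} (hw : h w w ≠ 0) :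
    ∃ r ∈ isomGroup h, (∀ y, r y = y - (2 / h w w * h w y) • w) ∧ ∀ y, r.symm y = r y := by
  have e : ∀ y, reflEquiv h w (-(2 / h w w)) (by field_simp; norm_num) y =
      y - (2 / h w w * h w y) • w := fun y => by rw [reflEquiv_apply]; module
  refine ⟨_, fun u v => ?_, e, fun y => (LinearEquiv.symm_apply_eq _).2 ?_⟩
  · simp only [e, map_sub, map_smul, LinearMap.sub_apply, LinearMap.smul_apply, smul_eq_mul,
      hh.symm u w]
    field_simp
    ring
  · simp only [e, map_sub, map_smul, smul_eq_mul]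
    match_scalars
    · ring
    · field_simp; ring

end Hm

theorem scalar_of_eigen {e : End F W} (he : ∀ w, ∃ c : F, e w = c • w) : ∃ s : F, e = s • 1 :=
  LinearMap.exists_eq_smul_id_of_forall_notLinearIndependent fun v => by
    obtain ⟨c, hc⟩ := he v
    rw [LinearIndependent.pair_iff]
    exact fun H => by simpa using (H c (-1) (by simp [hc])).2

theorem conj_tv_apply {σ : F →+* F} {h : W →ₛₗ[σ] W →ₗ[F] F} {w : W} (hw : h w w = 0) {s : F}
    {b : W ≃ₗ[F] W} (e : ∀ y, b y = y + (s * h w y) • w) (γ : End F W) (y : W) :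
    b.conj γ y = γ y - (s * h w y) • γ w + (s * h w (γ y) - s ^ 2 * h w y * h w (γ w)) • w := by
  have : b.symm y = y - (s * h w y) • w := b.injective (by
    rw [b.apply_symm_apply, e]; simp [hw])
  rw [LinearEquiv.conj_apply_apply, this, e]
  simp only [map_sub, map_smul, smul_eq_mul]
  module

theorem Hm.scalar_of_comm_alt {h : W →ₗ[F] W →ₗ[F] F} (hh : Hm h (-1)) (h2 : (2 : F) ≠ 0)
    (A : End F W → Prop) (h1 : ∀ γ δ, A γ → A δ → A (γ - δ))
    (h3 : ∀ p, h p p = 0 → ∀ b ∈ Rad h (Submodule.span F {p}), ∀ γ, A γ → A (b.conj γ))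
    (hs : ∀ γ, A γ → ∀ w w', h (γ w) w' = h w (γ w')) (hc : ∀ γ δ, A γ → A δ → γ * δ = δ * γ)
    (γ : End F W) (hγ : A γ) : ∃ s : F, γ = s • 1 := by
  refine scalar_of_eigen fun w => ?_
  by_cases hw0 : w = 0
  · exact ⟨0, by simp [hw0]⟩
  by_contra! h4
  obtain ⟨y, h5, h6⟩ := hh.exists_orth_ne hw0 h4
  obtain ⟨b, hb, e⟩ := hh.exists_tv (hh.alt h2 w) (c := 1) (by simp)
  have h7 : h w (γ w) = 0 := (mul_eq_zero.1 (show 2 * h w (γ w) = 0 by
    linear_combination hh.skew w (γ w) - hs γ hγ w w)).resolve_left h2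
  have h8 := LinearMap.congr_fun (hc _ _ (h1 _ _ (h3 w (hh.alt h2 w) b hb γ hγ) hγ) hγ) y
  simp only [End.mul_apply, LinearMap.sub_apply, conj_tv_apply (hh.alt h2 w) e, h5, h7,
    ← hs γ hγ w y, h6, map_sub, map_add, map_smul] at h8
  refine h4 (2⁻¹ * h w (γ (γ y))) ?_
  rw [mul_smul, eq_inv_smul_iff₀ h2]
  linear_combination (norm := module) -h8

theorem Hm.scalar_of_comm_symm [Finite F] [FiniteDimensional F W] {h : W →ₗ[F] W →ₗ[F] F}
    (hh : Hm h 1) (h2 : (2 : F) ≠ 0)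
    (hn : 4 ≤ finrank F W ∨ 3 ≤ finrank F W ∧ ∃ t : F, t ≠ 0 ∧ t ^ 2 ≠ 1)
    (A : End F W → Prop) (h1 : ∀ γ δ, A γ → A δ → A (γ - δ)) (h0 : ∀ s : F, A (s • 1))
    (h3 : ∀ p, h p p = 0 → ∀ b ∈ Rad h (Submodule.span F {p}), ∀ γ, A γ → A (b.conj γ))
    (hs : ∀ γ, A γ → ∀ w w', h (γ w) w' = h w (γ w')) (hc : ∀ γ δ, A γ → A δ → γ * δ = δ * γ)
    (γ : End F W) (hγ : A γ) : ∃ s : F, γ = s • 1 := by
  by_contra h4
  obtain ⟨p, -, hp0, hp⟩ := exists_iso_mem h (S := ⊤) (by rw [finrank_top]; omega)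
  obtain ⟨p', hp', hpp⟩ := hh.exists_partner hp0 hp
  obtain ⟨d, hd, h5⟩ := hh.exists_root_selfadj h2 hn hp0 hp h1 h0 (h3 p hp) hs hγ h4
  obtain ⟨d', hd', h6⟩ := hh.exists_root_selfadj h2 hn (fun h0 => by simp [h0] at hpp) hp' h1 h0
    (h3 p' hp') hs hγ h4
  simpa [hp, hpp, hh.swap_one hpp, hd, hd', hp0] using LinearMap.congr_fun (hc _ _ h5 h6) p

section Ctx

variable {σ : F →+* F} {T : U →ₗ[F] W →ₗ[F] V} {f : U →ₛₗ[σ] U →ₗ[F] F} {h : W →ₛₗ[σ] W →ₗ[F] F}
  {β : V →ₛₗ[σ] V →ₗ[F] F} {ε₁ ε₂ : F} {X : Subgroup (V ≃ₗ[F] V)}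

theorem TF.mpE_eich (t : TF T f ε₁ h ε₂ β) {a : U ≃ₗ[F] U} {z u : U} {s : F}
    (e : ∀ y, a y = y + f z y • u - (ε₁ * f u y + s * f z y) • z) (v : V) :
    t.hT.mpE a 1 v = v + T u (t.c z v) - T z (ε₁ • t.c u v + s • t.c z v) := by
  refine t.hT.ind (P := fun v => t.hT.mpE a 1 v =
    v + T u (t.c z v) - T z (ε₁ • t.c u v + s • t.c z v)) (by simp) (fun u v hu hv => ?_)
    (fun y w => ?_) v
  · simp only [map_add, hu, hv, map_smul]; module
  · simp only [IsTens.mpE_apply, e, map_add, map_sub, map_smul, TF.c_apply, LinearMap.add_apply,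
      LinearMap.sub_apply, LinearMap.smul_apply, LinearEquiv.coe_one, id]
    module

theorem TF.mpE_eich_sub (t : TF T f ε₁ h ε₂ β) {a : U ≃ₗ[F] U} {z u : U} {s : F}
    (e : ∀ y, a y = y + f z y • u - (ε₁ * f u y + s * f z y) • z) (v : V) :
    t.hT.mpE a 1 v - v = T u (t.c z v) - T z (ε₁ • t.c u v + s • t.c z v) := by
  rw [t.mpE_eich e]; abel

theorem TF.mpE_tv (t : TF T f ε₁ h ε₂ β) {a : U ≃ₗ[F] U} {z : U} {s : F}
    (e : ∀ y, a y = y + (s * f z y) • z) (v : V) : t.hT.mpE a 1 v = v + s • T z (t.c z v) := by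
  rw [t.mpE_eich (z := z) (u := 0) (s := -s) fun y => by simp [e]]
  simp [TF.c]

variable [FiniteDimensional F W] (c : Ctx T f ε₁ h ε₂ β X)

theorem Ctx.exists_move (hU : SpanOpp f) {x y : U} (hx0 : x ≠ 0) (hx : f x x = 0) (hy0 : y ≠ 0)
    (hy : f y y = 0) : ∃ a ∈ isomGroup f, c.hT.mpE a 1 ∈ X ∧ ∃ s : F, s ≠ 0 ∧ a x = s • y := by
  obtain ⟨z, hz, h1, h2⟩ : ∃ z, f z z = 0 ∧ f z x ≠ 0 ∧ f z y ≠ 0 := by
    by_contra! hc
    have := hU x hx0 hx (LinearMap.ker (f y)) fun z h1 h2 => c.hf.comm (hc z h1 h2)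
    exact hy0 (c.hf.sep y fun v => (this ▸ Submodule.mem_top : v ∈ LinearMap.ker (f y)))
  obtain ⟨a, ha, e⟩ := c.hf.exists_move (y' := (f z x / f z y) • y) hz h1 (by simp [h2])
    (by simp [hx, hy])
  exact ⟨a, ha.1, c.radL_mem hz ha, _, div_ne_zero h1 h2, e⟩

/-- Conjugating an element of the radical by an element of the first factor. -/
theorem Ctx.exists_comm_conj {x x' : U} (hx : f x x = 0) (hxx : f x x' = 1) {q q' : V ≃ₗ[F] V}
    (hq : q ∈ X) (hq' : q' ∈ X) (hR : q ∈ Rad β (JL T x)) (hR' : q' ∈ Rad β (JL T x))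
    {a : U ≃ₗ[F] U} (ha : c.hT.mpE a 1 ∈ X) (h1 : a x = x) (h2 : a x' = x') :
    ∃ δ, c.Gam x δ ∧ ∀ w w', ε₁ * h w (δ w') =
      β (c.hT.mpE a 1 (q' (T x' w)) - q' (T x' w)) (q (T x' w') - T x' w') -
      β (q (T x' w) - T x' w) (c.hT.mpE a 1 (q' (T x' w')) - q' (T x' w')) := by
  obtain ⟨δ, h3, h4⟩ := Ctx.exists_comm (c := c) hx hxx hq hq' hR hR'
  obtain ⟨δ', h5, h6⟩ := Ctx.exists_comm (c := c) hx hxx hq
    (mul_mem (mul_mem ha hq') (inv_mem ha)) hR (Ctx.conj_mem_Rad' (c := c) hR' h1 ha)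
  have h7 : ∀ w, (c.hT.mpE a 1).symm (T x' w) = T x' w := fun w =>
    (c.hT.mpE a 1).injective (by simp [h2])
  refine ⟨_, h5.sub hx h3, fun w w' => ?_⟩
  have h8 := h4 w w'
  have h9 := h6 w w'
  simp only [LinearEquiv.mul_apply, LinearEquiv.coe_inv, h7, map_sub, LinearMap.sub_apply]
    at h8 h9 ⊢
  linear_combination h9 - h8

/-- It suffices to check the middle layer on a spanning set. -/
theorem Ctx.eel_of_span {x x' : U} (hx : f x x = 0) (hxx : f x x' = 1) (S : U → Prop)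
    (hS : ∀ K : Submodule F U, x ∈ K → (∀ y, S y → f x y = 0 → f x' y = 0 → y ∈ K) →
      ∀ u, f x u = 0 → u ∈ K)
    (hE : ∀ u e, S u → f x u = 0 → f x' u = 0 → c.Eel x x' u e → ∃ s : F, e = s • 1)
    (u : U) (e : End F W) (hu : f x u = 0) (he : c.Eel x x' u e) : ∃ s : F, e = s • 1 := by
  obtain ⟨q, hq, hR, he⟩ := he
  let K : Submodule F U :=
    { carrier := {u | ∃ s : F, ∀ w, c.c u (q (T x' w)) = s • w}
      zero_mem' := ⟨0, by simp [TF.c]⟩
      add_mem' := fun ⟨a, ha⟩ ⟨b, hb⟩ => ⟨a + b, fun w => by rw [c.c_add, ha, hb, add_smul]⟩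
      smul_mem' := fun t _ ⟨a, ha⟩ => ⟨σ t * a, fun w => by rw [c.c_smul, ha, mul_smul]⟩ }
  obtain ⟨s, hs⟩ := hS K ⟨1, fun w => by simp [c.c_Rad hR, hxx]⟩ (fun y h1 h2 h3 => by
    obtain ⟨s, hs⟩ := hE y (c.c y ∘ₗ (q : End F V) ∘ₗ T x') h1 h2 h3 ⟨q, hq, hR, fun _ => rfl⟩
    exact ⟨s, LinearMap.congr_fun hs⟩) u hu
  exact ⟨s, LinearMap.ext fun w => by rw [← he, hs]; rfl⟩

end Ctx

section OrthRoot

variable {T : U →ₗ[F] W →ₗ[F] V} {f : U →ₗ[F] U →ₗ[F] F} {h : W →ₗ[F] W →ₗ[F] F}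
  {β : V →ₗ[F] V →ₗ[F] F} {ε : F} {X : Subgroup (V ≃ₗ[F] V)} [FiniteDimensional F U]
  [FiniteDimensional F W] [Finite F] (c : Ctx T f 1 h ε β X)

/-- Orthogonal first factor: if the centre of the radical meets `X` trivially, the middle layer
consists of commuting self-adjoint maps. -/
theorem Ctx.loc_orth (h2 : (2 : F) ≠ 0) (hU : 5 ≤ finrank F U) [Nontrivial W] {x : U} (hx0 : x ≠ 0)
    (hx : f x x = 0) (hΓ : ∀ γ, c.Gam x γ → γ = 0)
    (hW : ∀ A : End F W → Prop, (∀ γ δ, A γ → A δ → A (γ - δ)) → (∀ s : F, A (s • 1)) →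
      (∀ p, h p p = 0 → ∀ b ∈ Rad h (Submodule.span F {p}), ∀ γ, A γ → A (b.conj γ)) →
      (∀ γ, A γ → ∀ w w', h (γ w) w' = h w (γ w')) → (∀ γ δ, A γ → A δ → γ * δ = δ * γ) →
      ∀ γ, A γ → ∃ s : F, γ = s • 1) {g : V ≃ₗ[F] V} (hg : g ∈ X)
    (hJ : ∀ w, g (T x w) ∈ JL T x) : g ∈ tensG T := by
  obtain ⟨x', hx', hxx⟩ := c.hf.exists_partner hx0 hx
  have hxx' := c.hf.swap_one hxx
  obtain ⟨p₀, h3, h4, h5, h6⟩ := exists_iso_orth f hU x x'
  refine c.mem_tensG_of_stab hx0 hx (c.loc_of hx hxx (fun γ hγ => ⟨0, by simp [hΓ γ hγ]⟩)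
    fun u e hu _ he => c.eel_of_span hx hxx (fun y => f y y = 0) (fun K hx hK u hu => ?_)
      (fun p e hp h7 h8 he => ?_) u e hu he) (Or.inl ?_) hg hJ
  · refine c.hf.iso_span hx0 h4 h5 (c.hf.ne_smul_of hxx h3 h6) (fun y hy hy' => ?_) hu
    simpa using K.add_mem (hK (y - f x' y • x) (by simp [*, c.hf.comm hy']) (by simp [*])
      (by simp [hxx'])) (K.smul_mem (f x' y) hx)
  · by_cases hp0 : p = 0
    · obtain ⟨q, -, -, he⟩ := he
      exact ⟨0, LinearMap.ext fun w => by simp [← he, hp0, TF.c]⟩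
    have hs : ∀ e, c.Eel x x' p e → ∀ w w', h (e w) w' = h w (e w') := fun e he w w' => by
      obtain ⟨δ, h1, h2⟩ := he.exists_gam hx hxx h7 h8
      have := h2 w w'
      simp only [hΓ δ h1, LinearMap.zero_apply, map_zero] at this
      linear_combination -this
    refine hW (c.Eel x x' p) (fun _ _ => Ctx.Eel.sub h7 h8) (fun s => ?_)
      (fun y hy b hb γ hγ => hγ.conj (c.radR_mem hy hb)) hs ?_ e he
    · obtain ⟨y, h9, h10⟩ := c.hf.exists_orth_ne hx0 (c.hf.ne_smul_of hxx hp0 h8)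
      simpa [h10] using Ctx.Eel.scalar (c := c) (y := s • y) hx hxx h7 h8 (by simp [h9])
    rintro e₁ e₂ he₁ he₂
    obtain ⟨d, h9, h10, h11, h12⟩ : ∃ d, f x d = 0 ∧ f x' d = 0 ∧ f p d = 0 ∧ f d d ≠ 0 := by
      obtain ⟨y, h9, h10⟩ := c.hf.exists_orth_ne hx0 (c.hf.ne_smul_of hxx hp0 h8)
      obtain ⟨u, hu, hu0⟩ := Hm.exists_orth_notMem (B := f) [x, x', p, y] ⊥ (by simp; omega)
      obtain ⟨v, hv⟩ := c.hf.exists_eq_one (u := u) hu0
      have a1 := hu x (by simp)
      have a2 := hu x' (by simp)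
      have a3 := hu p (by simp)
      have a4 := hu y (by simp)
      by_contra! hc
      have b1 : f x (v - f p v • y - f x v • x' - f x' (v - f p v • y) • x) = 0 := by
        simp [hx, hxx, h9]
      have b2 : f x' (v - f p v • y - f x v • x' - f x' (v - f p v • y) • x) = 0 := by
        simp [hx', hxx']
      have b3 : f p (v - f p v • y - f x v • x' - f x' (v - f p v • y) • x) = 0 := by
        simp [h10, c.hf.comm h7, c.hf.comm h8]
      have b4 : f u (v - f p v • y - f x v • x' - f x' (v - f p v • y) • x) = 1 := by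
        simp [hv, c.hf.comm a1, c.hf.comm a2, c.hf.comm a4]
      generalize v - f p v • y - f x v • x' - f x' (v - f p v • y) • x = z at b1 b2 b3 b4
      have := hc (u + z) (by simp [a1, b1]) (by simp [a2, b2]) (by simp [a3, b3])
      simp only [map_add, LinearMap.add_apply, hc u a1 a2 a3, hc z b1 b2 b3, c.hf.symm z u,
        b4] at this
      exact h2 (by linear_combination this)
    refine LinearMap.ext fun w' => c.hh.ext_right fun w => ?_
    rw [End.mul_apply, End.mul_apply, ← hs _ he₁ w, ← hs _ he₂ w (e₁ w')]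
    obtain ⟨q, hq, hR, r₁⟩ := he₁
    obtain ⟨q', hq', hR', r₂⟩ := he₂
    have key := fun (t : F) => c.hf.exists_eich hp (u := t • d) (by simp [h11])
    obtain ⟨a, ha, s, hs, e⟩ := key 1
    obtain ⟨a', ha', s', hs', e'⟩ := key (-1)
    obtain ⟨δ, k1, k2⟩ := c.exists_comm_conj hx hxx hq hq' hR hR' (c.radL_mem hp ha)
      (by simp [e, c.hf.comm h7, c.hf.comm h9]) (by simp [e, c.hf.comm h8, c.hf.comm h10])
    obtain ⟨δ', k3, k4⟩ := c.exists_comm_conj hx hxx hq hq' hR hR' (c.radL_mem hp ha')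
      (by simp [e', c.hf.comm h7, c.hf.comm h9]) (by simp [e', c.hf.comm h8, c.hf.comm h10])
    have k5 := k2 w w'
    have k6 := k4 w w'
    rw [hΓ _ k1, c.mpE_eich_sub e, c.mpE_eich_sub e] at k5
    rw [hΓ _ k3, c.mpE_eich_sub e', c.mpE_eich_sub e'] at k6
    simp only [map_sub, map_add, LinearMap.sub_apply, LinearMap.add_apply, c.left, c.right, r₁, r₂,
      TF.c_apply, c.hf.comm h8, c.hf.comm h10, h8, h10, c.c_smul, map_smul, LinearMap.smul_apply,
      smul_eq_mul, RingHom.id_apply, LinearMap.zero_apply, map_zero, zero_smul] at k5 k6 hs hs'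
    refine mul_left_cancel₀ (mul_ne_zero h2 h12) ?_
    linear_combination -2 * (k6 + k5) - (hs + hs') * (h (e₁ w) (e₂ w') - h (e₂ w) (e₁ w'))
  · obtain ⟨y, h9, h10⟩ := c.hf.exists_orth_ne hx0 (c.hf.ne_smul_of hxx h3 h6)
    exact ⟨p₀, y, h5, h9, h10 ▸ one_ne_zero⟩

end OrthRoot

end Cfsg.Lib.Class.Tn
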