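import Cfsg.Agent.Class.FormOrth

/-!
Non-degenerate trace-valued `ε`-Hermitian forms (alternating, Hermitian, symmetric in odd
characteristic): Eichler transformations, unipotent radicals, and endomorphisms commuting with the
radical of an isotropic point.
-/

set_option autoImplicit false

namespace Cfsg.Lib.Class.Tn

open Module Form

variable {F V : Type*} [Field F] [AddCommGroup V] [Module F V] {σ : F →+* F}

/-- A non-degenerate trace-valued `ε`-Hermitian form. -/
structure Hm (B : V →ₛₗ[σ] V →ₗ[F] F) (ε : F) : Prop where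
  invol : ∀ a, σ (σ a) = a
  eps : ε * ε = 1
  sym : ∀ u v, B u v = ε * σ (B v u)
  sep : ∀ u, (∀ v, B u v = 0) → u = 0
  tr : ∀ u, ∃ c, ε * c + σ c = B u u

theorem iso {B : V →ₛₗ[σ] V →ₗ[F] F} {g : V ≃ₗ[F] V} (hg : g ∈ isomGroup B) (u v : V) :
    B (g u) (g v) = B u v := hg u v

/-- The isometries acting trivially on `S` and `S^⊥ / S`. -/
def Rad (B : V →ₛₗ[σ] V →ₗ[F] F) (S : Submodule F V) : Subgroup (V ≃ₗ[F] V) where
  carrier := {q | q ∈ isomGroup B ∧ (∀ v ∈ S, q v = v) ∧ ∀ v ∈ orth B S, q v - v ∈ S}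
  one_mem' := ⟨one_mem _, fun _ _ => rfl, fun v _ => by simp⟩
  mul_mem' := by
    rintro a b ⟨a1, a2, a3⟩ ⟨b1, b2, b3⟩
    refine ⟨mul_mem a1 b1, fun v hv => by rw [LinearEquiv.mul_apply, b2 v hv, a2 v hv],
      fun v hv => ?_⟩
    have := S.add_mem (a3 (b v) fun s hs => by rw [← b2 s hs, iso b1, hv s hs]) (b3 v hv)
    rwa [sub_add_sub_cancel] at this
  inv_mem' := by
    rintro a ⟨a1, a2, a3⟩
    refine ⟨inv_mem a1, fun v hv => a.injective (by simp [a2 v hv]), fun v hv => ?_⟩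
    have := S.neg_mem (a3 (a⁻¹ v) fun s hs => by rw [← iso a1, a2 s hs]; simpa using hv s hs)
    simpa using this

theorem mem_Rad {B : V →ₛₗ[σ] V →ₗ[F] F} {S : Submodule F V} {q : V ≃ₗ[F] V} :
    q ∈ Rad B S ↔ q ∈ isomGroup B ∧ (∀ v ∈ S, q v = v) ∧ ∀ v ∈ orth B S, q v - v ∈ S := Iff.rfl

theorem Rad_sub_mem {B : V →ₛₗ[σ] V →ₗ[F] F} {S : Submodule F V} {q : V ≃ₗ[F] V}
    (hq : q ∈ Rad B S) (v : V) : q v - v ∈ orth B S := fun s hs => by
  rw [map_sub, ← iso hq.1 s v, hq.2.1 s hs, sub_self]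

theorem conj_mem_Rad {B : V →ₛₗ[σ] V →ₗ[F] F} {S S' : Submodule F V} {q g : V ≃ₗ[F] V}
    (hq : q ∈ Rad B S) (hg : g ∈ isomGroup B) (h1 : ∀ v ∈ S, g v ∈ S')
    (h2 : ∀ v ∈ S', g⁻¹ v ∈ S) : g * q * g⁻¹ ∈ Rad B S' := by
  refine ⟨mul_mem (mul_mem hg hq.1) (inv_mem hg), fun v hv => ?_, fun v hv => ?_⟩
  · simp only [LinearEquiv.mul_apply]; rw [hq.2.1 _ (h2 v hv)]; simp
  · have := h1 _ (hq.2.2 (g⁻¹ v) fun s hs => by rw [← iso hg]; simpa using hv _ (h1 s hs))
    simpa using this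

theorem mem_Rad_span {B : V →ₛₗ[σ] V →ₗ[F] F} {x : V} {q : V ≃ₗ[F] V} :
    q ∈ Rad B (Submodule.span F {x}) ↔
      q ∈ isomGroup B ∧ q x = x ∧ ∀ v, B x v = 0 → ∃ c : F, q v = v + c • x := by
  refine and_congr_right fun _ => and_congr ⟨fun h => h x (Submodule.mem_span_singleton_self x),
    fun h v hv => ?_⟩ (forall_congr' fun v => ?_)
  · obtain ⟨c, rfl⟩ := Submodule.mem_span_singleton.1 hv
    rw [map_smul, h]
  · rw [mem_orth_span_singleton, Submodule.mem_span_singleton]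
    exact imp_congr_right fun _ => exists_congr fun c => by
      rw [eq_sub_iff_add_eq', eq_comm]

/-- Elements of the radical are unipotent. -/
theorem Rad_pow_three {B : V →ₛₗ[σ] V →ₗ[F] F} {S : Submodule F V} {q : V ≃ₗ[F] V}
    (hq : q ∈ Rad B S) : ((q : End F V) - 1) ^ 3 = 0 := by
  ext v
  have h1 := hq.2.1 _ (hq.2.2 _ (Rad_sub_mem hq v))
  simp only [pow_succ, pow_zero, one_mul, End.mul_apply, LinearMap.sub_apply, End.one_apply,
    LinearEquiv.coe_coe, LinearMap.zero_apply]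
  rw [h1, sub_self]

theorem det_of_mem_Rad [FiniteDimensional F V] {B : V →ₛₗ[σ] V →ₗ[F] F} {S : Submodule F V}
    {q : V ≃ₗ[F] V} (hq : q ∈ Rad B S) : LinearMap.det (q : End F V) = 1 := by
  have h : IsNilpotent ((q : End F V) - 1) := ⟨3, Rad_pow_three hq⟩
  have h1 := LinearMap.charpoly_sub_smul ((q : End F V) - 1) (-1)
  rw [(LinearMap.isNilpotent_iff_charpoly _).1 h, neg_smul, one_smul, sub_neg_eq_add,
    sub_add_cancel] at h1
  rw [LinearMap.det_eq_sign_charpoly_coeff, h1, Polynomial.coeff_zero_eq_eval_zero]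
  simp [← mul_pow]

/-- A vector fixed modulo `A₀` by a unipotent set of automorphisms. -/
theorem exists_fix (W : ℕ → Submodule F V) (h0 : W 0 = ⊥) {m : ℕ} (hm : ∀ i, m ≤ i → W i = ⊤)
    {P : Set (V ≃ₗ[F] V)}
    (hP : ∀ b ∈ P, ∀ i, ∀ v ∈ W (i + 1), b v - v ∈ W i ∧ b.symm v ∈ W (i + 1))
    {A A₀ : End F V → Prop} (hA : ∀ b ∈ P, ∀ γ, A γ → A (b.conj γ - γ)) (h00 : A₀ 0) {γ : End F V}
    (h1 : A γ) (h2 : ¬ A₀ γ) : ∃ γ, A γ ∧ ¬ A₀ γ ∧ ∀ b ∈ P, A₀ (b.conj γ - γ) := by
  suffices H : ∀ k, ∀ γ, A γ → ¬ A₀ γ → (∀ i, ∀ v ∈ W i, γ v ∈ W (i + k - m)) →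
      ∃ γ, A γ ∧ ¬ A₀ γ ∧ ∀ b ∈ P, A₀ (b.conj γ - γ) from
    H (2 * m) γ h1 h2 fun i v _ => by rw [hm _ (by omega)]; trivial
  intro k
  induction k with
  | zero =>
    intro γ _ h2 h3
    refine (h2 ?_).elim
    have : γ = 0 := LinearMap.ext fun v => by
      simpa [h0] using h3 m v (by rw [hm m le_rfl]; trivial)
    rwa [this]
  | succ k ih =>
    intro γ h1 h2 h3
    by_contra hc
    push Not at hc
    obtain ⟨b, hb, h4⟩ := hc γ h1 h2
    obtain ⟨γ', h5, h6, h7⟩ := ih _ (hA b hb γ h1) h4 fun i v hv => by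
      cases i with
      | zero => rw [h0] at hv; simp [(Submodule.mem_bot F).1 hv]
      | succ i =>
        have e1 := (hP b hb i v hv).2
        have e2 := h3 _ _ (hP b hb i _ e1).1
        have e3 := h3 _ _ e1
        have e4 : b (γ (b.symm v)) - γ (b.symm v) ∈ W (i + 1 + k - m) := by
          rcases Nat.eq_zero_or_pos (i + 1 + (k + 1) - m) with h | h
          · rw [h, h0] at e3; simp [(Submodule.mem_bot F).1 e3]
          · rw [show i + 1 + (k + 1) - m = i + 1 + k - m + 1 by omega] at e3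
            exact (hP b hb _ _ e3).1
        rw [show i + (k + 1) - m = i + 1 + k - m by omega] at e2
        have := Submodule.sub_mem _ e4 e2
        simpa [LinearEquiv.conj_apply] using this
    obtain ⟨b', hb', h8⟩ := hc γ' h5 h6
    exact h8 (h7 b' hb')

theorem exists_fix_Rad {B : V →ₛₗ[σ] V →ₗ[F] F} {S : Submodule F V}
    {A A₀ : End F V → Prop} (hA : ∀ b ∈ Rad B S, ∀ γ, A γ → A (b.conj γ - γ)) (h00 : A₀ 0)
    {γ : End F V} (h1 : A γ) (h2 : ¬ A₀ γ) :
    ∃ γ, A γ ∧ ¬ A₀ γ ∧ ∀ b ∈ Rad B S, A₀ (b.conj γ - γ) := by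
  refine exists_fix (fun i => if i = 0 then ⊥ else if i = 1 then S else if i = 2 then orth B S
    else ⊤) (by simp) (m := 3) (fun i hi => by simp [show i ≠ 0 by omega, show i ≠ 1 by omega,
      show i ≠ 2 by omega]) (P := Rad B S) (fun b hb i v hv => ?_) hA h00 h1 h2
  have hb' := (Rad B S).inv_mem hb
  rcases i with _ | _ | _ | i
  · simp only [zero_add, one_ne_zero, ↓reduceIte] at hv ⊢
    exact ⟨by simp [hb.2.1 v hv], by rw [show b.symm v = v from hb'.2.1 v hv]; exact hv⟩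
  · simp only [zero_add, Nat.reduceAdd, OfNat.ofNat_ne_zero, OfNat.ofNat_ne_one, ↓reduceIte,
      one_ne_zero] at hv ⊢
    exact ⟨hb.2.2 v hv, by simpa using Submodule.add_mem _ (Rad_sub_mem hb' v) hv⟩
  · simpa using Rad_sub_mem hb v
  · simp

namespace Hm

variable {B : V →ₛₗ[σ] V →ₗ[F] F} {ε : F} (h : Hm B ε)
include h

theorem eps_ne : ε ≠ 0 := left_ne_zero_of_mul_eq_one h.eps

theorem σε : σ ε = ε := by
  rcases mul_self_eq_one_iff.1 h.eps with rfl | rfl <;> simp

theorem conj (u v : V) : σ (B u v) = ε * B v u := by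
  rw [h.sym v u, ← mul_assoc, h.eps, one_mul]

theorem comm {u v : V} (huv : B u v = 0) : B v u = 0 := by rw [h.sym, huv, map_zero, mul_zero]

theorem ne_comm {u v : V} (huv : B u v ≠ 0) : B v u ≠ 0 := fun h' => huv (h.comm h')

theorem swap_one {u v : V} (huv : B u v = 1) : B v u = ε := by rw [h.sym, huv, map_one, mul_one]

theorem sep' (u : V) (hu : ∀ v, B v u = 0) : u = 0 := h.sep u fun v => h.comm (hu v)

theorem ext_left {u u' : V} (hu : ∀ v, B u v = B u' v) : u = u' :=
  sub_eq_zero.1 (h.sep _ fun v => by simp [hu])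

theorem ext_right {u u' : V} (hu : ∀ v, B v u = B v u') : u = u' :=
  sub_eq_zero.1 (h.sep' _ fun v => by simp [hu])

theorem exists_ne {u : V} (hu : u ≠ 0) : ∃ v, B u v ≠ 0 := by
  by_contra! hc; exact hu (h.sep u hc)

theorem exists_eq_one {u : V} (hu : u ≠ 0) : ∃ v, B u v = 1 := by
  obtain ⟨v, hv⟩ := h.exists_ne hu
  exact ⟨(B u v)⁻¹ • v, by simp [hv]⟩

theorem exists_ne_pair [Nontrivial V] : ∃ u v, B u v = 1 := by
  obtain ⟨u, hu⟩ := _root_.exists_ne (0 : V)
  exact ⟨u, h.exists_eq_one hu⟩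

theorem partner {x y : V} (hx : B x x = 0) (hy : B x y = 1) :
    ∃ c : F, B (y - c • x) (y - c • x) = 0 ∧ B x (y - c • x) = 1 := by
  obtain ⟨c, hc⟩ := h.tr y
  refine ⟨c, ?_, by simp [hx, hy]⟩
  simp only [map_sub, map_smulₛₗ, LinearMap.sub_apply, LinearMap.smul_apply, hx, hy,
    h.swap_one hy, smul_eq_mul, RingHom.id_apply]
  linear_combination -hc

theorem exists_partner {x : V} (hx0 : x ≠ 0) (hx : B x x = 0) : ∃ y, B y y = 0 ∧ B x y = 1 := by
  obtain ⟨y, hy⟩ := h.exists_eq_one hx0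
  obtain ⟨c, hc⟩ := h.partner hx hy
  exact ⟨_, hc⟩

theorem eq_smul_of_orth {x x' y : V} (hxx : B x x' = 1)
    (hy : ∀ u, B x u = 0 → B u y = 0) : y = (ε * B x' y) • x := h.ext_right fun v => by
  have h1 := hy (v - B x v • x') (by simp [hxx])
  simp only [map_sub, map_smulₛₗ, LinearMap.sub_apply, LinearMap.smul_apply, smul_eq_mul,
    h.conj] at h1
  simp only [map_smul, smul_eq_mul]
  linear_combination h1

theorem mem_span_of_orth {x y : V} (hx0 : x ≠ 0)
    (hy : ∀ u, B x u = 0 → B u y = 0) : ∃ c : F, y = c • x := by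
  obtain ⟨x', hx'⟩ := h.exists_eq_one hx0
  exact ⟨_, h.eq_smul_of_orth hx' hy⟩

/-- The linear map underlying an Eichler transformation. -/
def eichL (_h : Hm B ε) (z u : V) (c : F) : End F V :=
  1 + (B z).smulRight u - (ε • B u + c • B z).smulRight z

theorem eichL_apply (z u : V) (c : F) (y : V) :
    h.eichL z u c y = y + B z y • u - (ε * B u y + c * B z y) • z := rfl

/-- The Eichler transformation. -/
def eich {z u : V} (hz : B z z = 0) (hu : B z u = 0) (c : F) : V ≃ₗ[F] V :=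
  LinearEquiv.ofLinearMap (h.eichL z u c) (h.eichL z (-u) (ε * B u u - c))
    (by
      ext y
      simp only [LinearMap.comp_apply, eichL_apply, map_add, map_sub, map_smul, map_neg, hz, hu,
        h.comm hu, LinearMap.id_apply, LinearMap.neg_apply]
      module)
    (by
      ext y
      simp only [LinearMap.comp_apply, eichL_apply, map_add, map_sub, map_smul, map_neg, hz, hu,
        h.comm hu, LinearMap.id_apply, LinearMap.neg_apply]
      module)

theorem eich_apply {z u : V} (hz : B z z = 0) (hu : B z u = 0) (c : F) (y : V) :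
    h.eich hz hu c y = y + B z y • u - (ε * B u y + c * B z y) • z := rfl

theorem eich_mem_Rad {z u : V} (hz : B z z = 0) (hu : B z u = 0) {c : F}
    (hc : ε * c + σ c = B u u) : h.eich hz hu c ∈ Rad B (Submodule.span F {z}) := by
  refine mem_Rad_span.2 ⟨fun y y' => ?_, by simp [eich_apply, hz, h.comm hu], fun v hv =>
    ⟨-(ε * B u v), by simp [eich_apply, hv, sub_eq_add_neg]⟩⟩
  simp only [eich_apply, map_add, map_sub, map_smulₛₗ, LinearMap.add_apply, LinearMap.sub_apply,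
    LinearMap.smul_apply, smul_eq_mul, RingHom.id_apply, hz, hu, h.comm hu, map_mul, h.σε, h.conj]
  linear_combination -(ε * B y z * B z y') * hc - (B y u * B z y' - c * B y z * B z y') * h.eps

theorem exists_eich {z u : V} (hz : B z z = 0) (hu : B z u = 0) :
    ∃ b ∈ Rad B (Submodule.span F {z}), ∃ c : F, ε * c + σ c = B u u ∧
      ∀ y, b y = y + B z y • u - (ε * B u y + c * B z y) • z := by
  obtain ⟨c, hc⟩ := h.tr u
  exact ⟨_, h.eich_mem_Rad hz hu hc, c, hc, h.eich_apply hz hu c⟩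

theorem exists_tv {z : V} (hz : B z z = 0) {c : F} (hc : ε * c + σ c = 0) :
    ∃ b ∈ Rad B (Submodule.span F {z}), ∀ y, b y = y + (c * B z y) • z :=
  ⟨_, h.eich_mem_Rad hz (u := 0) (by simp) (c := -c) (by simp; linear_combination -hc), fun y => by
    simp [eich_apply]⟩

/-- The radical of an isotropic point moves vectors with the same invariants. -/
theorem exists_move {z y y' : V} (hz : B z z = 0) (hy : B z y ≠ 0) (hy' : B z y' = B z y)
    (hyy : B y' y' = B y y) : ∃ b ∈ Rad B (Submodule.span F {z}), b y = y' := by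
  have hu : B z ((B z y)⁻¹ • (y' - y)) = 0 := by simp [hy']
  refine ⟨_, h.eich_mem_Rad hz hu (c := -(ε * B ((B z y)⁻¹ • (y' - y)) y) / B z y) ?_, ?_⟩
  · have hs : σ (B z y) ≠ 0 := (map_ne_zero σ).2 hy
    simp only [map_sub, map_smulₛₗ, LinearMap.sub_apply, LinearMap.smul_apply, smul_eq_mul,
      RingHom.id_apply, map_div₀, map_neg, map_mul, map_inv₀, h.σε, h.invol, h.conj y' y,
      h.conj y y]
    field_simp
    linear_combination -hyy + 2 * (B y y) * h.eps - (B y' y + B y y') * h.eps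
  · rw [eich_apply, div_mul_cancel₀ _ hy, smul_smul, mul_inv_cancel₀ hy]
    simp

variable [FiniteDimensional F V]

theorem exists_eq_dual (φ : Dual F V) : ∃ w, ∀ v, B w v = φ v := by
  let b := Module.finBasis F V
  have hli : LinearIndependent F (fun i => (B (b i) : Dual F V)) := by
    rw [Fintype.linearIndependent_iff]
    intro g hg i
    have h1 : (∑ i, σ (g i) • b i) = 0 := h.sep _ fun v => by
      simpa [map_sum, map_smulₛₗ, h.invol] using congrArg (fun f : Dual F V => f v) hg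
    exact (map_eq_zero σ).1 (Fintype.linearIndependent_iff.1 b.linearIndependent _ h1 i)
  have hspan := hli.span_eq_top_of_card_eq_finrank' (by simp [Subspace.dual_finrank_eq])
  have : φ ∈ Submodule.span F (Set.range fun i => (B (b i) : Dual F V)) := by rw [hspan]; trivial
  obtain ⟨c, hc⟩ := (Submodule.mem_span_range_iff_exists_fun F).1 this
  exact ⟨∑ i, σ (c i) • b i, fun v => by rw [← hc]; simp [map_sum, map_smulₛₗ, h.invol]⟩

theorem exists_sep {S : Submodule F V} {y : V} (hy : y ∉ S) :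
    ∃ w, (∀ s ∈ S, B w s = 0) ∧ B w y = 1 := by
  obtain ⟨φ, h1, h2⟩ := S.exists_dual_map_eq_bot_of_notMem hy inferInstance
  obtain ⟨w, hw⟩ := h.exists_eq_dual ((φ y)⁻¹ • φ)
  refine ⟨w, fun s hs => ?_, by simp [hw, h1]⟩
  have : φ s ∈ S.map φ := ⟨s, hs, rfl⟩
  rw [h2] at this
  simp [hw, (Submodule.mem_bot F).1 this]

theorem exists_pair {x y : V} (hxy : y ∉ Submodule.span F {x}) : ∃ w, B w x = 0 ∧ B w y = 1 := by
  obtain ⟨w, h1, h2⟩ := h.exists_sep hxy
  exact ⟨w, h1 x (Submodule.mem_span_singleton_self x), h2⟩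

omit h in
theorem exists_orth_notMem (l : List V) (S : Submodule F V)
    (hn : l.length + finrank F S < finrank F V) : ∃ u, (∀ x ∈ l, B x u = 0) ∧ u ∉ S := by
  suffices H : ∃ K : Submodule F V, finrank F V ≤ finrank F K + l.length ∧
      ∀ u ∈ K, ∀ x ∈ l, B x u = 0 by
    obtain ⟨K, h1, h2⟩ := H
    by_contra! hc
    have := Submodule.finrank_mono (show K ≤ S from fun u hu => hc u (h2 u hu))
    omega
  clear hn
  induction l with
  | nil => exact ⟨⊤, by simp, by simp⟩
  | cons x l ih =>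
    obtain ⟨K, h1, h2⟩ := ih
    refine ⟨K ⊓ LinearMap.ker (B x), ?_, fun u hu y hy => ?_⟩
    · have h3 := Submodule.finrank_sup_add_finrank_inf_eq K (LinearMap.ker (B x))
      have h4 := (B x).finrank_range_add_finrank_ker
      have h5 := (LinearMap.range (B x)).finrank_le
      have h6 := (K ⊔ LinearMap.ker (B x)).finrank_le
      rw [finrank_self] at h5
      rw [List.length_cons]
      omega
    · rcases List.mem_cons.1 hy with rfl | hy
      · exact hu.2
      · exact h2 u hu.1 y hy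

omit h in
theorem exists_orth_notMem_one (hn : 3 ≤ finrank F V) (x y : V) :
    ∃ u, B x u = 0 ∧ u ∉ Submodule.span F {y} := by
  have := (finrank_span_le_card (R := F) ({y} : Set V)).trans_eq (by simp : _ = 1)
  obtain ⟨u, h1, h2⟩ := exists_orth_notMem (B := B) [x] (Submodule.span F {y})
    (by simp only [List.length_singleton]; exact by omega)
  exact ⟨u, h1 x (by simp), h2⟩

theorem mem_span_of_fix (hn : 3 ≤ finrank F V) {p v : V} (hp0 : p ≠ 0) (hp : B p p = 0)
    (hv : ∀ b ∈ Rad B (Submodule.span F {p}), ∃ c : F, b v = v + c • p)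
    (hv' : B p v = 0 → ∀ u, B p u = 0 → B u v = 0) : ∃ c : F, v = c • p := by
  refine h.mem_span_of_orth hp0 (hv' ?_)
  obtain ⟨u, hu, hu'⟩ := exists_orth_notMem_one (B := B) hn p p
  obtain ⟨b, hb, c, -, e⟩ := h.exists_eich hp hu
  obtain ⟨d, hd⟩ := hv b hb
  by_contra hc
  refine hu' (Submodule.mem_span_singleton.2 ⟨(B p v)⁻¹ * (d + (ε * B u v + c * B p v)), ?_⟩)
  rw [e] at hd
  rw [mul_smul, inv_smul_eq_iff₀ hc]
  linear_combination (norm := module) -hd

/-- Endomorphisms commuting with the radical of an isotropic point. -/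
theorem cent (hn : 3 ≤ finrank F V) {p p' : V} (hp : B p p = 0) (hpp : B p p' = 1) {γ : End F V}
    (hγ : ∀ b ∈ Rad B (Submodule.span F {p}), ∀ y, b (γ y) = γ (b y)) :
    ∃ (c : F) (z : V), B p z = 0 ∧ γ p' = c • p' + z ∧
      ∀ u, B p u = 0 → γ u = c • u - (ε * B u z) • p := by
  have hp0 : p ≠ 0 := fun h0 => by simp [h0] at hpp
  have key : ∀ v, (∀ b ∈ Rad B (Submodule.span F {p}), b v = v) → ∃ c : F, v = c • p :=
    fun v hv => h.mem_span_of_fix hn hp0 hp (fun b hb => ⟨0, by simp [hv b hb]⟩) fun h1 u hu => by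
      obtain ⟨b, hb, c, -, e⟩ := h.exists_eich hp hu
      have := hv b hb
      simpa [e, h1, hp0, h.eps_ne] using this
  obtain ⟨c, hc⟩ := key (γ p) fun b hb => by rw [hγ b hb, (mem_Rad_span.1 hb).2.1]
  have h1 : ∀ u, B p u = 0 → ∃ d : F, γ u - c • u = d • p := fun u hu => key _ fun b hb => by
    obtain ⟨d, hd⟩ := (mem_Rad_span.1 hb).2.2 u hu
    rw [map_sub, hγ b hb, map_smul, hd, map_add, map_smul, hc]
    module
  have h2 : ∀ u, B p u = 0 → ∃ d : F, γ u - c • u = B p (γ p' - c • p') • u -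
      (ε * B u (γ p' - c • p') + d * B p (γ p' - c • p')) • p := fun u hu => by
    obtain ⟨b, hb, d, -, e⟩ := h.exists_eich hp hu
    have := hγ b hb p'
    refine ⟨d, ?_⟩
    simp only [e, hpp, map_add, map_sub, map_smul, hc, smul_eq_mul] at this ⊢
    linear_combination (norm := module) -this
  have h3 : B p (γ p' - c • p') = 0 := by
    obtain ⟨u, hu, hu'⟩ := exists_orth_notMem_one (B := B) hn p p
    obtain ⟨d, hd⟩ := h1 u hu
    obtain ⟨d', hd'⟩ := h2 u hu
    by_contra hc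
    refine hu' (Submodule.mem_span_singleton.2 ⟨(B p (γ p' - c • p'))⁻¹ *
      (d + (ε * B u (γ p' - c • p') + d' * B p (γ p' - c • p'))), ?_⟩)
    rw [mul_smul, inv_smul_eq_iff₀ hc]
    linear_combination (norm := module) hd' - hd
  refine ⟨c, γ p' - c • p', h3, by abel, fun u hu => ?_⟩
  obtain ⟨d, hd⟩ := h2 u hu
  rw [h3] at hd
  linear_combination (norm := module) hd

omit h [FiniteDimensional F V] in
theorem apply_of_conj {b : V ≃ₗ[F] V} {γ : End F V} {c : F} (e : b.conj γ - γ = c • 1) (y : V) :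
    b (γ y) = γ (b y) + c • b y := by
  have := LinearMap.congr_fun e (b y)
  simp only [LinearMap.sub_apply, LinearEquiv.conj_apply_apply, LinearEquiv.symm_apply_apply,
    LinearMap.smul_apply, End.one_apply] at this
  linear_combination (norm := module) this

omit h [FiniteDimensional F V] in
theorem comm_of_eigen {p : V} (hp0 : p ≠ 0) {γ : End F V} {d : F} (hd : γ p = d • p)
    (hγ : ∀ b ∈ Rad B (Submodule.span F {p}), ∃ c : F, b.conj γ - γ = c • 1) :
    ∀ b ∈ Rad B (Submodule.span F {p}), ∀ y, b (γ y) = γ (b y) := fun b hb y => by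
  obtain ⟨c, hc⟩ := hγ b hb
  have h1 := apply_of_conj hc p
  rw [hd, map_smul, (mem_Rad_span.1 hb).2.1, hd, left_eq_add, smul_eq_zero] at h1
  rw [apply_of_conj hc, h1.resolve_right hp0, zero_smul, add_zero]

/-- With transvections available, commuting modulo scalars forces an eigenvector. -/
theorem eigen_of_tv (hn : 3 ≤ finrank F V) {s : F} (hs0 : s ≠ 0) (hs : ε * s + σ s = 0) {p : V}
    (hp0 : p ≠ 0) (hp : B p p = 0) {γ : End F V}
    (hγ : ∀ b ∈ Rad B (Submodule.span F {p}), ∃ c : F, b.conj γ - γ = c • 1) :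
    ∃ d : F, γ p = d • p := by
  obtain ⟨b, hb, e⟩ := h.exists_tv hp hs
  obtain ⟨c, hc⟩ := hγ b hb
  obtain ⟨u, hu, hu'⟩ := exists_orth_notMem_one (B := B) hn p p
  obtain ⟨p', hp'⟩ := h.exists_eq_one hp0
  have h1 := apply_of_conj hc u
  have h2 := apply_of_conj hc p'
  simp only [e, hu, hp', mul_zero, zero_smul, add_zero, add_right_inj, mul_one, map_add,
    map_smul] at h1 h2
  have h3 : c = 0 := by
    by_contra h0
    exact hu' (Submodule.mem_span_singleton.2 ⟨c⁻¹ * (s * B p (γ u)), by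
      rw [mul_smul, h1, inv_smul_smul₀ h0]⟩)
  refine ⟨B p (γ p'), smul_right_injective V hs0 ?_⟩
  rw [h3] at h2
  linear_combination (norm := module) -h2

/-- The plane case, with two transvections. -/
theorem cent_two (hn : finrank F V = 2) {s s' : F} (hs0 : s ≠ 0) (hs0' : s' ≠ 0) (hss : s ≠ s')
    (hs : ε * s + σ s = 0) (hs' : ε * s' + σ s' = 0) {p : V}
    (hp0 : p ≠ 0) (hp : B p p = 0) {γ : End F V}
    (hγ : ∀ b ∈ Rad B (Submodule.span F {p}), ∃ c : F, b.conj γ - γ = c • 1) :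
    ∃ c d : F, ∀ y, γ y = c • y + (d * B p y) • p := by
  obtain ⟨p', hp'⟩ := h.exists_eq_one hp0
  have key : ∀ s, s ≠ 0 → ε * s + σ s = 0 →
      B p (γ p') • p = γ p + B p (γ p) • (p' + s • p) := fun s hs0 hs => by
    obtain ⟨b, hb, e⟩ := h.exists_tv hp hs
    obtain ⟨c, hc⟩ := hγ b hb
    have h1 := apply_of_conj hc p
    have h2 := apply_of_conj hc p'
    simp only [e, hp, hp', mul_zero, zero_smul, add_zero, add_right_inj, mul_one, map_add,
      map_smul] at h1 h2
    rw [← smul_left_injective F hp0 h1] at h2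
    refine smul_right_injective V hs0 ?_
    linear_combination (norm := module) h2
  have h1 : B p (γ p) = 0 := by
    have : ((s - s') * B p (γ p)) • p = 0 := by
      linear_combination (norm := module) key s' hs0' hs' - key s hs0 hs
    simpa [hp0, sub_eq_zero, hss] using this
  have h2 := key s hs0 hs
  rw [h1, zero_smul, add_zero] at h2
  have h3 : ∀ u, B p u = 0 → ∃ c : F, u = c • p := fun u hu => by
    have h4 := (B p).finrank_range_add_finrank_ker
    rw [LinearMap.range_eq_top.2 fun c => ⟨c • p', by simp [hp']⟩, finrank_top, finrank_self] at h4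
    obtain ⟨c, hc⟩ := (finrank_eq_one_iff_of_nonzero' (K := F) (⟨p, hp⟩ : LinearMap.ker (B p))
      (fun h0 => hp0 (congrArg Subtype.val h0))).1 (by omega) ⟨u, hu⟩
    exact ⟨c, (congrArg Subtype.val hc).symm⟩
  obtain ⟨d, hd⟩ := h3 (γ p' - B p (γ p') • p') (by simp [hp'])
  refine ⟨B p (γ p'), d, fun y => ?_⟩
  obtain ⟨t, ht⟩ := h3 (y - B p y • p') (by simp [hp'])
  have h4 := congrArg γ ht
  rw [map_sub, map_smul, map_smul, ← h2] at h4
  linear_combination (norm := module) h4 + B p y • hd - B p (γ p') • ht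

end Hm

end Cfsg.Lib.Class.Tn
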