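import Cfsg.Agent.Class.Tens.Local

/-!
Spreading Eichler transformations with centre a pure tensor.
-/

set_option autoImplicit false

namespace Cfsg.Lib.Class.Tn

open Module Form AO

variable {F U W V : Type*} [Field F] [AddCommGroup U] [Module F U] [AddCommGroup W] [Module F W]
  [AddCommGroup V] [Module F V] {σ : F →+* F} {β : V →ₛₗ[σ] V →ₗ[F] F} {ε : F}
  {X : Subgroup (V ≃ₗ[F] V)}

/-- `X` contains an Eichler transformation with parameters `z`, `w`. -/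
def EIn (β : V →ₛₗ[σ] V →ₗ[F] F) (ε : F) (X : Subgroup (V ≃ₗ[F] V)) (z w : V) : Prop :=
  ∃ k ∈ X, ∃ b : F, ∀ v, k v = v + β z v • w - (ε * β w v + b * β z v) • z

/-- The directions of the Eichler transformations in `X` with centre `z`. -/
def Hm.RS (hβ : Hm β ε) (X : Subgroup (V ≃ₗ[F] V)) (z : V) : Submodule F V where
  carrier := {w | β z z = 0 → β z w = 0 ∧ ∀ a : F, EIn β ε X z (a • w)}
  zero_mem' _ := ⟨by simp, fun a => ⟨1, one_mem _, 0, by simp⟩⟩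
  smul_mem' c w hw hz := ⟨by simp [(hw hz).1], fun a => by rw [smul_smul]; exact (hw hz).2 _⟩
  add_mem' {w w'} hw hw' hz := by
    obtain ⟨h1, h2⟩ := hw hz
    obtain ⟨h3, h4⟩ := hw' hz
    refine ⟨by simp [h1, h3], fun a => ?_⟩
    obtain ⟨k, hk, b, e⟩ := h2 a
    obtain ⟨k', hk', b', e'⟩ := h4 a
    refine ⟨k * k', mul_mem hk hk', b + b' + ε * β (a • w) (a • w'), fun v => ?_⟩
    simp only [LinearEquiv.mul_apply, e, e' v, map_add, map_sub, map_smulₛₗ, hz, h3, hβ.comm h1,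
      smul_add, LinearMap.add_apply, LinearMap.smul_apply, RingHom.id_apply, smul_eq_mul]
    module

namespace Hm

variable (hβ : Hm β ε)

theorem mem_RS {z w : V} (hz : β z z = 0) :
    w ∈ hβ.RS X z ↔ β z w = 0 ∧ ∀ a : F, EIn β ε X z (a • w) := ⟨fun h => h hz, fun h _ => h⟩

theorem apply_mem_RS (hX : X ≤ isomGroup β) {g : V ≃ₗ[F] V} (hg : g ∈ X) {z w : V}
    (hw : w ∈ hβ.RS X z) : g w ∈ hβ.RS X (g z) := fun hz => by
  rw [iso (hX hg)] at hz
  refine ⟨by rw [iso (hX hg), (hw hz).1], fun a => ?_⟩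
  obtain ⟨k, hk, b, e⟩ := (hw hz).2 a
  refine ⟨_, mul_mem (mul_mem hg hk) (inv_mem hg), b, fun v => ?_⟩
  obtain ⟨v, rfl⟩ := g.surjective v
  rw [← map_smul, iso (hX hg), iso (hX hg)]
  simp [e]

theorem sub_mem_RS (hX : X ≤ isomGroup β) {g : V ≃ₗ[F] V} (hg : g ∈ X) {z w : V} (hz : g z = z)
    (hw : w ∈ hβ.RS X z) : g w - w ∈ hβ.RS X z := by
  have := hβ.apply_mem_RS hX hg hw
  rw [hz] at this
  exact sub_mem this hw

theorem move_RS (hX : X ≤ isomGroup β) {z z' w v : V} (hz' : β z' z' = 0) (hw : w ∈ hβ.RS X z')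
    (h1 : β z' z = 0) (h2 : β w z = 0) (hv : v ∈ hβ.RS X z) :
    ∃ b : F, β z' v • w - (ε * β w v + b * β z' v) • z' ∈ hβ.RS X z := by
  obtain ⟨k, hk, b, e⟩ := (hw hz').2 1
  rw [one_smul] at e
  have := hβ.sub_mem_RS hX hk (by simp [e, h1, h2]) hv
  rw [e] at this
  exact ⟨b, by convert this using 1; abel⟩

theorem centre_mem_RS (hX : X ≤ isomGroup β) {z z' w v : V} (hz' : β z' z' = 0)
    (hw : w ∈ hβ.RS X z') (h1 : β z' z = 0) (h2 : β w z = 0) (hv : v ∈ hβ.RS X z)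
    (h3 : β z' v = 0) (h4 : β w v ≠ 0) : z' ∈ hβ.RS X z := by
  obtain ⟨b, hb⟩ := hβ.move_RS hX hz' hw h1 h2 hv
  simpa [h3, Submodule.smul_mem_iff _ (mul_ne_zero hβ.eps_ne h4)] using hb

theorem dir_mem_RS (hX : X ≤ isomGroup β) {z z' w v : V} (hz' : β z' z' = 0)
    (hw : w ∈ hβ.RS X z') (h1 : β z' z = 0) (h2 : β w z = 0) (hv : v ∈ hβ.RS X z)
    (h3 : β z' v ≠ 0) (h4 : z' ∈ hβ.RS X z) : w ∈ hβ.RS X z := by
  obtain ⟨b, hb⟩ := hβ.move_RS hX hz' hw h1 h2 hv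
  simpa [Submodule.smul_mem_iff _ h3] using
    add_mem hb (Submodule.smul_mem _ (ε * β w v + b * β z' v) h4)

theorem tv_mem_RS (hX : X ≤ isomGroup β) {z z' v : V} {k : V ≃ₗ[F] V} (hk : k ∈ X) {s : F}
    (hs : s ≠ 0) (e : ∀ v, k v = v + (s * β z' v) • z') (h1 : β z' z = 0) (hv : v ∈ hβ.RS X z)
    (h3 : β z' v ≠ 0) : z' ∈ hβ.RS X z := by
  simpa [e, Submodule.smul_mem_iff _ (mul_ne_zero hs h3)] using
    hβ.sub_mem_RS hX hk (by simp [e, h1]) hv

/-- Two transvections with centres on a line through `z`. -/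
theorem mem_RS_of_tv {z v : V} (hz : β z z = 0) (hv : β v v = 0) (hzv : β z v = 0) {s : F}
    (hs0 : s ≠ 0) (hs : ε * s + σ s = 0)
    (h1 : ∃ k ∈ X, ∀ y, k y = y + (-s * β v y) • v)
    (h2 : ∀ a : F, ∃ k ∈ X, ∀ y, k y = y + (s * β (v + a • z) y) • (v + a • z)) :
    v ∈ hβ.RS X z := by
  refine (hβ.mem_RS hz).2 ⟨hzv, fun a => ?_⟩
  obtain ⟨k, hk, e⟩ := h1
  obtain ⟨t, rfl⟩ : ∃ t, a = s * t := ⟨a / s, by field_simp⟩
  obtain ⟨k', hk', e'⟩ := h2 (σ t)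
  refine ⟨k' * k, mul_mem hk' hk, -(s * t * σ t), fun y => ?_⟩
  have h3 : σ s = -(ε * s) := by linear_combination hs
  simp only [LinearEquiv.mul_apply, e', e y, map_add, map_smulₛₗ, hv, hzv, LinearMap.add_apply,
    LinearMap.smul_apply, RingHom.id_apply, smul_eq_mul, hβ.invol, map_mul, h3]
  match_scalars
  · ring
  · ring
  · linear_combination -σ t * s * β v y * hβ.eps

end Hm

variable {T : U →ₗ[F] W →ₗ[F] V} {f : U →ₛₗ[σ] U →ₗ[F] F} {h : W →ₛₗ[σ] W →ₗ[F] F} {ε₁ ε₂ : F}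

/-- The isotropic vectors not perpendicular to `p` span. -/
def SpanOpp (h : W →ₛₗ[σ] W →ₗ[F] F) : Prop :=
  ∀ p, p ≠ 0 → h p p = 0 → ∀ K : Submodule F W, (∀ y, h y y = 0 → h y p ≠ 0 → y ∈ K) → K = ⊤

theorem Hm.spanOpp (hh : Hm h ε) (H : ∀ p p', h p p = 0 → h p' p' = 0 → h p p' = 1 →
    ∀ K : Submodule F W, (∀ y, h y y = 0 → h y p ≠ 0 → y ∈ K) → p ∈ K) : SpanOpp h := by
  intro p hp0 hp K hK
  obtain ⟨p', hp', hpp⟩ := hh.exists_partner hp0 hp
  have h1 := H p p' hp hp' hpp K hK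
  refine eq_top_iff.2 fun w _ => ?_
  have h2 : h p (p' + (w - h p w • p')) = 1 := by simp [hpp]
  obtain ⟨c, h3, h4⟩ := hh.partner hp h2
  have h5 := hK _ h3 (hh.ne_comm (h4 ▸ one_ne_zero))
  have h6 := hK _ hp' (hh.ne_comm (hpp ▸ one_ne_zero))
  convert K.add_mem (K.add_mem h5 (K.smul_mem c h1)) (K.smul_mem (h p w - 1) h6) using 1
  module

theorem Hm.spanOpp_of_tv (hh : Hm h ε) {s : F} (hs0 : s ≠ 0) (hs : ε * s + σ s = 0) :
    SpanOpp h := hh.spanOpp fun p p' hp hp' hpp K hK => by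
  have h1 := hK p' hp' (hh.ne_comm (hpp ▸ one_ne_zero))
  have h2 := hK (p' + s • p) (by
    simp [hp, hp', hpp, hh.swap_one hpp]; linear_combination hs) (by
    simp [hp, hh.swap_one hpp, hh.eps_ne])
  simpa [K.smul_mem_iff hs0] using K.sub_mem h2 h1

theorem Hm.spanOpp_of_three [FiniteDimensional F W] {h : W →ₗ[F] W →ₗ[F] F} (hh : Hm h 1)
    (h2 : (2 : F) ≠ 0) (hn : 3 ≤ finrank F W) :
    SpanOpp h := hh.spanOpp fun p p' hp hp' hpp K hK => by
  have hs : ∀ u v, h u v = h v u := fun u v => by simpa using hh.sym u v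
  obtain ⟨d, hd1, hd2, hd3⟩ : ∃ d, h p d = 0 ∧ h p' d = 0 ∧ h d d ≠ 0 := by
    obtain ⟨u, hu, hu0⟩ := Hm.exists_orth_notMem (B := h) [p, p'] ⊥ (by simp; omega)
    obtain ⟨v, hv⟩ := hh.exists_eq_one (u := u) hu0
    have a1 := hu p (by simp)
    have a2 := hu p' (by simp)
    by_contra! hc
    have b1 : h p (v - h p v • p' - h p' v • p) = 0 := by simp [hp, hpp]
    have b2 : h p' (v - h p v • p' - h p' v • p) = 0 := by simp [hp', hs p' p, hpp]
    have b3 : h u (v - h p v • p' - h p' v • p) = 1 := by simp [hs u p, hs u p', a1, a2, hv]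
    generalize v - h p v • p' - h p' v • p = y at b1 b2 b3
    have := hc (u + y) (by simp [a1, b1]) (by simp [a2, b2])
    simp only [map_add, LinearMap.add_apply, hc u a1 a2, hc y b1 b2, hs y u, b3] at this
    exact h2 (by linear_combination this)
  have key : ∀ t : F, t * t = 1 → p' + t • d - (h d d / 2) • p ∈ K := fun t ht => hK _ (by
    simp only [map_add, map_sub, map_smul, LinearMap.add_apply, LinearMap.sub_apply,
      LinearMap.smul_apply, hp, hp', hpp, hs p' p, hs d p, hs d p', hd1, hd2, smul_eq_mul]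
    field_simp
    linear_combination 4 * h d d * ht) (by simp [hp, hs p' p, hpp, hs d p, hd1])
  have h1 := hK p' hp' (by simp [hs p' p, hpp])
  rw [← K.smul_mem_iff hd3]
  convert K.sub_mem (K.smul_mem 2 h1) (K.add_mem (key 1 (by simp)) (key (-1) (by simp))) using 1
  match_scalars <;> field_simp <;> ring

namespace TF

variable (t : TF T f ε₁ h ε₂ β) [FiniteDimensional F U]
include t

theorem mem_RS_of_opp (hW : SpanOpp h) {p : W} (hp0 : p ≠ 0) (hp : h p p = 0) {z : V} {y : U}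
    (H : ∀ p', h p' p' = 0 → h p' p ≠ 0 → T y p' ∈ t.hm.RS X z) (w : W) : T y w ∈ t.hm.RS X z := by
  have := hW p hp0 hp ((t.hm.RS X z).comap (T y)) H
  exact (this ▸ Submodule.mem_top : w ∈ (t.hm.RS X z).comap (T y))

/-- First spreading step, with Eichler transformations. -/
theorem step_eich (hX : X ≤ isomGroup β) (hW : SpanOpp h)
    (H : ∀ x p u, f x x = 0 → x ≠ 0 → h p p = 0 → p ≠ 0 → f x u = 0 → T u p ∈ t.hm.RS X (T x p))
    {x y : U} (hx : f x x = 0) (hx0 : x ≠ 0) (hy : f y y = 0) (hxy : f x y = 0)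
    (hA : ∃ u u', f x u = 0 ∧ f y u = 0 ∧ f x u' = 0 ∧ f y u' = 0 ∧ f u' u ≠ 0)
    {p : W} (hp : h p p = 0) (hp0 : p ≠ 0) (w : W) : T y w ∈ t.hm.RS X (T x p) := by
  by_cases hy0 : y = 0
  · simp [hy0]
  obtain ⟨u, u', h1, h2, h3, h4, h5⟩ := hA
  refine t.mem_RS_of_opp hW hp0 hp (fun p' hp' hpp => ?_) w
  exact t.hm.centre_mem_RS hX (by simp [t.tens, hy])
    (H y p' u' hy hy0 hp' (fun h0 => by simp [h0] at hpp) h4) (by simp [t.tens, t.hf.comm hxy])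
    (by simp [t.tens, t.hf.comm h3]) (H x p u hx hx0 hp hp0 h1) (by simp [t.tens, h2])
    (by simp [t.tens, h5, hpp])

variable [FiniteDimensional F W]

/-- Second spreading step. -/
theorem step_full (hX : X ≤ isomGroup β)
    (H : ∀ x p u w, f x x = 0 → x ≠ 0 → h p p = 0 → p ≠ 0 → f x u = 0 → T u w ∈ t.hm.RS X (T x p))
    {x : U} (hx : f x x = 0) (hx0 : x ≠ 0) {p : W} (hp : h p p = 0) (hp0 : p ≠ 0)
    (hA : (∀ x', f x x' = 1 → ∃ y, y ≠ 0 ∧ f y y = 0 ∧ f x y = 0 ∧ f x' y = 0) ∨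
      ((∀ y, f y y = 0 → T y p ∈ t.hm.RS X (T x p)) ∧ ∀ w, h p w = 0 → ∃ c : F, w = c • p))
    (v : V) (hv : β (T x p) v = 0) : v ∈ t.hm.RS X (T x p) := by
  obtain ⟨x', hx', hxx⟩ := t.hf.exists_partner hx0 hx
  rw [t.left] at hv
  have h1 : v - T x' (t.c x v) ∈ t.hm.RS X (T x p) :=
    t.ind_orth (P := fun v => v ∈ t.hm.RS X (T x p)) (zero_mem _) (fun _ _ => add_mem)
      (fun u w hu => H x p u w hx hx0 hp hp0 hu) (by simp [hxx])
  suffices T x' (t.c x v) ∈ t.hm.RS X (T x p) by simpa using add_mem h1 this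
  rcases hA with hA | ⟨h2, h3⟩
  · obtain ⟨y, hy0, hy, h2, h3⟩ := hA x' hxx
    obtain ⟨u, hu⟩ := t.hf.exists_eq_one hy0
    obtain ⟨w, hw⟩ := t.hh.exists_eq_one hp0
    exact t.hm.dir_mem_RS hX (z' := T y p) (by simp [t.tens, hy])
      (H y p x' _ hy hy0 hp hp0 (t.hf.comm h3)) (by simp [t.tens, hp])
      (by simp [t.tens, t.hh.comm hv]) (H x p (u - f x u • x') w hx hx0 hp hp0 (by simp [hxx]))
      (by rw [t.tens]; simp [hu, hw, t.hf.comm h3]) (H x p y p hx hx0 hp hp0 h2)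
  · obtain ⟨c, hc⟩ := h3 _ hv
    rw [hc, map_smul]
    exact Submodule.smul_mem _ _ (h2 x' hx')

end TF

end Cfsg.Lib.Class.Tn
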