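import Cfsg.Agent.Class.Tens.GlobT

/-!
The global step for tensor decompositions whose second factor is orthogonal of dimension at
least five, in odd characteristic, using long root elements.
-/

set_option autoImplicit false
set_option linter.unusedSectionVars false

namespace Cfsg.Lib.Class.Tn

open Module Form AO Wr Tens FE
open LinearMap (range ker)

variable {F U W V : Type*} [Field F] [AddCommGroup U] [Module F U] [AddCommGroup W] [Module F W]
  [AddCommGroup V] [Module F V]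

/-! ### Pure elements of the algebra generated by two square-zero maps -/

/-- Combinations of `t`, `s`, `[t, s]` with coefficients centralising `t` and `s`. -/
def Pure (t s r : End F V) : Prop :=
  ∃ a b c : End F V, (Commute t a ∧ Commute s a) ∧ (Commute t b ∧ Commute s b) ∧
    (Commute t c ∧ Commute s c) ∧ r = a * t + b * s + c * (t * s - s * t)

theorem Pure.swap {t s r : End F V} (h : Pure t s r) : Pure s t r :=
  let ⟨a, b, c, ha, hb, hc, e⟩ := h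
  ⟨b, a, -c, hb.symm, ha.symm, ⟨hc.2.neg_right, hc.1.neg_right⟩, by rw [e]; noncomm_ring⟩

theorem Pure.neg {t s r : End F V} (h : Pure t s r) : Pure (-t) s r :=
  let ⟨a, b, c, ha, hb, hc, e⟩ := h
  ⟨-a, b, -c, ⟨ha.1.neg_left.neg_right, ha.2.neg_right⟩, ⟨hb.1.neg_left, hb.2⟩,
    ⟨hc.1.neg_left.neg_right, hc.2.neg_right⟩, by rw [e]; noncomm_ring⟩

theorem Pure.cj {t s r : End F V} (h : Pure t s r) (tt : t * t = 0) (ss : s * s = 0)
    {x : V ≃ₗ[F] V} (e : ∀ z, x z = z + t z) : Pure t s (cj x r) := by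
  obtain ⟨a, b, c, ha, hb, hc, rfl⟩ := h
  have m1 : Commute t (t * s + s * t) := show _ * _ = _ * _ by
    linear_combination (norm := noncomm_ring) tt * s - s * tt
  have m2 : Commute s (t * s + s * t) := show _ * _ = _ * _ by
    linear_combination (norm := noncomm_ring) ss * t - t * ss
  refine ⟨a - (b + c + c) * (t * s + s * t), b, c + b,
    ⟨ha.1.sub_right (((hb.1.add_right hc.1).add_right hc.1).mul_right m1),
      ha.2.sub_right (((hb.2.add_right hc.2).add_right hc.2).mul_right m2)⟩, hb,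
    ⟨hc.1.add_right hb.1, hc.2.add_right hb.2⟩, ?_⟩
  simp only [map_add, map_mul, map_sub, cj_eq_of_comm e ha.1, cj_eq_of_comm e hb.1,
    cj_eq_of_comm e hc.1, cj_eq_of_comm e rfl, cj_eq_of_sq e tt s]
  linear_combination (norm := noncomm_ring) c * tt * s * (1 - t) + c * (1 + t) * s * tt +
    (b + c + c) * s * tt

theorem _root_.Cfsg.Lib.Class.Wr.Shear.range_le_of_comm [FiniteDimensional F V] {t s : End F V}
    (h : Shear t s) (h2 : (2 : F) ≠ 0) {x₁ x₂ y : V ≃ₗ[F] V} (e₁ : ∀ z, x₁ z = z + t z)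
    (e₂ : ∀ z, x₂ z = z + s z) (hy : y ∈ Subgroup.closure {x₁, x₂})
    (hc : cj y t * s = s * cj y t) : range (cj y t) ≤ range s := by
  have inv : ∀ {x : V ≃ₗ[F] V} {t : End F V}, t * t = 0 → (∀ z, x z = z + t z) →
      ∀ z, x⁻¹ z = z + (-t) z := fun {x t} tt e z => x.injective (by
    have : t (t z) = 0 := LinearMap.congr_fun tt z
    simp [e (z + _), this])
  have key : ∀ r, Pure t s r → Pure t s (cj y r) ∧ Pure t s (cj y⁻¹ r) := by
    clear hc
    induction hy using Subgroup.closure_induction with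
    | mem x hx =>
      rcases hx with rfl | rfl
      · exact fun r hr => ⟨hr.cj h.tt h.ss e₁, by
          simpa using (hr.neg.cj (by simp [h.tt]) h.ss (inv h.tt e₁)).neg⟩
      · exact fun r hr => ⟨(hr.swap.cj h.ss h.tt e₂).swap, Pure.swap (by
          simpa using (hr.swap.neg.cj (by simp [h.ss]) h.tt (inv h.ss e₂)).neg)⟩
    | one => exact fun r hr => ⟨hr, hr⟩
    | mul x y _ _ ihx ihy =>
      exact fun r hr => ⟨(ihx _ (ihy r hr).1).1, by rw [mul_inv_rev]; exact (ihy _ (ihx r hr).2).2⟩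
    | inv x _ ih => exact fun r hr => (ih r hr).symm
  obtain ⟨a, b, c, ha, hb, hc', e⟩ :=
    (key t ⟨1, 0, 0, by simp, by simp, by simp, by simp⟩).1
  have kill : ∀ d : End F V, Commute t d → d * (s * t * s) = 0 → d * (s * t) = 0 ∧ d * (t * s) = 0 :=
    fun d hd e => by
      have h1 : ∀ v ∈ range (s * t), d v = 0 := fun v hv => by
        obtain ⟨_, ⟨w, rfl⟩, rfl⟩ := h.exists_s_eq hv
        exact LinearMap.congr_fun e w
      refine ⟨LinearMap.ext fun v => h1 _ ⟨v, rfl⟩, LinearMap.ext fun v => ?_⟩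
      obtain ⟨w, hw, e⟩ := h.exists_t_eq ⟨v, rfl⟩
      rw [End.mul_apply, ← e, ← End.mul_apply, ← hd, End.mul_apply, h1 w hw, map_zero]
      rfl
  have ss := h.ss
  have h3 : a * (t * s - s * t) = c * (s * t * s) + c * (s * t * s) := by
    rw [e] at hc
    linear_combination (norm := noncomm_ring) hc + ha.2.eq * t + hb.2.eq * s +
      hc'.2.eq * (t * s - s * t) - c * t * ss - c * ss * t
  obtain ⟨a1, a2⟩ := kill a ha.1 (by
    linear_combination (norm := noncomm_ring) -h3 * s + a * t * ss - (c + c) * s * t * ss)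
  obtain ⟨c1, c2⟩ := kill c hc'.1 (smul_right_injective _ h2 (by
    simp only [two_smul, add_zero, ← h3, mul_sub, a1, a2, sub_self]))
  rintro _ ⟨v, rfl⟩
  obtain ⟨j, ⟨-, w, rfl⟩, _, ⟨w', rfl⟩, e'⟩ := h.dec_t ⟨v, rfl⟩
  refine ⟨a w + b v, ?_⟩
  have k1 : s (a w) = a (s w) := LinearMap.congr_fun ha.2 w
  have k2 : s (b v) = b (s v) := LinearMap.congr_fun hb.2 v
  have k3 : a ((t * s) w') = 0 := LinearMap.congr_fun a2 w'
  rw [e, mul_sub, c1, c2, sub_self, add_zero, LinearMap.add_apply, End.mul_apply, End.mul_apply,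
    ← e', map_add, map_add, k1, k2, k3, add_zero]

/-! ### Long root elements -/

variable {T T' T₁ T₂ : U →ₗ[F] W →ₗ[F] V} {f : U →ₗ[F] U →ₗ[F] F} {h : W →ₗ[F] W →ₗ[F] F}
  {β : V →ₗ[F] V →ₗ[F] F} {ε : F} {X : Subgroup (V ≃ₗ[F] V)} {t s : End F V}

theorem skew_of_uin (h2 : (2 : F) ≠ 0) (hX : X ≤ isomGroup β) (h1 : UIn X t) (tt : t * t = 0)
    (u v : V) : β (t u) v = -β u (t v) := by
  obtain ⟨k, hk, e⟩ := id h1
  obtain ⟨k', hk', e'⟩ := h1.neg tt
  have h3 := iso (hX hk) u v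
  have h4 := iso (hX hk') u v
  simp only [e, e', map_add, map_neg, LinearMap.add_apply, LinearMap.neg_apply] at h3 h4
  exact mul_left_cancel₀ h2 (by linear_combination h3 - h4)

theorem Hm.eq_of_skew [FiniteDimensional F W] (hh : Hm h 1) (h2 : (2 : F) ≠ 0) {ρ : End F W}
    (hρ : ∀ y y', h (ρ y) y' = -h y (ρ y')) (hk : finrank F (range ρ) ≤ 2) {x : W}
    (hx : x ∈ range ρ) (hx0 : x ≠ 0) : ∃ z ∈ range ρ, ∀ y, ρ y = h x y • z - h z y • x := by
  obtain ⟨x', hxx⟩ := hh.exists_eq_one hx0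
  have h0 : ∀ y, h (ρ y) y = 0 := fun y =>
    mul_left_cancel₀ h2 (by linear_combination hρ y y - hh.symm y (ρ y))
  obtain ⟨y₀, rfl⟩ := hx
  have h1 : h (ρ x') y₀ = -1 := by rw [hρ, hh.symm, hxx]
  have h3 : Submodule.span F {ρ y₀, ρ x'} = range ρ := by
    refine Submodule.eq_of_le_of_finrank_le (Submodule.span_le.2 (by
      rintro _ (rfl | rfl) <;> simp)) (hk.trans ?_)
    have := Submodule.finrank_lt_finrank_of_lt (show Submodule.span F {ρ y₀} <
      Submodule.span F {ρ y₀, ρ x'} from SetLike.lt_iff_le_and_exists.2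
        ⟨Submodule.span_mono (by simp), ρ x', Submodule.subset_span (by simp), fun hm => by
          obtain ⟨a, e⟩ := Submodule.mem_span_singleton.1 hm
          simp [← e, h0] at h1⟩)
    rwa [finrank_span_singleton hx0] at this
  refine ⟨ρ x', ⟨x', rfl⟩, fun y => ?_⟩
  obtain ⟨a, b, e⟩ := Submodule.mem_span_pair.1 (h3.ge ⟨y, rfl⟩)
  have k1 := hρ y x'
  have k2 := hρ y y₀
  simp only [← e, map_add, map_smul, LinearMap.add_apply, LinearMap.smul_apply, h0, hxx, h1,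
    smul_eq_mul, hh.symm y] at k1 k2
  rw [← e]
  linear_combination (norm := module) k1 • ρ y₀ - k2 • ρ x'

/-- The local hypotheses for an orthogonal second factor. -/
structure OLoc (T : U →ₗ[F] W →ₗ[F] V) (f : U →ₗ[F] U →ₗ[F] F) (ε : F) (h : W →ₗ[F] W →ₗ[F] F)
    (β : V →ₗ[F] V →ₗ[F] F) (X : Subgroup (V ≃ₗ[F] V)) : Prop extends TF T f ε h 1 β where
  two : (2 : F) ≠ 0
  five : 5 ≤ finrank F W
  le : X ≤ isomGroup β
  rad : ∀ p, h p p = 0 → ∀ b ∈ Rad h (Submodule.span F {p}), ∃ k ∈ X, ∀ u y, k (T u y) = T u (b y)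
  pt : ∀ p p', p ≠ 0 → h p p = 0 → p' ≠ 0 → h p' p' = 0 → ∀ y ∈ X,
    (∀ u, ∃ u', y (T u p) = T u' p') → y ∈ tensG T
  noC : ∀ a : End F U, (∀ u u', f (a u) u' = -f u (a u')) → a * a = 0 →
    finrank F (range a) * finrank F W ≠ 2 * finrank F U

/-- Long root elements of the second factor. -/
structure OR (X : Subgroup (V ≃ₗ[F] V)) (T : U →ₗ[F] W →ₗ[F] V) (t : End F V) : Prop where
  uin : ∀ c : F, UIn X (c • t)
  inE : InE T t
  sq : t * t = 0
  rk : finrank F (range t) = 2 * finrank F U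

theorem OR.uin' (h : OR X T t) : UIn X t := by simpa using h.uin 1

theorem OR.tr (h : OR X T t) {g : V ≃ₗ[F] V} (hg : g ∈ X) : OR X (tr T g) (cj g t) :=
  ⟨fun c => by rw [← map_smul]; exact (h.uin c).cj hg, h.inE.cj g, by rw [← map_mul, h.sq, map_zero],
    by rw [range_cj, finrank_im, h.rk]⟩

theorem OR.of_inE (h : OR X T t) (hE : InE T' t) : OR X T' t := ⟨h.uin, hE, h.sq, h.rk⟩

variable [FiniteDimensional F U] [FiniteDimensional F W] [Nontrivial U] [Finite F]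

namespace OLoc

variable (c : OLoc T f ε h β X)
include c

theorem rel (hr : Rel X T T') : OLoc T' f ε h β X := by
  obtain ⟨g, hg, rfl⟩ := hr
  refine ⟨⟨isTens_tr c.hT g, c.hf, c.hh, fun _ _ _ _ => (iso (c.le hg) _ _).trans (c.tens _ _ _ _)⟩,
    c.two, c.five, c.le, fun p hp b hb => ?_, fun p p' h1 h2 h3 h4 y hy e => ?_, c.noC⟩
  · obtain ⟨k, hk, e⟩ := c.rad p hp b hb
    exact ⟨g * k * g⁻¹, mul_mem (mul_mem hg hk) (inv_mem hg), fun u y => by simp [e]⟩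
  · refine mem_tensG_tr.2 (c.pt p p' h1 h2 h3 h4 _ (mul_mem (mul_mem (inv_mem hg) hy) hg) fun u => ?_)
    obtain ⟨u', e⟩ := e u
    exact ⟨u', by simpa [LinearEquiv.symm_apply_eq] using e⟩

theorem nontrivial : Nontrivial W :=
  Module.nontrivial_of_finrank_pos (R := F) (by have := c.five; omega)

theorem exists_rho (ht : OR X T t) : ∃ ρ : End F W, t = c.hT.mp 1 ρ ∧ finrank F (range ρ) = 2 ∧
    (∀ y y', h (ρ y) y' = -h y (ρ y')) ∧ ∀ y y', h (ρ y) (ρ y') = 0 := by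
  obtain ⟨ρ, rfl⟩ := (inE_iff c.hT).1 ht.inE
  obtain ⟨u, u', hu⟩ := c.hf.exists_ne_pair
  have h1 := ht.rk
  rw [c.hT.range_mp, c.hT.finrank_map₂, End.one_eq_id, LinearMap.range_id, finrank_top,
    mul_comm] at h1
  have h2 := skew_of_uin c.two c.le ht.uin' ht.sq
  refine ⟨ρ, rfl, Nat.eq_of_mul_eq_mul_right finrank_pos h1, fun y y' => by
    simpa [c.tens, hu] using h2 (T u y) (T u' y'), fun y y' => ?_⟩
  have := h2 (T u y) (c.hT.mp 1 ρ (T u' y'))
  rw [← End.mul_apply _ _ (T u' y'), ht.sq] at this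
  simpa [c.tens, hu] using this

theorem exists_root {x : W} (hx0 : x ≠ 0) (hx : h x x = 0) :
    ∃ t, OR X T t ∧ ∀ u, T u x ∈ range t := by
  obtain ⟨x', hxx⟩ := c.hh.exists_eq_one hx0
  obtain ⟨z, hz0, hz, h1, h2⟩ := exists_iso_orth h c.five x x'
  obtain ⟨z', h3, h4⟩ := c.hh.exists_orth_ne hx0 (c.hh.ne_smul_of hxx hz0 h2)
  let ρ : End F W := (h x).smulRight z - (h z).smulRight x
  have e : ∀ y, ρ y = h x y • z - h z y • x := fun _ => rfl
  refine ⟨c.hT.mp 1 ρ, ⟨fun a => ?_, inE_mp _ _, c.hT.ext fun u y => by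
    simp [e, hx, hz, h1, c.hh.comm h1], ?_⟩, fun u => ⟨T u (-z'), by simp [e, h3, h4]⟩⟩
  · obtain ⟨k, hk, e'⟩ := c.rad x hx _ (c.hh.eich_mem_Rad (u := a • z) hx (by simp [h1]) (c := 0)
      (by simp [hz]))
    refine ⟨k, hk, LinearMap.congr_fun (c.hT.ext (a := k) (b := 1 + a • c.hT.mp 1 ρ) fun u y => ?_)⟩
    simp only [LinearEquiv.coe_coe, e', Hm.eich_apply, e, map_add, map_sub, map_smul,
      LinearMap.add_apply, LinearMap.smul_apply, End.one_apply, IsTens.mp_apply, smul_eq_mul]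
    module
  · rw [c.hT.range_mp, c.hT.finrank_map₂, End.one_eq_id, LinearMap.range_id, finrank_top, mul_comm]
    congr 1
    have h5 : range ρ = Submodule.span F {x, z} := le_antisymm (by
      rintro _ ⟨y, rfl⟩
      exact Submodule.mem_span_pair.2 ⟨-h z y, h x y, by rw [e]; module⟩) (Submodule.span_le.2 (by
        rintro _ (rfl | rfl)
        · exact ⟨-z', by simp [e, h3, h4]⟩
        · exact ⟨x', by simp [e, hxx, c.hh.comm h2]⟩))
    have h6 := Orth.finrank_span_pair_le (F := F) x z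
    have := Submodule.finrank_lt_finrank_of_lt (show Submodule.span F {x} <
      Submodule.span F {x, z} from SetLike.lt_iff_le_and_exists.2
        ⟨Submodule.span_mono (by simp), z, Submodule.subset_span (by simp), fun hm => by
          obtain ⟨a, e⟩ := Submodule.mem_span_singleton.1 hm
          simp [← e, h3] at h4⟩)
    rw [finrank_span_singleton hx0] at this
    rw [h5]
    omega

theorem exists_data (ht : OR X T t) : ∃ x z d, x ≠ 0 ∧ h x x = 0 ∧ h x z = 0 ∧ h x d = 0 ∧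
    h z d = 0 ∧ h d d ≠ 0 ∧ (∀ u, T u x ∈ range t) ∧
    t = c.hT.mp 1 ((h x).smulRight z - (h z).smulRight x) := by
  obtain ⟨ρ, rfl, h1, h2, h3⟩ := c.exists_rho ht
  obtain ⟨_, ⟨y, rfl⟩, hx0⟩ := (range ρ).exists_mem_ne_zero_of_ne_bot fun e => by
    rw [e, finrank_bot] at h1; omega
  obtain ⟨_, ⟨y', rfl⟩, e⟩ := c.hh.eq_of_skew c.two h2 h1.le ⟨y, rfl⟩ hx0
  obtain ⟨d, h4, h5⟩ := c.hh.exists_aniso c.two [ρ y, ρ y'] (by have := c.five; simp; omega)
  exact ⟨_, _, d, hx0, h3 _ _, h3 _ _, h4 _ (by simp), h4 _ (by simp), h5,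
    fun u => ⟨T u y, by simp⟩, congrArg _ (LinearMap.ext e)⟩

/-- A root element whose image contains a full slice determines the decomposition. -/
theorem same_of_pt (hr : Rel X T T') (hs : OR X T' s) {x₁ : W} (h0 : x₁ ≠ 0) (h1 : h x₁ x₁ = 0)
    (H : ∀ u, T u x₁ ∈ range s) : Same T T' := by
  have c' := c.rel hr
  obtain ⟨x, z, d, hx0, hx, h2, h3, h4, h5, -, rfl⟩ := c'.exists_data hs
  obtain ⟨b, hb, a, -, eb⟩ := c.hh.exists_eich hx h3
  obtain ⟨k, hk, ek⟩ := c'.rad x hx b hb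
  have h6 : ∀ u, k (T u x₁) = T u x₁ := fun u => by
    obtain ⟨v, e⟩ := H u
    rw [← e]
    exact c'.hT.ind (P := fun v => k (c'.hT.mp 1 _ v) = c'.hT.mp 1 _ v) (by simp)
      (fun _ _ k1 k2 => by simp only [map_add, k1, k2])
      (fun u y => by simp [ek, eb x, eb z, hx, h2, c.hh.comm h3, c.hh.comm h4]) v
  obtain ⟨b', eb'⟩ := c.hT.flip.exists_of_fix
    (tensG_flip T ▸ c.pt _ _ h0 h1 h0 h1 k hk fun u => ⟨u, h6 u⟩) h0 h6
  replace eb' : ∀ y u, k (T u y) = T u (b' y) := eb'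
  have h7 : ∀ v, k (k v - v) - (k v - v) = T' (c'.hT.cR (-h d d • h x) v) x := fun v =>
    LinearMap.congr_fun (c'.hT.ext (a := ((k : End F V) - 1) * ((k : End F V) - 1))
      (b := T'.flip x ∘ₗ c'.hT.cR (-h d d • h x)) fun u y => by
        simp only [End.mul_apply, LinearMap.sub_apply, LinearEquiv.coe_coe, End.one_apply, ek, eb y,
          map_add, map_sub, map_smul, eb d, eb x, hx, h3, c.hh.comm h3, LinearMap.comp_apply,
          IsTens.cR_apply, LinearMap.smul_apply, LinearMap.flip_apply, smul_eq_mul]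
        module) v
  have h8 : ∀ u y, T u (b' (b' y - y) - (b' y - y)) = T' (c'.hT.cR (-h d d • h x) (T u y)) x :=
    fun u y => by simp only [← h7, map_sub, eb']
  obtain ⟨u₀, u₁, hu⟩ := c.hf.exists_ne_pair
  obtain ⟨y, hy⟩ : ∃ y, b' (b' y - y) - (b' y - y) ≠ 0 := by
    by_contra! hc
    obtain ⟨x', hxx⟩ := c.hh.exists_eq_one hx0
    have := LinearMap.congr_fun (c.hT.ext (a := T'.flip x ∘ₗ c'.hT.cR (-h d d • h x)) (b := 0)
      fun u y => by rw [LinearMap.comp_apply, LinearMap.flip_apply, ← h8, hc]; simp) (T' u₀ x')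
    simp [hxx, h5, c'.hT.eq_zero_iff, hx0] at this
    simp [this] at hu
  obtain ⟨g, hg, rfl⟩ := hr
  refine same_tr.2 (inv_mem_iff.1 (c.pt _ x hy ?_ hx0 hx _ (inv_mem hg) fun u => ⟨_, by
    rw [h8, tr_apply, inv_apply_self]⟩))
  have := c.tens u₀ (b' (b' y - y) - (b' y - y)) u₁ (b' (b' y - y) - (b' y - y))
  rw [h8, h8, c'.tens, hx, hu] at this
  simpa using this.symm

theorem same_of_le (hr : Rel X T T') (ht : OR X T t) (hs : OR X T' s) (e : range t ≤ range s) :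
    Same T T' :=
  let ⟨_, _, _, h1, h2, _, _, _, _, h3, _⟩ := c.exists_data ht
  c.same_of_pt hr hs h1 h2 fun u => e (h3 u)

theorem norm_of_range (ht : OR X T t) {y : V ≃ₗ[F] V} (hy : y ∈ X)
    (e : ∀ v ∈ range t, y v ∈ range t) : y ∈ tensG T :=
  same_tr.1 ((c.rel (rel_tr hy)).same_of_le (rel_tr hy).symm (ht.tr hy) ht (by
    rw [range_cj]
    intro v hv
    simpa using e _ (mem_im.1 hv))).symm

theorem not_inC (h1 : UIn X s) (h2 : s * s = 0) (h3 : finrank F (range s) = 2 * finrank F U) :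
    ¬ InC T s := fun hC => by
  have := c.nontrivial
  obtain ⟨a, rfl⟩ := (inC_iff c.hT).1 hC
  obtain ⟨y, y', hy⟩ := c.hh.exists_ne_pair
  rw [c.hT.range_mp, c.hT.finrank_map₂, End.one_eq_id, LinearMap.range_id, finrank_top] at h3
  refine c.noC a (fun u u' => by
    simpa [c.tens, hy] using skew_of_uin c.two c.le h1 h2 (T u y) (T u' y'))
    (c.hT.mp_injective_left one_ne_zero ?_) h3
  rw [IsTens.mp_zero_left, ← h2, ← c.hT.mp_mul, mul_one]

theorem same_of_norm (hr : Rel X T T') (hs : OR X T' s) {x : V ≃ₗ[F] V} (e : ∀ z, x z = z + s z)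
    (hx : x ∈ tensG T) : Same T T' :=
  c.same_of_le hr (hs.of_inE ((inE_or_inC_odd c.hT c.two e hs.sq hx).resolve_right
    (c.not_inC hs.uin' hs.sq hs.rk))) hs le_rfl

theorem comm_of_mem (ht : OR X T t) (hs : OR X T s) {v : V} (h0 : v ≠ 0) (h1 : v ∈ range t)
    (h2 : v ∈ range s) : t * s = s * t := by
  obtain ⟨ρ, rfl, a1, a2, a3⟩ := c.exists_rho ht
  obtain ⟨ρ', rfl, b1, b2, b3⟩ := c.exists_rho hs
  obtain ⟨ξ, hξ⟩ := not_forall.1 (mt c.hT.eq_zero_of_cL h0)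
  rw [c.hT.range_mp] at h1 h2
  obtain ⟨y₁, e₁⟩ := c.hT.cL_mem h1 ξ
  obtain ⟨y₂, e₂⟩ := c.hT.cL_mem h2 ξ
  obtain ⟨_, ⟨z, rfl⟩, e⟩ := c.hh.eq_of_skew c.two a2 a1.le ⟨y₁, e₁⟩ hξ
  obtain ⟨_, ⟨z', rfl⟩, e'⟩ := c.hh.eq_of_skew c.two b2 b1.le ⟨y₂, e₂⟩ hξ
  have k1 : ∀ y, h (c.hT.cL ξ v) (ρ y) = 0 := fun y => e₁ ▸ a3 _ _
  have k2 : ∀ y, h (c.hT.cL ξ v) (ρ' y) = 0 := fun y => e₂ ▸ b3 _ _
  rw [← c.hT.mp_mul, ← c.hT.mp_mul]
  congr 1
  ext y
  rw [End.mul_apply, End.mul_apply, e (ρ' y), e' (ρ y), k1, k2, e y, e' y]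
  simp [c.hh.comm (k1 z), c.hh.comm (k2 z'), c.hh.symm (ρ z) (ρ' z')]

end OLoc

/-- A pair of long root elements from different conjugates with largest intersection. -/
structure OPair (T₁ T₂ : U →ₗ[F] W →ₗ[F] V) (f : U →ₗ[F] U →ₗ[F] F) (ε : F)
    (h : W →ₗ[F] W →ₗ[F] F) (β : V →ₗ[F] V →ₗ[F] F) (X : Subgroup (V ≃ₗ[F] V)) (t s : End F V) :
    Prop where
  loc : OLoc T₁ f ε h β X
  rel : Rel X T₁ T₂
  bad : ¬ Same T₁ T₂
  rt₁ : OR X T₁ t
  rt₂ : OR X T₂ s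
  max : ∀ T₃ T₄ t' s', Rel X T₁ T₃ → Rel X T₁ T₄ → ¬ Same T₃ T₄ → OR X T₃ t' → OR X T₄ s' →
    finrank F ↥(range t' ⊓ range s') ≤ finrank F ↥(range t ⊓ range s)

theorem OLoc.exists_pair (c : OLoc T f ε h β X) {g : V ≃ₗ[F] V} (hg : g ∈ X)
    (hb : g ∉ tensG T) : ∃ T₂ t s, OPair T T₂ f ε h β X t s := by
  have := c.hT.finiteDimensional
  let S : Set ℕ := {n | ∃ T₂ t s, Rel X T T₂ ∧ ¬ Same T T₂ ∧ OR X T t ∧ OR X T₂ s ∧
    finrank F ↥(range t ⊓ range s) = n}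
  obtain ⟨x, hx0, hx, -⟩ := exists_iso_orth h c.five 0 0
  obtain ⟨t₀, ht₀, -⟩ := c.exists_root hx0 hx
  have hb' : BddAbove S := ⟨finrank F V, by
    rintro _ ⟨_, _, _, -, -, -, -, rfl⟩; exact Submodule.finrank_le _⟩
  obtain ⟨T₂, t, s, h1, h2, h3, h4, h5⟩ :=
    Nat.sSup_mem (s := S) ⟨_, _, _, _, rel_tr hg, hb, ht₀, ht₀.tr hg, rfl⟩ hb'
  refine ⟨T₂, t, s, c, h1, h2, h3, h4, ?_⟩
  rintro _ T₄ t' s' ⟨k, hk, rfl⟩ h7 h8 h9 h10
  have hk' := X.inv_mem hk
  refine h5 ▸ le_csSup hb' ⟨tr T₄ k⁻¹, cj k⁻¹ t', cj k⁻¹ s', h7.trans (rel_tr hk'),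
    fun hG => h8 (by simpa [tr_tr] using hG.tr k), by simpa [tr_tr] using h9.tr hk', h10.tr hk', ?_⟩
  rw [range_cj, range_cj, ← im_inf, finrank_im]

namespace OPair

variable (p : OPair T₁ T₂ f ε h β X t s)
include p

theorem symm : OPair T₂ T₁ f ε h β X s t :=
  ⟨p.loc.rel p.rel, p.rel.symm, fun hg => p.bad hg.symm, p.rt₂, p.rt₁,
    fun T₃ T₄ t' s' h3 h4 h5 h6 h7 =>
      inf_comm (range t) (range s) ▸ p.max T₃ T₄ t' s' (p.rel.trans h3) (p.rel.trans h4) h5 h6 h7⟩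

theorem range_ne : range t ≠ range s := fun e => p.bad (p.loc.same_of_le p.rel p.rt₁ p.rt₂ e.le)

theorem same_of_lt {T₃ T₄ : U →ₗ[F] W →ₗ[F] V} {t' s' : End F V} (h3 : Rel X T₁ T₃)
    (h4 : Rel X T₁ T₄) (h6 : OR X T₃ t') (h7 : OR X T₄ s')
    (hle : range t ⊓ range s ≤ range t' ⊓ range s') {v : V} (hv : v ∈ range t' ⊓ range s')
    (hv' : v ∉ range t ⊓ range s) : Same T₃ T₄ := by
  have := p.loc.hT.finiteDimensional
  by_contra hb
  exact (Submodule.finrank_lt_finrank_of_lt (SetLike.lt_iff_le_and_exists.2 ⟨hle, v, hv, hv'⟩)).not_ge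
    (p.max T₃ T₄ t' s' h3 h4 hb h6 h7)

theorem shear_aux {v : V} (h1 : v ∈ range t) (h2 : s v ∈ range t) : v ∈ range s := by
  by_contra h3
  obtain ⟨x, hx, e⟩ := p.rt₂.uin'
  have hfix : ∀ j ∈ range s, x j = j := by
    rintro _ ⟨j, rfl⟩
    rw [e, ← End.mul_apply, p.rt₂.sq, LinearMap.zero_apply, add_zero]
  refine p.bad (p.loc.same_of_norm p.rel p.rt₂ e (p.same_of_lt Rel.refl (rel_tr hx) p.rt₁
    (p.rt₁.tr hx) (fun j hj => ⟨hj.1, ?_⟩) (v := x v) ⟨e v ▸ add_mem h1 h2, ?_⟩ fun hj => h3 ?_))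
  · rw [range_cj, ← hfix j hj.2]
    exact apply_mem_im.2 hj.1
  · rw [range_cj]
    exact apply_mem_im.2 h1
  · exact x.injective (hfix _ hj.2) ▸ hj.2

theorem shear : Shear t s :=
  ⟨p.rt₁.sq, p.rt₂.sq, p.rt₁.rk.trans p.rt₂.rk.symm, fun _ => p.shear_aux, fun _ => p.symm.shear_aux⟩

theorem exists_conj {x₁ x₂ : V ≃ₗ[F] V} (hx₁ : x₁ ∈ X) (hx₂ : x₂ ∈ X) (e₁ : ∀ z, x₁ z = z + t z)
    (e₂ : ∀ z, x₂ z = z + s z) :
    ∃ y ∈ Subgroup.closure {x₁, x₂}, ∀ v ∈ range t, y v ∈ range s := by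
  have := p.loc.hT.finiteDimensional
  have : Finite V := Module.finite_of_finite F
  have hS := p.shear
  obtain ⟨q, hq⟩ := CharP.exists F
  have : Fact q.Prime := ⟨CharP.char_is_prime F q⟩
  obtain ⟨y, hy, v, h1, h0, h2⟩ := hS.exists_sylow (p := q) p.range_ne e₁ e₂
  have hG := hS.closure_le e₁ e₂ hy
  have hX := closure_le_of_mem hx₁ hx₂ hy
  have h3 : v ∈ range (cj y t) := by rw [range_cj, mem_im]; exact range_mul_le _ _ h2
  have hg := p.same_of_lt (rel_tr hX) p.rel (p.rt₁.tr hX) p.rt₂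
    (fun j hj => ⟨by rw [range_cj, ← hG.2.2 j hj]; exact apply_mem_im.2 hj.1, hj.2⟩)
    ⟨h3, range_mul_le _ _ h1⟩ fun hj => h0 (hS.symm.eq_zero_of_D h1 (hS.t_range hj.1))
  refine ⟨y, hy, fun w hw => hS.range_le_of_comm p.loc.two e₁ e₂ hy (p.symm.loc.comm_of_mem
    ((p.rt₁.tr hX).of_inE (hg.inE (p.rt₁.tr hX).inE)) p.rt₂ h0 h3 (range_mul_le _ _ h1)) ?_⟩
  rw [range_cj]
  exact apply_mem_im.2 hw

theorem exists_four : (∀ j ∈ range t ⊓ range s, j = 0) ∧ ∃ P : Submodule F W,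
    finrank F P ≤ 4 ∧ range t ≤ Submodule.map₂ T₁ ⊤ P ∧ range s ≤ Submodule.map₂ T₁ ⊤ P := by
  have c := p.loc
  have := c.hT.finiteDimensional
  have hS := p.shear
  have h2 := c.two
  obtain ⟨x₁, hx₁, e₁⟩ := p.rt₁.uin'
  obtain ⟨x₂, hx₂, e₂⟩ := p.rt₂.uin'
  obtain ⟨y, hy, hI⟩ := p.exists_conj hx₁ hx₂ e₁ e₂
  obtain ⟨ω, hω, hg⟩ := hS.exists_torus hx₁ hx₂ e₁ e₂ hy hI
  obtain ⟨g, hg, hG, ga, gb⟩ := hg (-1) (by simp) (p.rt₁.uin _) (p.rt₂.uin _)
  obtain ⟨a, b, eg⟩ : g ∈ tensG T₁ := c.norm_of_range p.rt₁ hg fun v hv => by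
    obtain ⟨j, hj, a, ha', rfl⟩ := hS.dec_t hv
    rw [map_add, hG.2.2 j hj, ga a ha']
    exact add_mem hj.1 (Submodule.smul_mem _ _ (range_mul_le _ _ ha'))
  obtain ⟨x, z, d, -, -, -, h3, h4, h5, -, et⟩ := c.exists_data p.rt₁
  have h6 : ∀ u, h d (b d) • a u = h d d • u := fun u => by
    obtain ⟨a', ha, o, ho, -, e⟩ := hS.dec_ker (v := T₁ u d) (by simp [et, h3, h4])
    have k1 : g (T₁ u d) - T₁ u d ∈ range t := by
      rw [e, show g (a' + o) - (a' + o) = (-2 : F) • a' + (g o - o) by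
        rw [map_add, ga a' ha]; module]
      exact add_mem (Submodule.smul_mem _ _ (range_mul_le _ _ ha)) (hG.2.1 o ho).1
    obtain ⟨v, hv⟩ := k1
    have k2 := congrArg (c.hT.cR (h d)) hv
    rw [et, c.hT.cR_mp, show h d ∘ₗ ((h x).smulRight z - (h z).smulRight x) = 0 from
      LinearMap.ext fun _ => by simp [c.hh.comm h3, c.hh.comm h4], ← c.hT.cL_flip,
      IsTens.cL_zero] at k2
    simpa [eg, sub_eq_zero] using k2.symm
  have h7 : h d (b d) ≠ 0 := fun h0 => by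
    obtain ⟨u, hu⟩ := exists_ne (0 : U)
    simpa [h0, h5, hu] using (h6 u).symm
  obtain ⟨γ, hγ⟩ : ∃ γ : End F W, (g : End F V) - 1 = c.hT.mp 1 γ :=
    ⟨(h d d / h d (b d)) • (b : End F W) - 1, c.hT.ext fun u y => by
      rw [LinearMap.sub_apply, LinearEquiv.coe_coe, eg, ← inv_smul_smul₀ h7 (a u), h6]
      simp [div_eq_inv_mul, smul_smul]⟩
  have hJ : ∀ j ∈ range t ⊓ range s, j = 0 := fun j hj => c.hT.eq_zero_of_cL fun ξ => by
    by_contra h0
    obtain ⟨ρ, rfl, -, -, k1⟩ := c.exists_rho p.rt₁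
    have k2 := hj.1
    rw [c.hT.range_mp] at k2
    obtain ⟨w, hw⟩ := c.hT.cL_mem k2 ξ
    have k3 : γ (ρ w) = 0 := by
      rw [hw, ← LinearMap.comp_id ξ, ← End.one_eq_id, ← c.hT.cL_mp, ← hγ]
      simp [hG.2.2 j hj]
    refine p.bad (c.same_of_pt p.rel p.rt₂ (hw ▸ h0) (k1 w w) fun u => ?_)
    obtain ⟨j', hj', a', ha', e⟩ := hS.dec_t ⟨T₁ u w, c.hT.mp_apply _ _ _ _⟩
    have k4 := LinearMap.congr_fun hγ (T₁ u (ρ w))
    rw [IsTens.mp_apply, k3, map_zero, End.one_apply] at *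
    rw [← e, LinearMap.sub_apply, LinearEquiv.coe_coe, map_add, hG.2.2 j' hj', ga a' ha',
      End.one_apply] at k4
    have k5 : a' = 0 := (smul_eq_zero.1 (show (2 : F) • a' = 0 by
      linear_combination (norm := module) -k4)).resolve_left h2
    rw [← e, k5, add_zero]
    exact hj'.2
  have hr : range ((g : End F V) - 1) = Submodule.map₂ T₁ ⊤ (range γ) := by
    rw [hγ, c.hT.range_mp, End.one_eq_id, LinearMap.range_id]
  have hD : range (t * s) ≤ range ((g : End F V) - 1) := fun a ha =>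
    (Submodule.smul_mem_iff _ h2).1 ⟨-a, by simp [ga a ha, two_smul]⟩
  refine ⟨hJ, range γ, ?_, hr ▸ fun v hv => ?_, hr ▸ fun v hv => ?_⟩
  · have h1 : range ((g : End F V) - 1) ≤ range t ⊔ range s := by
      rintro _ ⟨v, rfl⟩
      obtain ⟨l, hl, o, ho, rfl⟩ := hS.dec' v
      rw [map_add]
      have h0 : shL t s ≤ range t ⊔ range s := sup_le_sup (range_mul_le _ _) (range_mul_le _ _)
      exact add_mem (h0 (sub_mem (hG.1 l hl) hl)) (Submodule.mem_sup_left (hG.2.1 o ho).1)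
    have k2 := Submodule.finrank_mono h1
    have k3 := Submodule.finrank_add_le_finrank_add_finrank (range t) (range s)
    rw [hr, c.hT.finrank_map₂, finrank_top] at k2
    rw [p.rt₁.rk, p.rt₂.rk] at k3
    exact Nat.le_of_mul_le_mul_left (by omega) (finrank_pos (R := F) (M := U))
  · obtain ⟨j, hj, a, ha, rfl⟩ := hS.dec_t hv
    rw [hJ j hj, zero_add]
    exact hD ha
  · obtain ⟨j, hj, b, hb, rfl⟩ := hS.dec_s hv
    rw [hJ j hj, zero_add, ← Submodule.smul_mem_iff _ h2,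
      show (2 : F) • b = (2 : F) • ω b - ((g : End F V) - 1) b by
        simp only [LinearMap.sub_apply, LinearEquiv.coe_coe, gb b hb, End.one_apply, inv_neg_one]
        module]
    exact sub_mem (Submodule.smul_mem _ _ (hD (hω b hb))) ⟨_, rfl⟩

theorem of_root {t' : End F V} (ht : OR X T₁ t') : OPair T₁ T₂ f ε h β X t' s :=
  ⟨p.loc, p.rel, p.bad, ht, p.rt₂, fun T₃ T₄ _ _ h3 h4 h5 h6 h7 =>
    (p.max T₃ T₄ _ _ h3 h4 h5 h6 h7).trans (by
      rw [(Submodule.eq_bot_iff _).2 p.exists_four.1, finrank_bot]; omega)⟩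

theorem four_le {P : Submodule F W} (hP : range s ≤ Submodule.map₂ T₁ ⊤ P) : 4 ≤ finrank F P := by
  have c := p.loc
  have := c.hT.finiteDimensional
  set φ : W →ₗ[F] Dual F P := P.subtype.dualMap ∘ₗ h
  have h1 : Submodule.map₂ T₁ ⊤ (ker φ) ≤ ker s := Submodule.map₂_le.2 fun u _ w hw =>
    c.sep _ fun v => by
      rw [skew_of_uin c.two c.le p.rt₂.uin' p.rt₂.sq, c.left, neg_eq_zero]
      exact LinearMap.congr_fun hw ⟨_, c.hT.cL_mem (hP ⟨v, rfl⟩) _⟩
  have h2 : range s ⊓ Submodule.map₂ T₁ ⊤ (ker φ) = ⊥ := (Submodule.eq_bot_iff _).2 fun v hv =>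
    c.hT.eq_zero_of_cL fun ξ => by_contra fun h0 => by
      have k1 := c.hT.cL_mem hv.2 ξ
      obtain ⟨t', ht, k2⟩ := c.exists_root h0
        (LinearMap.congr_fun k1 ⟨_, c.hT.cL_mem (hP hv.1) ξ⟩)
      obtain ⟨u, hu⟩ := exists_ne (0 : U)
      exact c.hT.ne_zero hu h0 ((p.of_root ht).exists_four.1 _ ⟨k2 u, (p.of_root ht).shear.ker1
        (k2 u) (h1 (Submodule.apply_mem_map₂ _ trivial k1))⟩)
  have h3 := Submodule.finrank_mono (sup_le (LinearMap.range_le_ker_iff.2 p.rt₂.sq) h1)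
  have h4 := Submodule.finrank_sup_add_finrank_inf_eq (range s) (Submodule.map₂ T₁ ⊤ (ker φ))
  have h5 := s.finrank_range_add_finrank_ker
  have h6 := φ.finrank_range_add_finrank_ker
  have h7 := (range φ).finrank_le
  rw [h2, finrank_bot, c.hT.finrank_map₂, finrank_top, p.rt₂.rk] at h4
  rw [p.rt₂.rk, c.hT.finrank_eq, ← h6, mul_add] at h5
  rw [Subspace.dual_finrank_eq] at h7
  exact (Nat.le_of_mul_le_mul_left (by omega) (finrank_pos (R := F) (M := U))).trans h7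

theorem false : False := by
  have c := p.loc
  obtain ⟨-, P, h1, -, h2⟩ := p.exists_four
  obtain ⟨x, hx0, hx, -⟩ := exists_iso_orth h c.five 0 0
  have h3 := c.hh.spanOpp_of_three c.two (by have := c.five; omega) x hx0 hx P fun y hy hyx => by
    obtain ⟨t', ht, k⟩ := c.exists_root (fun e => by simp [e] at hyx) hy
    obtain ⟨-, P', k1, k2, k3⟩ := (p.of_root ht).exists_four
    have k4 := Submodule.eq_of_le_of_finrank_le (inf_le_right (a := P))
      (k1.trans (p.four_le (by simpa [c.hT.map₂_inf] using le_inf h2 k3)))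
    obtain ⟨u, u', hu⟩ := c.hf.exists_ne_pair
    simpa [hu] using (k4.ge (c.hT.cL_mem (k2 (k u')) (f u))).1
  have := c.five
  rw [h3, finrank_top] at h1
  omega

end OPair

/-- The global theorem for an orthogonal second factor. -/
theorem OLoc.le_tensG (c : OLoc T f ε h β X) : X ≤ tensG T := fun _ hg => by_contra fun hb =>
  let ⟨_, _, _, p⟩ := c.exists_pair hg hb; p.false

theorem Ctx.oLoc (c : Ctx T f ε h 1 β X) (h2 : (2 : F) ≠ 0) (h5 : 5 ≤ finrank F W)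
    (pt : ∀ p, p ≠ 0 → h p p = 0 → ∀ y ∈ X, (∀ u, y (T u p) ∈ JL T.flip p) → y ∈ tensG T)
    (noC : ∀ a : End F U, (∀ u u', f (a u) u' = -f u (a u')) → a * a = 0 →
      finrank F (range a) * finrank F W ≠ 2 * finrank F U) : OLoc T f ε h β X := by
  refine ⟨c.toTF, h2, h5, c.le, fun p hp b hb => ⟨_, c.radR_mem hp hb, fun u y => by simp⟩,
    fun p p' h1 h3 h4 h6 y hy e => ?_, noC⟩
  obtain ⟨a, -, ha, d, -, e'⟩ := c.flip.exists_move (c.hh.spanOpp_of_three h2 (by omega)) h4 h6 h1 h3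
  have := pt p h1 h3 _ (mul_mem ha hy) fun u => by
    obtain ⟨u', k⟩ := e u
    exact ⟨d • u', by simpa [k, e'] using (c.flip.hT.mpE_apply a 1 p' u').symm⟩
  exact (Subgroup.mul_mem_cancel_left _ (tensG_flip T ▸ c.flip.hT.mpE_mem a 1)).1 this

end Cfsg.Lib.Class.Tn
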