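import Cfsg.Agent.Class.Tens.Bil
import Cfsg.Agent.Class.Wr.GlobB

/-!
The global step for tensor decompositions whose second factor has transvections.
-/

set_option autoImplicit false
set_option linter.unusedSectionVars false

namespace Cfsg.Lib.Class.Tn

open Module Form AO Wr Tens
open LinearMap (range ker)

variable {F U W V : Type*} [Field F] [AddCommGroup U] [Module F U] [AddCommGroup W] [Module F W]
  [AddCommGroup V] [Module F V] {σ : F →+* F} {T : U →ₗ[F] W →ₗ[F] V} {f : U →ₛₗ[σ] U →ₗ[F] F}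
  {h : W →ₛₗ[σ] W →ₗ[F] F} {β : V →ₛₗ[σ] V →ₗ[F] F} {ε₁ ε₂ : F} {X : Subgroup (V ≃ₗ[F] V)}

/-- Every plane contains a non-zero isotropic vector. -/
def Iso2 (h : W →ₛₗ[σ] W →ₗ[F] F) : Prop :=
  ∀ S : Submodule F W, 2 ≤ finrank F S → ∃ w ∈ S, w ≠ 0 ∧ h w w = 0

theorem iso2_of_alt (ha : ∀ w, h w w = 0) : Iso2 h := fun S hS => by
  obtain ⟨w, hw, h0⟩ := S.exists_mem_ne_zero_of_ne_bot fun e => by
    rw [e, finrank_bot] at hS; omega
  exact ⟨w, hw, h0, ha w⟩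

theorem Hm.scalar_of_iso (hh : Hm h ε₂) {s : F} (hs0 : s ≠ 0) (hs : ε₂ * s + σ s = 0) {p : W}
    (hp0 : p ≠ 0) (hp : h p p = 0) {ρ : End F W}
    (hρ : ∀ w, w ≠ 0 → h w w = 0 → ∃ c : F, ρ w = c • w) : ∃ c : F, ρ = c • 1 := by
  obtain ⟨c, hc⟩ := hρ p hp0 hp
  have := hh.spanOpp_of_tv hs0 hs p hp0 hp (ker (ρ - c • 1)) fun y hy hyp => by
    obtain ⟨d, hd⟩ := hρ y (fun e => by simp [e] at hyp) hy
    have h1 := hh.ne_comm hyp
    obtain ⟨a, ha⟩ := hρ (y + (s / h y p) • p)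
      (fun e => by simpa [hp, h1] using congrArg (h p) e) (by
        simp only [map_add, map_smulₛₗ, LinearMap.add_apply, LinearMap.smul_apply, hy, hp,
          RingHom.id_apply, smul_eq_mul, map_div₀, hh.conj]
        have := hh.eps_ne
        field_simp
        linear_combination h p y * h y p * hs)
    have h2 := congrArg (h p) ha
    have h3 := congrArg (h y) ha
    simp only [map_add, map_smul, hc, hd, hp, hy, smul_eq_mul] at h2 h3
    have h4 : d = a := mul_right_cancel₀ h1 (by linear_combination h2)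
    have h5 : c = a := mul_right_cancel₀ hs0 (by field_simp at h3; linear_combination h3)
    simp [hd, h4, h5]
  exact ⟨c, sub_eq_zero.1 (LinearMap.ker_eq_top.1 this)⟩

variable [FiniteDimensional F U] [FiniteDimensional F W]

theorem Iso2.exists_orth (hI : Iso2 h) (hh : Hm h ε₂) (hn : 4 ≤ finrank F W) (x y : W) :
    ∃ w, w ≠ 0 ∧ h w w = 0 ∧ h w x = 0 ∧ h w y = 0 := by
  have := finrank_ker_two (h x) (h y)
  obtain ⟨w, ⟨h1, h2⟩, h3, h4⟩ := hI (ker (h x) ⊓ ker (h y)) (by omega)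
  exact ⟨w, h3, h4, hh.comm h1, hh.comm h2⟩

theorem eig_of_three [Finite F] (hU : finrank F U = 3) : Eig X T := by
  intro _ _ a _ _ c x hc e
  by_contra! hn
  have : Nontrivial U := Module.nontrivial_of_finrank_pos (R := F) (by omega)
  obtain ⟨u, hu⟩ := exists_ne (0 : U)
  obtain ⟨v, -, hv⟩ := exists_notMem_span_pair (P := (⊤ : Submodule F U)) (by simp [hU]) u (a u)
  obtain ⟨ξ, h1, h2, h3⟩ := exists_dual_two hv
  have h4 : ξ (a (a u)) = 0 := by simpa [h1, h2, hc] using congrArg ξ (e u)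
  have h5 : Submodule.span F {u, a u, v} = ⊤ := by
    refine Submodule.eq_top_of_finrank_eq (le_antisymm (Submodule.finrank_le _) ?_)
    have k1 : Submodule.span F {u} < Submodule.span F {u, a u} :=
      SetLike.lt_iff_le_and_exists.2 ⟨Submodule.span_mono (by simp), a u,
        Submodule.subset_span (by simp), fun h => by
          obtain ⟨ρ, hρ⟩ := Submodule.mem_span_singleton.1 h
          exact hn u hu ρ hρ.symm⟩
    have k2 : Submodule.span F {u, a u} < Submodule.span F {u, a u, v} :=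
      SetLike.lt_iff_le_and_exists.2 ⟨Submodule.span_mono (by simp [Set.insert_subset_iff]), v,
        Submodule.subset_span (by simp), hv⟩
    have := Submodule.finrank_lt_finrank_of_lt k1
    have := Submodule.finrank_lt_finrank_of_lt k2
    rw [finrank_span_singleton hu] at *
    omega
  have h6 : ξ ∘ₗ (a : End F U) = ξ (a v) • ξ := LinearMap.ext_on h5 (by
    rintro y (rfl | rfl | rfl) <;> simp [h1, h2, h3, h4])
  have h7 : ∀ y, ξ (a y) = ξ (a v) * ξ y := LinearMap.congr_fun h6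
  have h8 := congrArg ξ (e v)
  simp only [map_add, map_smul, h7 (a v), h3, smul_eq_mul] at h8
  generalize ξ (a v) = ρ at h8
  refine hn (c • a u + (x + c * ρ) • u) (fun h0 => hn u hu (-(x + c * ρ) / c) ?_) ρ ?_
  · refine smul_right_injective _ hc ?_
    simp only [smul_smul, mul_div_cancel₀ _ hc]
    linear_combination (norm := module) h0
  · simp only [map_add, map_smul]
    linear_combination (norm := module) e u - h8 • u

variable [Nontrivial U]

theorem not_comm_of_lt (hL : Loc X T) (hlt : finrank F U < finrank F W) {g : V ≃ₗ[F] V}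
    (hg : g ∈ X) : ¬ Comm T (tr T g) := fun hC => by
  have := hL.nontrivial
  obtain ⟨t, ht⟩ := hL.exists_rt
  obtain ⟨b, hb⟩ := (inC_iff hL.tens).1 (hC.inC hL.tens (ht.tr hg).inE)
  have h1 := (ht.tr hg).finrank_range (isTens_tr hL.tens g)
  rw [hb, hL.tens.range_mp, hL.tens.finrank_map₂, End.one_eq_id, LinearMap.range_id,
    finrank_top] at h1
  have h2 : 0 < finrank F U := finrank_pos
  rcases Nat.eq_zero_or_pos (finrank F (range b)) with h3 | h3
  · rw [h3] at h1; omega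
  · have := Nat.mul_le_mul_right (finrank F W) h3
    omega

namespace Ctx

variable (c : Ctx T f ε₁ h ε₂ β X)
include c

theorem rt_of {w : W} (hw0 : w ≠ 0) (hw : h w w = 0) {s : F} (hs0 : s ≠ 0)
    (hs : ε₂ * s + σ s = 0) : Rt X T w (s • h w) := by
  obtain ⟨b, hb, e⟩ := c.hh.exists_tv hw hs
  obtain ⟨y, hy⟩ := c.hh.exists_eq_one hw0
  refine ⟨c.hT.mp 1 ((s • h w).smulRight w), ⟨_, c.radR_mem hw hb, fun z => ?_⟩, hw0,
    fun h0 => hs0 (by simpa [hy] using LinearMap.congr_fun h0 y), by simp [hw], fun u y => by simp⟩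
  exact LinearMap.congr_fun (c.hT.ext (a := c.hT.mp 1 b) (b := 1 + c.hT.mp 1 _) fun u y => by
    simp [e]) z

theorem of_rt {w : W} {φ : Dual F W} (hr : Rt X T w φ) :
    w ≠ 0 ∧ h w w = 0 ∧ ∃ s, s ≠ 0 ∧ ε₂ * s + σ s = 0 ∧ φ = s • h w := by
  obtain ⟨t, ⟨k, hk, e⟩, w0, φ0, φw, eq⟩ := hr
  obtain ⟨u, u', hu⟩ := c.hf.exists_ne_pair
  have H : ∀ y y', φ y' * h y w + σ (φ y) * h w y' + σ (φ y) * φ y' * h w w = 0 := fun y y' => by
    have := iso (c.le hk) (T u y) (T u' y')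
    simp only [e, eq, map_add, map_smulₛₗ, LinearMap.add_apply, LinearMap.smul_apply, c.tens, hu,
      RingHom.id_apply, smul_eq_mul] at this
    linear_combination this
  obtain ⟨y₀, hy₀⟩ := Tens.exists_apply_eq φ0 1
  have hw : h w w = 0 := by simpa [φw, hy₀] using H w y₀
  obtain ⟨y₁, hy₁⟩ := c.hh.exists_eq_one w0
  have h1 : φ = φ y₁ • h w := LinearMap.ext fun y => by
    have h2 := H y₁ y
    have h3 := H y₁ y₁
    simp only [hw, hy₁, c.hh.swap_one hy₁] at h2 h3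
    refine mul_left_cancel₀ c.hh.eps_ne ?_
    simp only [LinearMap.smul_apply, smul_eq_mul]
    linear_combination h2 - h w y * h3
  refine ⟨w0, hw, φ y₁, fun h0 => φ0 (by rw [h1, h0, zero_smul]), ?_, h1⟩
  have h3 := H y₁ y₁
  simp only [hw, hy₁, c.hh.swap_one hy₁] at h3
  linear_combination h3

theorem sc {a : F} (ha0 : a ≠ 0) (ha : σ a = a) : Sc (Rt X T) a := fun w φ hr => by
  obtain ⟨h1, h2, s, h3, h4, rfl⟩ := c.of_rt hr
  rw [smul_smul, smul_smul]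
  exact ⟨c.rt_of h1 h2 (mul_ne_zero ha0 h3) (by rw [map_mul, ha]; linear_combination a * h4),
    c.rt_of h1 h2 (mul_ne_zero (inv_ne_zero ha0) h3)
      (by rw [map_mul, map_inv₀, ha]; linear_combination a⁻¹ * h4)⟩

variable {s : F} (hs0 : s ≠ 0) (hs : ε₂ * s + σ s = 0) (hI : Iso2 h)
include hs0 hs hI

theorem loc (h2 : 2 ≤ finrank F W) (nl : (2 : F) ≠ 0 ∨ 3 ≤ finrank F W)
    (pt : ∀ p, p ≠ 0 → h p p = 0 → ∀ y ∈ X, (∀ u, y (T u p) ∈ JL T.flip p) → y ∈ tensG T) :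
    Loc X T := by
  refine ⟨c.hT, fun w φ hr y hy e => ?_, fun w φ w' φ' hr hr' => ?_, fun ρ hρ => ?_, h2, nl⟩
  · obtain ⟨h1, h3, -⟩ := c.of_rt hr
    exact pt w h1 h3 y hy fun u => let ⟨u', e⟩ := e u; ⟨u', e.symm⟩
  · obtain ⟨h1, h3, -⟩ := c.of_rt hr
    obtain ⟨h4, h5, -⟩ := c.of_rt hr'
    obtain ⟨a, -, ha, d, -, e⟩ := c.flip.exists_move (c.hh.spanOpp_of_tv hs0 hs) h1 h3 h4 h5
    exact ⟨_, ha, tensG_flip T ▸ c.flip.hT.mpE_mem a 1, fun u => ⟨d • u, by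
      simpa [e] using c.flip.hT.mpE_apply a 1 w u⟩⟩
  · obtain ⟨p, -, hp0, hp⟩ := hI ⊤ (by simpa using h2)
    exact c.hh.scalar_of_iso hs0 hs hp0 hp fun w h1 h3 =>
      let ⟨d, e⟩ := Submodule.mem_span_singleton.1 (hρ w _ (c.rt_of h1 h3 hs0 hs)); ⟨d, e.symm⟩

variable [Finite F]

theorem good_of_fixed (hL : Loc X T) {a : F} (ha : σ a = a) (ha0 : a ≠ 0) (ha1 : a ≠ 1)
    (hW : 3 ≤ finrank F W ∨ a * a ≠ 1 ∧ ∀ w, h w w = 0) {g : V ≃ₗ[F] V} (hg : g ∈ X) :
    Good T (tr T g) := by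
  refine hL.good_of_scalar ha0 ha1 (c.sc ha0 ha) (hW.imp_right And.left) (fun y => ?_) hg
  obtain ⟨w, h1, h2, h3⟩ : ∃ w, w ≠ 0 ∧ h w w = 0 ∧ h w y = 0 := by
    have := hL.two
    rcases hW with hW | ⟨-, hW⟩
    · obtain ⟨w, h1, h2, h3⟩ := hI (ker (h y)) (by have := finrank_ker_dual (h y); omega)
      exact ⟨w, h2, h3, c.hh.comm h1⟩
    · obtain ⟨w, h1, h2⟩ := (ker (h y)).exists_mem_ne_zero_of_ne_bot fun e => by
        have := finrank_ker_dual (h y)
        rw [e, finrank_bot] at this; omega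
      exact ⟨w, h2, hW w, c.hh.comm h1⟩
  exact ⟨w, _, c.rt_of h1 h2 hs0 hs, by simp [h3]⟩

theorem good_of_two (hL : Loc X T) (hq : ∀ a, σ a = a → a = 0 ∨ a = 1) (hW : 4 ≤ finrank F W)
    (h8 : 5 ≤ finrank F W ∨ finrank F U = 3) {g : V ≃ₗ[F] V} (hg : g ∈ X) : Good T (tr T g) := by
  obtain ⟨w₁, h1, h2, -⟩ := hI.exists_orth c.hh hW 0 0
  obtain ⟨y₁, h3⟩ := c.hh.exists_eq_one h1
  obtain ⟨w₂, h4, h5, h6, h7⟩ := hI.exists_orth c.hh hW w₁ y₁
  have key : ∀ {w y γ : W}, h w y = 1 → γ ≠ 0 → h γ y = 0 → γ ∉ Submodule.span F {w} :=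
    fun h1 h2 h3 h4 => let ⟨a, e⟩ := Submodule.mem_span_singleton.1 h4
      c.hh.ne_smul_of h1 h2 (c.hh.comm h3) a e.symm
  refine hL.good_of_two_form (fun w φ a hr hr' => ?_) hW (fun w φ hr => ?_) (fun y y' => ?_)
    (c.rt_of h1 h2 hs0 hs) (c.rt_of h4 h5 hs0 hs) (by simp [c.hh.comm h6]) (by simp [h6])
    (key h3 h4 h7) (fun hm => ?_) (h8.imp_right fun h8 => ⟨eig_of_three h8, fun y => ?_⟩) hg
  · obtain ⟨k1, -, d, k2, k3, rfl⟩ := c.of_rt hr
    obtain ⟨-, -, d', k4, k5, e⟩ := c.of_rt hr'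
    obtain ⟨y, hy⟩ := c.hh.exists_eq_one k1
    obtain rfl : a * d = d' := by simpa [hy] using LinearMap.congr_fun e y
    refine (hq a (mul_right_cancel₀ (mul_ne_zero c.hh.eps_ne k2) ?_)).resolve_left
      (left_ne_zero_of_mul k4)
    rw [map_mul] at k5
    linear_combination σ a * k3 - k5
  · obtain ⟨k1, -⟩ := c.of_rt hr
    obtain ⟨y, hy⟩ := c.hh.exists_eq_one k1
    obtain ⟨γ, k2, k3, k4, k5⟩ := hI.exists_orth c.hh hW w y
    exact ⟨γ, _, c.rt_of k2 k3 hs0 hs, by simp [k4], key hy k2 k5⟩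
  · obtain ⟨γ, k2, k3, k4, k5⟩ := hI.exists_orth c.hh hW y y'
    exact ⟨γ, _, c.rt_of k2 k3 hs0 hs, by simp [k4], by simp [k5]⟩
  · obtain ⟨a, e⟩ := Submodule.mem_span_singleton.1 hm
    simpa [h3, h7, hs0.symm] using LinearMap.congr_fun e y₁
  · by_cases k : h w₁ y = 0
    · exact ⟨w₁, _, c.rt_of h1 h2 hs0 hs, by simp [h2], by simp [c.hh.comm h6], by simp [k]⟩
    refine ⟨w₂ - σ (h w₂ y / h w₁ y) • w₁, _, c.rt_of (fun e => key h3 h4 h7
      (Submodule.mem_span_singleton.2 ⟨_, (sub_eq_zero.1 e).symm⟩)) ?_ hs0 hs,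
      ?_, ?_, ?_⟩ <;> simp [map_smulₛₗ, h2, h5, h6, c.hh.comm h6, c.hh.invol, k]

/-- The global theorem when the second factor is the larger one. -/
theorem le_tensG (hlt : finrank F U < finrank F W)
    (hW : 3 ≤ finrank F W ∧ (∃ a, σ a = a ∧ a ≠ 0 ∧ a ≠ 1) ∨ 5 ≤ finrank F W ∨
      4 ≤ finrank F W ∧ finrank F U = 3)
    (pt : ∀ p, p ≠ 0 → h p p = 0 → ∀ y ∈ X, (∀ u, y (T u p) ∈ JL T.flip p) → y ∈ tensG T) :
    X ≤ tensG T := fun g hg => by
  have hL := c.loc hs0 hs hI (by omega) (Or.inr (by omega)) pt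
  refine Or.resolve_right ?_ (not_comm_of_lt hL hlt hg)
  by_cases hq : ∃ a, σ a = a ∧ a ≠ 0 ∧ a ≠ 1
  · obtain ⟨a, h1, h2, h3⟩ := hq
    exact c.good_of_fixed hs0 hs hI hL h1 h2 h3 (Or.inl (by omega)) hg
  · have h1 := hW.resolve_left fun h => hq h.2
    exact c.good_of_two hs0 hs hI hL (fun a ha => by_contra fun h => hq ⟨a, ha, not_or.1 h⟩)
      (by omega) (by omega) hg

end Ctx

end Cfsg.Lib.Class.Tn
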