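import Cfsg.Agent.Class.Tens.Basic
import Cfsg.Agent.Class.Tens.Form

/-!
Overgroups `X` of the stabiliser of a tensor decomposition of a formed space: the stabiliser in `X`
of `x ⊗ W` for an isotropic vector `x` of the first factor.
-/

set_option autoImplicit false

namespace Cfsg.Lib.Class.Tn

open Module Form AO

variable {F U W V : Type*} [Field F] [AddCommGroup U] [Module F U] [AddCommGroup W] [Module F W]
  [AddCommGroup V] [Module F V] {σ : F →+* F}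

/-- The subspace `x ⊗ W`. -/
abbrev JL (T : U →ₗ[F] W →ₗ[F] V) (x : U) : Submodule F V := LinearMap.range (T x)

/-- A tensor decomposition of a formed space. -/
structure TF (T : U →ₗ[F] W →ₗ[F] V) (f : U →ₛₗ[σ] U →ₗ[F] F) (ε₁ : F) (h : W →ₛₗ[σ] W →ₗ[F] F)
    (ε₂ : F) (β : V →ₛₗ[σ] V →ₗ[F] F) : Prop where
  hT : IsTens T
  hf : Hm f ε₁
  hh : Hm h ε₂
  tens : ∀ x y x' y', β (T x y) (T x' y') = f x x' * h y y'

variable {T : U →ₗ[F] W →ₗ[F] V} {f : U →ₛₗ[σ] U →ₗ[F] F} {h : W →ₛₗ[σ] W →ₗ[F] F}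
  {β : V →ₛₗ[σ] V →ₗ[F] F} {ε₁ ε₂ : F}

theorem IsTens.mem_tensG_of_eq (hT : IsTens T) [FiniteDimensional F U] [FiniteDimensional F W]
    [Nontrivial U] [Nontrivial W] {g : V ≃ₗ[F] V} {a : End F U} {b : End F W}
    (e : ∀ x y, g (T x y) = T (a x) (b y)) : g ∈ tensG T := by
  obtain ⟨x, hx⟩ := exists_ne (0 : U)
  obtain ⟨y, hy⟩ := exists_ne (0 : W)
  have ha : Function.Injective a := (injective_iff_map_eq_zero _).2 fun z hz => by_contra fun h0 =>
    hT.ne_zero h0 hy (g.map_eq_zero_iff.1 (by rw [e, hz]; simp))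
  have hb : Function.Injective b := (injective_iff_map_eq_zero _).2 fun z hz => by_contra fun h0 =>
    hT.ne_zero hx h0 (g.map_eq_zero_iff.1 (by rw [e, hz]; simp))
  exact ⟨LinearEquiv.ofInjectiveEndo a ha, LinearEquiv.ofInjectiveEndo b hb, e⟩

theorem IsTens.exists_of_fix (hT : IsTens T) [Nontrivial W] {g : V ≃ₗ[F] V} (hg : g ∈ tensG T)
    {x : U} (hx : x ≠ 0) (e : ∀ w, g (T x w) = T x w) :
    ∃ a : U ≃ₗ[F] U, ∀ y w, g (T y w) = T (a y) w := by
  obtain ⟨a, b, H⟩ := hg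
  obtain ⟨ξ, hξ⟩ := Module.Projective.exists_dual_eq_one F hx
  have h1 : ∀ w, ξ (a x) • b w = w := fun w => by
    rw [← hT.cL_apply, ← H, e, hT.cL_apply, hξ, one_smul]
  obtain ⟨y, hy⟩ := exists_ne (0 : W)
  have h2 : ξ (a x) ≠ 0 := fun h0 => hy (by rw [← h1 y, h0, zero_smul])
  refine ⟨a.trans (LinearEquiv.smulOfNeZero F U _ (inv_ne_zero h2)), fun y w => ?_⟩
  conv_rhs => rw [← h1 w]
  simp [H, smul_smul, h2]

namespace TF

variable (t : TF T f ε₁ h ε₂ β)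
include t

theorem flip : TF T.flip h ε₂ f ε₁ β :=
  ⟨t.hT.flip, t.hh, t.hf, fun x y x' y' => (t.tens y x y' x').trans (mul_comm _ _)⟩

/-- Contraction with `f x`. -/
noncomputable def c (x : U) : V →ₗ[F] W := t.hT.cL (f x)

@[simp] theorem c_apply (x y : U) (w : W) : t.c x (T y w) = f x y • w := t.hT.cL_apply _ _ _

theorem c_smul (a : F) (x : U) (v : V) : t.c (a • x) v = σ a • t.c x v := by
  rw [c, map_smulₛₗ, t.hT.cL_smul]; rfl

theorem c_add (x y : U) (v : V) : t.c (x + y) v = t.c x v + t.c y v := by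
  rw [c, map_add, t.hT.cL_add]; rfl

theorem c_sub (x y : U) (v : V) : t.c (x - y) v = t.c x v - t.c y v := by
  rw [eq_sub_iff_add_eq, ← c_add, sub_add_cancel]

theorem left (x : U) (y : W) (v : V) : β (T x y) v = h y (t.c x v) :=
  LinearMap.congr_fun (t.hT.ext (a := β (T x y)) (b := h y ∘ₗ t.c x) fun x' y' => by
    simp [t.tens]) v

theorem sym (u v : V) : β u v = ε₁ * ε₂ * σ (β v u) := by
  refine t.hT.ind (P := fun u => β u v = ε₁ * ε₂ * σ (β v u)) (by simp)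
    (fun a b ha hb => by simp [ha, hb, mul_add]) (fun x y => ?_) u
  refine t.hT.ind (P := fun v => β (T x y) v = ε₁ * ε₂ * σ (β v (T x y))) (by simp)
    (fun a b ha hb => by simp [ha, hb, mul_add]) (fun x' y' => ?_) v
  rw [t.tens, t.tens, t.hf.sym x, t.hh.sym y, map_mul]
  ring

theorem right (v : V) (x : U) (y : W) : β v (T x y) = ε₁ * h (t.c x v) y := by
  rw [t.sym, t.left, t.hh.conj]
  linear_combination ε₁ * h (t.c x v) y * t.hh.eps

theorem sep [FiniteDimensional F U] (v : V) (hv : ∀ u, β v u = 0) : v = 0 :=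
  t.hT.eq_zero_of_cL fun ξ => by
    obtain ⟨x, hx⟩ := t.hf.exists_eq_dual ξ
    rw [← show f x = ξ from LinearMap.ext hx]
    exact t.hh.sep _ fun y => by simpa [t.right, t.hf.eps_ne, c] using hv (T x y)

theorem hm [FiniteDimensional F U] : Hm β (ε₁ * ε₂) where
  invol := t.hf.invol
  eps := by linear_combination ε₂ * ε₂ * t.hf.eps + t.hh.eps
  sym := t.sym
  sep := t.sep
  tr := t.hT.ind ⟨0, by simp⟩ (fun u v ⟨a, ha⟩ ⟨b, hb⟩ => ⟨a + b + ε₁ * ε₂ * β u v, by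
      simp only [map_add, LinearMap.add_apply, map_mul, t.hf.σε, t.hh.σε, t.sym v u]
      linear_combination ha + hb + β u v * (ε₂ * ε₂ * t.hf.eps + t.hh.eps)⟩) fun x y => by
    obtain ⟨a, ha⟩ := t.hf.tr x
    refine ⟨a * ε₂ * h y y, ?_⟩
    rw [t.tens, ← ha, map_mul, map_mul, t.hh.conj, t.hh.σε]
    linear_combination (ε₁ * a + σ a) * h y y * t.hh.eps

theorem mem_orth_JL {x : U} {v : V} : v ∈ orth β (JL T x) ↔ t.c x v = 0 :=
  ⟨fun hv => t.hh.sep' _ fun y => by rw [← t.left]; exact hv _ ⟨y, rfl⟩, by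
    rintro hv _ ⟨y, rfl⟩; rw [t.left, hv, map_zero]⟩

theorem mem_Rad_JL {x : U} {q : V ≃ₗ[F] V} : q ∈ Rad β (JL T x) ↔ q ∈ isomGroup β ∧
    (∀ w, q (T x w) = T x w) ∧ ∀ v, t.c x v = 0 → ∃ w, q v = v + T x w := by
  refine and_congr_right fun _ => and_congr ⟨fun h w => h _ ⟨w, rfl⟩, ?_⟩
    (forall_congr' fun v => imp_congr t.mem_orth_JL (exists_congr fun w => ?_))
  · rintro h _ ⟨w, rfl⟩; exact h w
  · rw [eq_sub_iff_add_eq', eq_comm]

theorem c_Rad {x : U} {q : V ≃ₗ[F] V} (hq : q ∈ Rad β (JL T x)) (v : V) :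
    t.c x (q v) = t.c x v := by
  rw [← sub_eq_zero, ← map_sub]; exact t.mem_orth_JL.1 (Rad_sub_mem hq v)

theorem mpE_isom {a : U ≃ₗ[F] U} {b : W ≃ₗ[F] W}
    (e : ∀ x y x' y', f (a x) (a x') * h (b y) (b y') = f x x' * h y y') :
    t.hT.mpE a b ∈ isomGroup β := fun u v => by
  refine t.hT.ind (P := fun u => β (t.hT.mpE a b u) (t.hT.mpE a b v) = β u v) (by simp)
    (fun a b ha hb => by simp [ha, hb]) (fun x y => ?_) u
  refine t.hT.ind (P := fun v => β (t.hT.mpE a b (T x y)) (t.hT.mpE a b v) = β (T x y) v) (by simp)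
    (fun a b ha hb => by simp only [map_add, ha, hb]) (fun x' y' => ?_) v
  simp [t.tens, e]

theorem mpE_isom' {a : U ≃ₗ[F] U} {b : W ≃ₗ[F] W} (ha : a ∈ isomGroup f) (hb : b ∈ isomGroup h) :
    t.hT.mpE a b ∈ isomGroup β := t.mpE_isom fun _ _ _ _ => by rw [iso ha, iso hb]

theorem c_mpE {a : U ≃ₗ[F] U} (ha : a ∈ isomGroup f) (b : W ≃ₗ[F] W) (x : U) (v : V) :
    t.c (a x) (t.hT.mpE a b v) = b (t.c x v) :=
  t.hT.ind (P := fun v => t.c (a x) (t.hT.mpE a b v) = b (t.c x v)) (by simp)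
    (fun a b ha hb => by simp [ha, hb]) (fun x y => by simp [iso ha]) v

variable [FiniteDimensional F U] [FiniteDimensional F W]

omit [FiniteDimensional F U] in
theorem ind_orth {x : U} {P : V → Prop} (h0 : P 0) (hadd : ∀ u v, P u → P v → P (u + v))
    (hT : ∀ u w, f x u = 0 → P (T u w)) {v : V} (hv : t.c x v = 0) : P v := by
  have h1 : v ∈ Submodule.map₂ T (LinearMap.ker (f x)) ⊤ := t.hT.mem_map₂_top_right.2 fun η => by
    rw [LinearMap.mem_ker, ← t.hT.apply_cL, show t.hT.cL (f x) v = 0 from hv, map_zero]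
  rw [Submodule.map₂] at h1
  refine Submodule.iSup_induction (motive := P) _ h1 ?_ h0 hadd
  rintro u _ ⟨w, -, rfl⟩
  exact hT _ w u.2

omit [FiniteDimensional F U] in
theorem mem_JL {x : U} (hx : x ≠ 0) {v : V} (hv : ∀ u, f x u = 0 → t.c u v = 0) :
    ∃ w, v = T x w := by
  have h1 : v ∈ Submodule.map₂ T (Submodule.span F {x}) ⊤ := t.hT.mem_map₂_top_right.2 fun η => by
    obtain ⟨a, ha⟩ := t.hf.mem_span_of_orth hx (y := t.hT.cR η v) fun u hu => by
      rw [← t.hT.apply_cL, show t.hT.cL (f u) v = 0 from hv u hu, map_zero]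
    exact Submodule.mem_span_singleton.2 ⟨a, ha.symm⟩
  obtain ⟨w, -, hw⟩ := t.hT.mem_map₂_span_left.1 h1
  exact ⟨w, hw.symm⟩

omit [FiniteDimensional F U] in
theorem mpE_mem_Rad {x : U} {a : U ≃ₗ[F] U} (ha : a ∈ Rad f (Submodule.span F {x})) :
    t.hT.mpE a 1 ∈ Rad β (JL T x) := by
  obtain ⟨h1, h2, h3⟩ := mem_Rad_span.1 ha
  refine t.mem_Rad_JL.2 ⟨t.mpE_isom' h1 (one_mem _), fun w => by simp [h2], fun v hv => ?_⟩
  refine t.ind_orth (P := fun v => ∃ w, t.hT.mpE a 1 v = v + T x w) ⟨0, by simp⟩ ?_ ?_ hv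
  · rintro u v ⟨w, hw⟩ ⟨w', hw'⟩
    exact ⟨w + w', by rw [map_add, hw, hw', map_add]; abel⟩
  · intro u w hu
    obtain ⟨c, hc⟩ := h3 u hu
    exact ⟨c • w, by simp [hc]⟩

omit [FiniteDimensional F U] [FiniteDimensional F W] in
/-- Elements of the centre of the radical. -/
theorem exists_gam {x x' : U} (hx : f x x = 0) (hxx : f x x' = 1) {k : V ≃ₗ[F] V}
    (hk : k ∈ Rad β (JL T x)) (e : ∀ w, ∃ w', k (T x' w) = T x' w + T x w') :
    ∃ γ : End F W, ∀ v, k v = v + T x (γ (t.c x v)) := by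
  obtain ⟨h1, h2, h3⟩ := t.mem_Rad_JL.1 hk
  have h4 : ∀ v, t.c x v = 0 → k v = v := fun v hv => by
    obtain ⟨w, hw⟩ := h3 v hv
    have : w = 0 := t.hh.sep _ fun y => by
      obtain ⟨w', hw'⟩ := e y
      have := iso h1 v (T x' y)
      simpa [hw, hw', t.tens, t.right v x, hv, hx, hxx] using this
    rw [hw, this, map_zero, add_zero]
  refine ⟨ε₁ • t.c x' ∘ₗ ((k : End F V) - 1) ∘ₗ T x', fun v => ?_⟩
  obtain ⟨w', hw'⟩ := e (t.c x v)
  have h5 := h4 (v - T x' (t.c x v)) (by simp [hxx])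
  rw [map_sub, hw'] at h5
  simp only [LinearMap.smul_apply, LinearMap.comp_apply, LinearMap.sub_apply, LinearEquiv.coe_coe,
    End.one_apply, hw', add_sub_cancel_left, c_apply, t.hf.swap_one hxx, smul_smul, t.hf.eps,
    one_smul]
  linear_combination (norm := module) h5

end TF

/-- An overgroup of the stabiliser of the tensor decomposition in a classical group. -/
structure Ctx (T : U →ₗ[F] W →ₗ[F] V) (f : U →ₛₗ[σ] U →ₗ[F] F) (ε₁ : F) (h : W →ₛₗ[σ] W →ₗ[F] F)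
    (ε₂ : F) (β : V →ₛₗ[σ] V →ₗ[F] F) (X : Subgroup (V ≃ₗ[F] V)) : Prop
    extends TF T f ε₁ h ε₂ β where
  le : X ≤ isomGroup β
  memL : ∀ x, f x x = 0 → ∀ g ∈ X, ∀ m ∈ tensG T, m ∈ isomGroup β → m⁻¹ * g ∈ Rad β (JL T x) →
    m ∈ X
  memR : ∀ p, h p p = 0 → ∀ g ∈ X, ∀ m ∈ tensG T, m ∈ isomGroup β →
    m⁻¹ * g ∈ Rad β (JL T.flip p) → m ∈ X

namespace Ctx

variable {X : Subgroup (V ≃ₗ[F] V)} (c : Ctx T f ε₁ h ε₂ β X)
include c

theorem flip : Ctx T.flip h ε₂ f ε₁ β X :=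
  ⟨c.toTF.flip, c.le, by rw [tensG_flip]; exact c.memR, by rw [tensG_flip]; exact c.memL⟩

variable [FiniteDimensional F U] [FiniteDimensional F W]

omit [FiniteDimensional F U] in
theorem radL_mem {x : U} (hx : f x x = 0) {a : U ≃ₗ[F] U} (ha : a ∈ Rad f (Submodule.span F {x})) :
    c.hT.mpE a 1 ∈ X :=
  c.memL x hx 1 (one_mem _) _ (c.hT.mpE_mem _ _) (c.mpE_mem_Rad ha).1
    (by rw [mul_one]; exact inv_mem (c.mpE_mem_Rad ha))

omit [FiniteDimensional F W] in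
theorem radR_mem {p : W} (hp : h p p = 0) {b : W ≃ₗ[F] W} (hb : b ∈ Rad h (Submodule.span F {p})) :
    c.hT.mpE 1 b ∈ X := by
  rw [← c.hT.mpE_flip]; exact c.flip.radL_mem hp hb

/-- The stabiliser of `x ⊗ W` preserves the decomposition as soon as the radical does. -/
theorem mem_tensG_of_stab [Nontrivial W] {x : U} (hx0 : x ≠ 0) (hx : f x x = 0)
    (loc : ∀ q ∈ X, q ∈ Rad β (JL T x) → q ∈ tensG T)
    (sim : (∃ u u', f x u = 0 ∧ f x u' = 0 ∧ f u u' ≠ 0) ∨ ∃ s, s ≠ 0 ∧ ε₁ * s + σ s = 0)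
    {g : V ≃ₗ[F] V} (hg : g ∈ X) (hJ : ∀ w, g (T x w) ∈ JL T x) : g ∈ tensG T := by
  have := c.hT.finiteDimensional
  obtain ⟨x', hx', hxx⟩ := c.hf.exists_partner hx0 hx
  have hxx' := c.hf.swap_one hxx
  have e1 := c.hf.eps
  have hgi := c.le hg
  set b : End F W := ε₁ • c.c x' ∘ₗ (g : End F V) ∘ₗ T x
  have hb : ∀ w, g (T x w) = T x (b w) := fun w => by
    obtain ⟨w', hw'⟩ := hJ w
    simp [b, ← hw', hxx', smul_smul, e1]
  set b₁ : End F W := c.c x ∘ₗ (g : End F V) ∘ₗ T x'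
  have h1 : ∀ w w', h (b w) (b₁ w') = h w w' := fun w w' => by
    have := iso hgi (T x w) (T x' w')
    rwa [hb, c.left, c.tens, hxx, one_mul] at this
  let bE := LinearEquiv.ofInjectiveEndo b ((injective_iff_map_eq_zero _).2 fun w hw =>
    c.hh.sep _ fun w' => by rw [← h1, hw]; simp)
  let b' := LinearEquiv.ofInjectiveEndo b₁ ((injective_iff_map_eq_zero _).2 fun w hw =>
    c.hh.sep' _ fun w' => by rw [← h1, hw]; simp)
  have hb' : ∀ w, c.c x (g (T x' w)) = b' w := fun _ => rfl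
  have hJ' : ∀ v ∈ JL T x, g⁻¹ v ∈ JL T x := by
    rintro _ ⟨w, rfl⟩
    obtain ⟨w, rfl⟩ := bE.surjective w
    exact ⟨w, g.injective (by simp [hb]; rfl)⟩
  have h2 : ∀ v, c.c x v = 0 → c.c x (g v) = 0 := fun v hv => c.hh.sep' _ fun w => by
    obtain ⟨w, rfl⟩ := bE.surjective w
    rw [← c.left, show T x (bE w) = g (T x w) from (hb w).symm, iso hgi, c.left, hv, map_zero]
  have key : ∀ a ∈ Rad f (Submodule.span F {x}), ∃ u, ∀ w, g (T (a x' - x') w) = T u (b' w) +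
      ((g * c.hT.mpE a 1 * g⁻¹) (g (T x' w) - T x' (b' w)) - (g (T x' w) - T x' (b' w))) := by
    intro a ha
    have h3 := conj_mem_Rad (c.mpE_mem_Rad ha) hgi (by rintro _ ⟨w, rfl⟩; exact hJ w) hJ'
    obtain ⟨a', ha'⟩ := c.hT.exists_of_fix (loc _ (mul_mem (mul_mem hg (c.radL_mem hx ha))
      (inv_mem hg)) h3) hx0 (c.mem_Rad_JL.1 h3).2.1
    refine ⟨a' x' - x', fun w => ?_⟩
    rw [map_sub (g * _ * g⁻¹), ha']
    simp only [map_sub, LinearMap.sub_apply, LinearEquiv.mul_apply, LinearEquiv.coe_inv,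
      LinearEquiv.symm_apply_apply, IsTens.mpE_apply, LinearEquiv.coe_one, id]
    abel
  have h3 : ∀ u, f x u = 0 → ∃ u', ∀ w, ∃ w', g (T u w) = T u' (b' w) + T x w' := fun u hu => by
    obtain ⟨a, ha, s, -, e⟩ := c.hf.exists_eich hx hu
    obtain ⟨u', hu'⟩ := key a ha
    refine ⟨u', fun w => ?_⟩
    obtain ⟨w', hw'⟩ := (c.mem_Rad_JL.1 (conj_mem_Rad (c.mpE_mem_Rad ha) hgi
      (by rintro _ ⟨w, rfl⟩; exact hJ w) hJ')).2.2 (g (T x' w) - T x' (b' w)) (by simp [hb', hxx])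
    refine ⟨w' + (ε₁ * f u x' + s) • b w, ?_⟩
    have := hu' w
    simp only [hw', e, hxx, map_add, map_sub, map_smul, LinearMap.add_apply, LinearMap.sub_apply,
      LinearMap.smul_apply, hb, one_smul] at this ⊢
    linear_combination (norm := module) this
  obtain ⟨w₀, w₁, hw⟩ := c.hh.exists_ne_pair
  obtain ⟨η, hη⟩ := Module.Projective.exists_dual_eq_one F
    (x := b' w₀) (fun h0 => by simp [b'.map_eq_zero_iff.1 h0] at hw)
  set π : End F U := 1 - (f x).smulRight x' - (ε₁ • f x').smulRight x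
  have hπ : ∀ y, π y = y - f x y • x' - (ε₁ * f x' y) • x := fun _ => rfl
  have hπ1 : ∀ y, f x (π y) = 0 := fun y => by simp [hπ, hx, hxx]
  have hπ2 : ∀ y, f x' (π y) = 0 := fun y => by
    simp only [hπ, map_sub, map_smul, hx', hxx', smul_eq_mul]; linear_combination -f x' y * e1
  have hπx : π x = 0 := by simp [hπ, hx, hxx', e1]
  set a₁ : End F U := π ∘ₗ c.hT.cR η ∘ₗ (g : End F V) ∘ₗ T.flip w₀ ∘ₗ π
  have ha₁ : ∀ y, a₁ y = π (c.hT.cR η (g (T (π y) w₀))) := fun _ => rfl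
  have h4 : ∀ y w, ∃ w', g (T (π y) w) = T (a₁ y) (b' w) + T x w' := fun y w => by
    obtain ⟨u', hu'⟩ := h3 _ (hπ1 y)
    obtain ⟨w₂, hw₂⟩ := hu' w₀
    obtain ⟨w₃, hw₃⟩ := hu' w
    have h5 : f x u' = 0 := by
      have := congrArg η (h2 (T (π y) w₀) (by simp [hπ1]))
      simpa [hw₂, hx, hη] using this
    refine ⟨w₃ + (ε₁ * f x' u') • b' w, ?_⟩
    rw [ha₁, hw₂, hw₃]
    simp only [map_add, IsTens.cR_apply, hη, one_smul, map_smul, hπx, smul_zero, add_zero]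
    simp only [hπ, h5, map_sub, LinearMap.sub_apply, LinearMap.smul_apply, map_smul]
    module
  have h5 : ∀ y y' w w', f (a₁ y) (a₁ y') * h (b' w) (b' w') = f (π y) (π y') * h w w' := by
    intro y y' w w'
    obtain ⟨v, hv⟩ := h4 y w
    obtain ⟨v', hv'⟩ := h4 y' w'
    have := iso hgi (T (π y) w) (T (π y') w')
    simpa [hv, hv', c.tens, hx, ha₁, hπ1, c.hf.comm (hπ1 _)] using this
  obtain ⟨μ, hμ0, hμ⟩ : ∃ μ : F, μ ≠ 0 ∧ ∀ w w', μ * h (b' w) (b' w') = h w w' := by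
    rcases sim with ⟨u, u', hu, hu', huu⟩ | ⟨s, hs0, hs⟩
    · have h6 : f (π u) (π u') = f u u' := by simp [hπ, hu, hu', hx, c.hf.comm hu]
      have h7 := h5 u u' w₀ w₁
      rw [h6, hw, mul_one] at h7
      refine ⟨f (a₁ u) (a₁ u') / f u u', div_ne_zero (left_ne_zero_of_mul (h7 ▸ huu)) huu,
        fun w w' => ?_⟩
      rw [div_mul_eq_mul_div, h5, h6, mul_div_cancel_left₀ _ huu]
    · obtain ⟨a, ha, e⟩ := c.hf.exists_tv hx hs
      obtain ⟨u', hu'⟩ := key a ha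
      have h6 : ∀ w, s • T x (b w) = T u' (b' w) := fun w => by
        have h7 : c.c x (g⁻¹ (g (T x' w) - T x' (b' w))) = 0 := c.hh.sep' _ fun y => by
          rw [← c.left, ← iso hgi, hb, c.left]; simp [hb', hxx]
        have h8 : ∀ v, c.c x v = 0 → c.hT.mpE a 1 v = v := fun v hv =>
          c.ind_orth (P := fun v => c.hT.mpE a 1 v = v) (by simp)
            (fun u v hu hv => by rw [map_add, hu, hv]) (fun u w hu => by simp [e, hu]) hv
        have := hu' w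
        rw [LinearEquiv.mul_apply, LinearEquiv.mul_apply, h8 _ h7] at this
        simpa [e, hxx, hb] using this
      have h7 : ∀ w, b w = (s⁻¹ * (ε₁ * f x' u')) • b' w := fun w => by
        have := congrArg (c.c x') (h6 w)
        rw [map_smul, c.c_apply, c.c_apply, hxx'] at this
        rw [mul_smul, mul_smul, ← this, smul_comm ε₁, smul_smul ε₁, e1, one_smul,
          inv_smul_smul₀ hs0]
      have h8 : ∀ w w', σ (s⁻¹ * (ε₁ * f x' u')) * h (b' w) (b' w') = h w w' := fun w w' => by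
        rw [← h1 w w', h7, map_smulₛₗ]; rfl
      exact ⟨_, left_ne_zero_of_mul (by rw [h8 w₀ w₁, hw]; exact one_ne_zero), h8⟩
  have hσ : σ μ = μ := by
    have h6 := congrArg σ (hμ w₀ w₁)
    have h7 := hμ w₁ w₀
    rw [map_mul, c.hh.conj, hw, map_one] at h6
    rw [c.hh.swap_one hw] at h7
    linear_combination μ * h6 - σ μ * ε₂ * h7 - σ μ * c.hh.eps
  have h6 : ∀ w, b w = μ • b' w := fun w => c.hh.ext_left fun w' => by
    obtain ⟨w', rfl⟩ := b'.surjective w'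
    rw [map_smulₛₗ h μ, hσ, LinearMap.smul_apply μ, smul_eq_mul, hμ, ← h1 w w']; rfl
  set a₀ : End F U := a₁ + (μ • ε₁ • f x').smulRight x + (f x).smulRight x'
  have ha₀ : ∀ y, a₀ y = a₁ y + (μ * (ε₁ * f x' y)) • x + f x y • x' := fun _ => rfl
  have h7 : ∀ y y', f (a₀ y) (a₀ y') = μ * f y y' := fun y y' => by
    have h8 := h5 y y' w₀ w₁
    have h9 := hμ w₀ w₁
    rw [hw] at h8 h9
    simp only [hπ, map_sub, map_smulₛₗ, LinearMap.sub_apply, LinearMap.smul_apply, hx, hx', hxx,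
      hxx', map_mul, c.hf.σε, c.hf.conj, smul_eq_mul, RingHom.id_apply] at h8
    simp only [ha₀, map_add, map_smulₛₗ, LinearMap.add_apply, LinearMap.smul_apply, hx, hx', hxx,
      hxx', map_mul, c.hf.σε, c.hf.conj, smul_eq_mul, RingHom.id_apply, hσ, ha₁, hπ1, hπ2,
      c.hf.comm (hπ1 _), c.hf.comm (hπ2 _)]
    simp only [← ha₁]
    linear_combination μ * h8 - f (a₁ y) (a₁ y') * h9 +
      μ * (2 * ε₁ * f y x * f x' y' + f y x' * f x y') * e1
  let a := LinearEquiv.ofInjectiveEndo a₀ ((injective_iff_map_eq_zero _).2 fun y hy =>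
    c.hf.sep _ fun y' => by simpa [hy, hμ0] using h7 y y')
  have ha : ∀ y, a y = a₀ y := fun _ => rfl
  have hm : c.hT.mpE a b' ∈ isomGroup β := c.mpE_isom fun y w y' w' => by
    rw [ha, ha, h7, ← hμ w w']; ring
  have h8 : ∀ w, c.hT.mpE a b' (T x w) = g (T x w) := fun w => by
    simp [ha, ha₀, ha₁, hπx, hb, h6, hx, hxx', e1]
  have h9 : (c.hT.mpE a b')⁻¹ * g ∈ Rad β (JL T x) := by
    refine c.mem_Rad_JL.2 ⟨mul_mem (inv_mem hm) hgi, fun w => by
      rw [LinearEquiv.mul_apply, ← h8]; exact (c.hT.mpE a b').symm_apply_apply _, fun v hv => ?_⟩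
    refine c.ind_orth (P := fun v => ∃ w, ((c.hT.mpE a b')⁻¹ * g) v = v + T x w) ⟨0, by simp⟩
      ?_ ?_ hv
    · rintro u v ⟨w, hw⟩ ⟨w', hw'⟩
      exact ⟨w + w', by rw [map_add, hw, hw', map_add]; abel⟩
    · intro u w hu
      obtain ⟨w', hw'⟩ := h4 u w
      obtain ⟨w', rfl⟩ := bE.surjective w'
      refine ⟨w', (c.hT.mpE a b').injective ?_⟩
      simp only [hπ, hu, map_sub, map_smul, LinearMap.sub_apply, LinearMap.smul_apply, hb,
        show bE w' = b w' from rfl, h6] at hw'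
      simp only [LinearEquiv.mul_apply, LinearEquiv.coe_inv, LinearEquiv.apply_symm_apply, map_add,
        h8, hb, h6]
      simp only [IsTens.mpE_apply, ha, ha₀, hu, LinearMap.add_apply, map_smul, LinearMap.smul_apply,
        map_add]
      linear_combination (norm := module) hw'
  have h10 := c.memL x hx g hg _ (c.hT.mpE_mem a b') hm h9
  simpa using mul_mem (c.hT.mpE_mem a b') (loc _ (mul_mem (inv_mem h10) hg) h9)

/-- `1 + x x^* ⊗ γ` lies in `X`. -/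
def Gam (x : U) (γ : End F W) : Prop := ∃ k ∈ X, ∀ v, k v = v + T x (γ (c.c x v))

/-- The components of the elements of `X` in the radical of `x ⊗ W`. -/
def Eel (x x' u : U) (e : End F W) : Prop :=
  ∃ q ∈ X, q ∈ Rad β (JL T x) ∧ ∀ w, c.c u (q (T x' w)) = e w

/-- The radical preserves the decomposition if both of its layers do. -/
theorem loc_of [Nontrivial W] {x x' : U} (hx : f x x = 0) (hxx : f x x' = 1)
    (hΓ : ∀ γ, c.Gam x γ → ∃ s : F, γ = s • 1)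
    (hE : ∀ u e, f x u = 0 → f x' u = 0 → c.Eel x x' u e → ∃ s : F, e = s • 1)
    (q : V ≃ₗ[F] V) (hq : q ∈ X) (hR : q ∈ Rad β (JL T x)) : q ∈ tensG T := by
  have hx0 : x ≠ 0 := fun h0 => by simp [h0] at hxx
  have : Nontrivial U := ⟨x, 0, hx0⟩
  obtain ⟨w₀, hw₀⟩ := exists_ne (0 : W)
  obtain ⟨η, hη⟩ := Module.Projective.exists_dual_eq_one F hw₀
  set y := c.hT.cR η (q (T x' w₀))
  have h0 : ∀ u, f u y = η (c.c u (q (T x' w₀))) := fun u => (c.hT.apply_cL _ _ _).symm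
  have h1 : ∀ u, f x u = 0 → ∀ w, c.c u (q (T x' w)) = f u y • w := fun u hu w => by
    obtain ⟨s, hs⟩ := hE (u - (ε₁ * f x' u) • x) (c.c _ ∘ₗ (q : End F V) ∘ₗ T x') (by simp [hu, hx])
      (by simp [c.hf.swap_one hxx, mul_comm, ← mul_assoc, c.hf.eps]) ⟨q, hq, hR, fun _ => rfl⟩
    have h2 : ∀ w, c.c u (q (T x' w)) = (s + σ (ε₁ * f x' u)) • w := fun w => by
      have := LinearMap.congr_fun hs w
      simp only [LinearMap.comp_apply, LinearEquiv.coe_coe, c.c_sub, c.c_smul, c.c_Rad hR,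
        TF.c_apply, hxx, one_smul, LinearMap.smul_apply, End.one_apply] at this
      linear_combination (norm := module) this
    rw [h0, h2, h2, map_smul, hη, smul_eq_mul, mul_one]
  have h2 : f x (y - x') = 0 := by simp [h0, c.c_Rad hR, hxx, hη]
  obtain ⟨a, ha, s, -, e⟩ := c.hf.exists_eich hx h2
  have h3 := mul_mem (inv_mem (c.mpE_mem_Rad ha)) hR
  obtain ⟨γ, hγ⟩ := c.exists_gam hx hxx h3 fun w => by
    obtain ⟨w', hw'⟩ := c.mem_JL hx0 (v := q (T x' w) - T y w) fun u hu => by simp [h1 u hu]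
    refine ⟨w' + (ε₁ * f (y - x') x' + s) • w, (c.hT.mpE a 1).injective ?_⟩
    simp only [LinearEquiv.mul_apply, LinearEquiv.coe_inv, LinearEquiv.apply_symm_apply, map_add,
      IsTens.mpE_apply, (mem_Rad_span.1 ha).2.1, e x', hxx, LinearEquiv.coe_one, id, map_sub T,
      LinearMap.add_apply, LinearMap.sub_apply, map_smul, LinearMap.smul_apply]
    linear_combination (norm := module) hw'
  obtain ⟨d, rfl⟩ := hΓ γ ⟨_, mul_mem (inv_mem (c.radL_mem hx ha)) hq, hγ⟩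
  have h4 : (c.hT.mpE a 1)⁻¹ * q ∈ tensG T :=
    c.hT.mem_tensG_of_eq (a := 1 + d • (f x).smulRight x) (b := 1) fun y w => by
      simp [hγ, smul_smul, mul_comm]
  simpa using mul_mem (c.hT.mpE_mem a 1) h4

omit [FiniteDimensional F U] [FiniteDimensional F W]

theorem Gam.zero (x : U) : c.Gam x 0 := ⟨1, one_mem _, by simp⟩

variable {c}

theorem Gam.add {x : U} (hx : f x x = 0) {γ δ : End F W} (h1 : c.Gam x γ) (h2 : c.Gam x δ) :
    c.Gam x (γ + δ) := by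
  obtain ⟨k, hk, e⟩ := h1
  obtain ⟨k', hk', e'⟩ := h2
  exact ⟨k * k', mul_mem hk hk', fun v => by simp [e, e', hx]; abel⟩

theorem Gam.neg {x : U} (hx : f x x = 0) {γ : End F W} (h1 : c.Gam x γ) : c.Gam x (-γ) := by
  obtain ⟨k, hk, e⟩ := h1
  exact ⟨k⁻¹, inv_mem hk, fun v => k.injective (by simp [e (_ + _), hx])⟩

theorem Gam.sub {x : U} (hx : f x x = 0) {γ δ : End F W} (h1 : c.Gam x γ) (h2 : c.Gam x δ) :
    c.Gam x (γ - δ) := by
  rw [sub_eq_add_neg]; exact h1.add hx (h2.neg hx)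

theorem Gam.adj {x x' : U} (hx : f x x = 0) (hxx : f x x' = 1) {γ : End F W} (h1 : c.Gam x γ)
    (w w' : W) : h (γ w) w' = -(ε₁ * h w (γ w')) := by
  obtain ⟨k, hk, e⟩ := h1
  have := iso (c.le hk) (T x' w) (T x' w')
  simp only [e, TF.c_apply, hxx, one_smul, map_add, LinearMap.add_apply, c.tens, hx,
    c.hf.swap_one hxx] at this
  linear_combination this

theorem Gam.map {x : U} {γ : End F W} (h1 : c.Gam x γ) {a : U ≃ₗ[F] U} {b : W ≃ₗ[F] W}
    (ha : a ∈ isomGroup f) (hab : c.hT.mpE a b ∈ X) : c.Gam (a x) (b.conj γ) := by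
  obtain ⟨k, hk, e⟩ := h1
  refine ⟨_, mul_mem (mul_mem hab hk) (inv_mem hab), fun v => ?_⟩
  obtain ⟨v, rfl⟩ := (c.hT.mpE a b).surjective v
  simp [e, c.c_mpE ha]

theorem Gam.conj {x : U} {γ : End F W} (h1 : c.Gam x γ) {b : W ≃ₗ[F] W}
    (hb : c.hT.mpE 1 b ∈ X) : c.Gam x (b.conj γ) := h1.map (a := 1) (one_mem _) hb

theorem Gam.mapL {x : U} {γ : End F W} (h1 : c.Gam x γ) {a : U ≃ₗ[F] U}
    (ha : a ∈ isomGroup f) (hab : c.hT.mpE a 1 ∈ X) : c.Gam (a x) γ := h1.map ha hab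

theorem Gam.smul_iff {x : U} {γ : End F W} {a : F} :
    c.Gam (a • x) γ ↔ c.Gam x ((a * σ a) • γ) := by
  simp [Gam, c.c_smul, smul_smul, mul_comm]

theorem Gam.mem_Rad {x : U} (hx : f x x = 0) {γ : End F W} {k : V ≃ₗ[F] V} (hk : k ∈ X)
    (e : ∀ v, k v = v + T x (γ (c.c x v))) : k ∈ Rad β (JL T x) :=
  c.mem_Rad_JL.2 ⟨c.le hk, fun w => by simp [e, hx], fun v _ => ⟨_, e v⟩⟩

/-- The commutator of two elements of the radical. -/
theorem exists_comm {x x' : U} (hx : f x x = 0) (hxx : f x x' = 1) {q q' : V ≃ₗ[F] V}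
    (hq : q ∈ X) (hq' : q' ∈ X) (hR : q ∈ Rad β (JL T x)) (hR' : q' ∈ Rad β (JL T x)) :
    ∃ δ, c.Gam x δ ∧ ∀ w w', ε₁ * h w (δ w') =
      β (q' (T x' w) - T x' w) (q (T x' w') - T x' w') -
      β (q (T x' w) - T x' w) (q' (T x' w') - T x' w') := by
  have key : ∀ {q : V ≃ₗ[F] V}, q ∈ Rad β (JL T x) → ∀ z, c.c x z = 0 → ∃ j, q z = z + T x j ∧
      ∀ w, ε₁ * h w j = -β (q (T x' w) - T x' w) z := fun {q} hR z hz => by
    obtain ⟨j, hj⟩ := (c.mem_Rad_JL.1 hR).2.2 z hz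
    refine ⟨j, hj, fun w => ?_⟩
    have := iso hR.1 (T x' w) z
    rw [hj, map_add, c.right _ x, c.c_Rad hR, c.c_apply, hxx, one_smul] at this
    simp only [map_sub, LinearMap.sub_apply]
    linear_combination this
  have h0 : ∀ {q : V ≃ₗ[F] V}, q ∈ Rad β (JL T x) → ∀ v, c.c x (q v - v) = 0 :=
    fun hR v => by rw [map_sub, c.c_Rad hR, sub_self]
  have hk := mul_mem (mul_mem hR hR') (inv_mem (mul_mem hR' hR))
  have h1 : ∀ w', ∃ j, (q * q' * (q' * q)⁻¹) (T x' w') = T x' w' + T x j ∧ ∀ w, ε₁ * h w j =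
      β (q' (T x' w) - T x' w) (q (T x' w') - T x' w') -
      β (q (T x' w) - T x' w) (q' (T x' w') - T x' w') := fun w' => by
    obtain ⟨j, hj, e⟩ := key hR _ (h0 hR' (T x' w'))
    obtain ⟨j', hj', e'⟩ := key hR' _ (h0 hR (T x' w'))
    obtain ⟨i, hi, -⟩ := key hR _ (h0 (inv_mem (mul_mem hR' hR)) (T x' w'))
    obtain ⟨i', hi', -⟩ := key hR' _ (h0 (inv_mem (mul_mem hR' hR)) (T x' w'))
    refine ⟨j - j', ?_, fun w => by rw [map_sub]; linear_combination e w - e' w⟩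
    have h2 : q' (q ((q' * q)⁻¹ (T x' w'))) = T x' w' := (q' * q).apply_symm_apply _
    have h3 := congrArg q hi'
    have h4 := congrArg q' hi
    simp only [map_add, map_sub, (c.mem_Rad_JL.1 hR).2.1, (c.mem_Rad_JL.1 hR').2.1] at *
    rw [LinearEquiv.mul_apply, LinearEquiv.mul_apply]
    linear_combination (norm := module) h3 - h4 + hi - hi' + h2 + hj - hj'
  obtain ⟨δ, hδ⟩ := c.exists_gam hx hxx hk fun w => (h1 w).imp fun _ h => h.1
  refine ⟨δ, ⟨_, mul_mem (mul_mem hq hq') (inv_mem (mul_mem hq' hq)), hδ⟩, fun w w' => ?_⟩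
  obtain ⟨j, hj, e⟩ := h1 w'
  rw [hδ, c.c_apply, hxx, one_smul, add_right_inj] at hj
  rw [c.hT.injective (fun h0 => by simp [h0] at hxx) hj, e]

theorem Eel.add {x x' u : U} (hu : f x u = 0) (hu' : f x' u = 0) {e e' : End F W}
    (h1 : c.Eel x x' u e) (h2 : c.Eel x x' u e') : c.Eel x x' u (e + e') := by
  obtain ⟨q, hq, hR, h1⟩ := h1
  obtain ⟨q', hq', hR', h2⟩ := h2
  refine ⟨q * q', mul_mem hq hq', mul_mem hR hR', fun w => ?_⟩
  obtain ⟨j, hj⟩ := (c.mem_Rad_JL.1 hR).2.2 (q' (T x' w) - T x' w) (by simp [c.c_Rad hR'])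
  have := congrArg (c.c u) hj
  simp only [map_add, map_sub, h1, h2, TF.c_apply, c.hf.comm hu, c.hf.comm hu'] at this
  rw [LinearEquiv.mul_apply, LinearMap.add_apply]
  linear_combination (norm := module) this

theorem Eel.neg {x x' u : U} (hu : f x u = 0) (hu' : f x' u = 0) {e : End F W}
    (h1 : c.Eel x x' u e) : c.Eel x x' u (-e) := by
  obtain ⟨q, hq, hR, h1⟩ := h1
  refine ⟨q⁻¹, inv_mem hq, inv_mem hR, fun w => ?_⟩
  obtain ⟨j, hj⟩ := (c.mem_Rad_JL.1 hR).2.2 (q⁻¹ (T x' w) - T x' w) 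
    (by rw [map_sub, c.c_Rad (inv_mem hR), sub_self])
  have := congrArg (c.c u) hj
  simp only [map_add, map_sub, h1, TF.c_apply, c.hf.comm hu, c.hf.comm hu', LinearEquiv.coe_inv,
    LinearEquiv.apply_symm_apply] at this
  rw [LinearMap.neg_apply, LinearEquiv.coe_inv]
  linear_combination (norm := module) -this

theorem Eel.sub {x x' u : U} (hu : f x u = 0) (hu' : f x' u = 0) {e e' : End F W}
    (h1 : c.Eel x x' u e) (h2 : c.Eel x x' u e') : c.Eel x x' u (e - e') := by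
  rw [sub_eq_add_neg]; exact h1.add hu hu' (h2.neg hu hu')

theorem conj_mem_Rad' {x : U} {q : V ≃ₗ[F] V} (hR : q ∈ Rad β (JL T x)) {a : U ≃ₗ[F] U}
    {b : W ≃ₗ[F] W} (ha : a x = x) (hab : c.hT.mpE a b ∈ X) :
    c.hT.mpE a b * q * (c.hT.mpE a b)⁻¹ ∈ Rad β (JL T x) :=
  conj_mem_Rad hR (c.le hab) (by rintro _ ⟨w, rfl⟩; exact ⟨b w, by simp [ha]⟩) (by
    rintro _ ⟨w, rfl⟩
    exact ⟨b.symm w, (c.hT.mpE a b).injective (by simp [ha])⟩)

theorem Eel.conj {x x' u : U} {e : End F W} (h1 : c.Eel x x' u e) {b : W ≃ₗ[F] W}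
    (hb : c.hT.mpE 1 b ∈ X) : c.Eel x x' u (b.conj e) := by
  obtain ⟨q, hq, hR, h1⟩ := h1
  refine ⟨_, mul_mem (mul_mem hb hq) (inv_mem hb), conj_mem_Rad' (c := c) hR rfl hb, fun w => ?_⟩
  have := c.c_mpE (a := 1) (one_mem _) b u (q (T x' (b.symm w)))
  rw [h1] at this
  have h2 : (c.hT.mpE 1 b).symm (T x' w) = T x' (b.symm w) := (c.hT.mpE 1 b).injective (by simp)
  simpa [h2] using this

theorem Eel.smul {x x' u : U} {e : End F W} (h1 : c.Eel x x' u e) (a : F) :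
    c.Eel x x' (a • u) (σ a • e) := by
  obtain ⟨q, hq, hR, h1⟩ := h1
  exact ⟨q, hq, hR, fun w => by simp [c.c_smul, h1]⟩

variable [FiniteDimensional F W]

theorem Eel.scalar {x x' u y : U} (hx : f x x = 0) (hxx : f x x' = 1) (hu : f x u = 0)
    (hu' : f x' u = 0) (hy : f x y = 0) : c.Eel x x' u (f u y • 1) := by
  obtain ⟨a, ha, s, -, e⟩ := c.hf.exists_eich hx hy
  exact ⟨_, c.radL_mem hx ha, c.mpE_mem_Rad ha, fun w => by
    simp [e, hxx, c.hf.comm hu, c.hf.comm hu']⟩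

theorem Gam.scalar {x : U} (hx : f x x = 0) {s : F} (hs : ε₁ * s + σ s = 0) :
    c.Gam x (s • 1) := by
  obtain ⟨a, ha, e⟩ := c.hf.exists_tv hx hs
  refine ⟨_, c.radL_mem hx ha, c.hT.ind (by simp) (fun u v hu hv => ?_) fun y w => ?_⟩
  · simp only [map_add, hu, hv]; abel
  · simp [e, smul_smul, mul_comm]

/-- The commutator with an Eichler transformation of the first factor. -/
theorem Eel.exists_gam {x x' u : U} (hx : f x x = 0) (hxx : f x x' = 1) (hu : f x u = 0)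
    (hu' : f x' u = 0) {e : End F W} (h1 : c.Eel x x' u e) :
    ∃ δ, c.Gam x δ ∧ ∀ w w', ε₁ * h w (δ w') = ε₁ * h (e w) w' - h w (e w') := by
  obtain ⟨q, hq, hR, h1⟩ := h1
  obtain ⟨a, ha, s, -, e⟩ := c.hf.exists_eich hx hu
  obtain ⟨δ, h2, h3⟩ := exists_comm hx hxx (c.radL_mem hx ha) hq (c.mpE_mem_Rad ha) hR
  refine ⟨δ, h2, fun w w' => ?_⟩
  have h4 : ∀ w, c.hT.mpE a 1 (T x' w) - T x' w = T u w - (ε₁ * f u x' + s) • T x w := fun w => by
    simp [e, hxx]; abel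
  rw [h3, h4, h4]
  simp [c.left, c.right, c.c_Rad hR, h1, c.hf.comm hu', hxx, hu', c.hf.swap_one hxx]

end Ctx

end Cfsg.Lib.Class.Tn
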