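import Cfsg.Agent.Class.Tens.Bil
import Cfsg.Agent.Class.OMaxSub

/-!
Overgroups of `O ⊗ O` and `Sp ⊗ Sp` in `Ω`: common part and the case `O ⊗ O`.
-/

set_option autoImplicit false

namespace Cfsg.Lib.Class.Tn

open Module Form AO QuadraticMap Orth OMax

variable {F U W V : Type*} [Field F] [AddCommGroup U] [Module F U] [AddCommGroup W] [Module F W]
  [AddCommGroup V] [Module F V] {Q : QuadraticForm F V} {X : Subgroup (V ≃ₗ[F] V)}

/-- The group `Ω` as a group of linear automorphisms. -/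
def Om (Q : QuadraticForm F V) : Subgroup (V ≃ₗ[F] V) := (commutator (O Q)).map (O Q).subtype

theorem mem_Om {g : O Q} : g.1 ∈ Om Q ↔ g ∈ commutator (O Q) :=
  Subgroup.mem_map_iff_mem (O Q).subtype_injective

theorem Om_le : Om Q ≤ O Q := Subgroup.map_subtype_le _

theorem O_le_isom : O Q ≤ isomGroup (polarBilin Q) := fun g hg u v => O_polar ⟨g, hg⟩ u v

theorem rad_mem_commutator [FiniteDimensional F V] (hQ : (polarBilin Q).Nondegenerate)
    (hn : 5 ≤ finrank F V) (n : ℕ) : ∀ S : Submodule F V, finrank F S = n → (∀ s ∈ S, Q s = 0) →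
      ∀ q : O Q, q.1 ∈ Rad (polarBilin Q) S → q ∈ commutator (O Q) := by
  induction n with
  | zero =>
    intro S h0 _ q hq
    obtain rfl := Submodule.finrank_eq_zero.1 h0
    rw [show q = 1 from O_ext fun v => sub_eq_zero.1 (hq.2.2 v fun s hs => by
      simp [(Submodule.mem_bot F).1 hs])]
    exact one_mem _
  | succ n ih =>
    intro S hS h0 q hq
    obtain ⟨p, hp, hp0⟩ := S.exists_mem_ne_zero_of_ne_bot fun h => by
      rw [h, finrank_bot] at hS; omega
    obtain ⟨p', hp', hpp⟩ := Orth.exists_partner hQ hp0 (h0 p hp)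
    have h1 : polar Q p p' = polar Q p (q.1 p') := by rw [← O_polar q p p', hq.2.1 p hp]
    obtain ⟨h2, h3⟩ := eich_apply_eq (h0 p hp) (O_map q p').symm h1 (hpp ▸ one_ne_zero)
    rw [hpp, inv_one, one_smul] at h2 h3
    have h4 : ∀ s ∈ S, polar Q s (p' - q.1 p') = 0 := fun s hs => by
      rw [← neg_sub, polar_neg_right, neg_eq_zero]; exact Rad_sub_mem hq p' s hs
    have h5 : (eich Q p (p' - q.1 p')).1 ∈ Rad (polarBilin Q) S :=
      ⟨O_le_isom (eich Q p _).2,
        fun s hs => eich_apply_of_orth_orth (polar_eq_zero_of_forall h0 hs hp) (h4 s hs),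
        fun v hv => by
          rw [eich_apply_of_orth (h0 p hp) h2 (pc (hv p hp)), add_sub_cancel_left]
          exact S.smul_mem _ hp⟩
    have h6 : ((eich Q p (p' - q.1 p'))⁻¹ * q).1 ∈ Rad (polarBilin Q) S := mul_mem (inv_mem h5) hq
    have h7 : ((eich Q p (p' - q.1 p'))⁻¹ * q).1 p' = p' := O_inv_apply_of_eq h3
    suffices (eich Q p (p' - q.1 p'))⁻¹ * q ∈ commutator (O Q) by
      simpa using mul_mem (eich_mem_Om hQ hn p (p' - q.1 p')) this
    generalize (eich Q p (p' - q.1 p'))⁻¹ * q = k at h6 h7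
    have h8 := finrank_inf_ker_add_one (A := S) (φ := polarBilin Q p') fun h => by
      simpa [pc hpp] using h hp
    refine ih (S ⊓ LinearMap.ker (polarBilin Q p')) (by omega) (fun s hs => h0 s hs.1) k
      ⟨h6.1, fun s hs => h6.2.1 s hs.1, fun v hv => ?_⟩
    have h9 := h6.2.2 (v - polar Q p v • p') fun s hs => by
      have := hv (s - polar Q p' s • p) ⟨S.sub_mem hs (S.smul_mem _ hp), by simp [pc hpp]⟩
      simp only [map_sub, map_smul, LinearMap.sub_apply, LinearMap.smul_apply,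
        polarBilin_apply_apply, smul_eq_mul, polar_comm Q s p'] at this ⊢
      linear_combination this
    rw [map_sub, map_smul, h7, sub_sub_sub_cancel_right] at h9
    refine ⟨h9, ?_⟩
    have := O_polar k p' v
    rw [h7] at this
    simp [this]

variable {T : U →ₗ[F] W →ₗ[F] V} {f : U →ₗ[F] U →ₗ[F] F} {h : W →ₗ[F] W →ₗ[F] F} {ε : F}

theorem Hm.exists_perp_pair [FiniteDimensional F U] (hf : Hm f ε) (hU : 5 ≤ finrank F U)
    (x y : U) : ∃ u u', f x u = 0 ∧ f y u = 0 ∧ f x u' = 0 ∧ f y u' = 0 ∧ f u' u ≠ 0 := by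
  have := Orth.finrank_span_pair_le (F := F) x y
  obtain ⟨u, h1, h2⟩ := Hm.exists_orth_notMem (B := f) [x, y] (Submodule.span F {x, y})
    (by simp only [List.length_cons, List.length_nil]; omega)
  obtain ⟨w, h3, h4⟩ := hf.exists_sep h2
  exact ⟨u, w, h1 x (by simp), h1 y (by simp), hf.comm (h3 x (Submodule.subset_span (by simp))),
    hf.comm (h3 y (Submodule.subset_span (by simp))), h4 ▸ one_ne_zero⟩

section Move

variable {ε' : F} {β : V →ₗ[F] V →ₗ[F] F} [FiniteDimensional F U] [FiniteDimensional F W]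
  (c : Ctx T f ε h ε' β X)

theorem Ctx.exists_move_perp {x y : U} (hx0 : x ≠ 0) (hx : f x x = 0) (hy : f y y = 0)
    (hxy : f x y = 0) (hy' : ∀ a : F, y ≠ a • x) :
    ∃ a ∈ isomGroup f, c.hT.mpE a 1 ∈ X ∧ a x = y := by
  have hy0 : y ≠ 0 := by simpa using hy' 0
  obtain ⟨u, h1, h2⟩ := c.hf.exists_orth_ne hx0 hy'
  obtain ⟨u', h3, h4⟩ := c.hf.exists_orth_ne hy0 (y := x) (by
    rintro a rfl
    have ha : a ≠ 0 := left_ne_zero_of_smul hx0
    exact hy' a⁻¹ (by rw [smul_smul, inv_mul_cancel₀ ha, one_smul]))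
  obtain ⟨s, h5, h6⟩ := c.hf.partner hx (y := u + u') (by simp [h1, h4])
  obtain ⟨a, ha, e⟩ := c.hf.exists_move (y := x) (y' := y) h5
    (by rw [c.hf.swap_one h6]; exact c.hf.eps_ne) (by
      rw [c.hf.swap_one h6, c.hf.swap_one (by simp [h2, h3, c.hf.comm hxy])]) (by rw [hx, hy])
  exact ⟨a, ha.1, c.radL_mem h5 ha, e⟩

theorem Ctx.exists_move_eq [Finite F] (hU : 5 ≤ finrank F U) (hS : SpanOpp f) {x y : U}
    (hx0 : x ≠ 0) (hx : f x x = 0) (hy0 : y ≠ 0) (hy : f y y = 0) :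
    ∃ a ∈ isomGroup f, c.hT.mpE a 1 ∈ X ∧ a x = y := by
  obtain ⟨a, ha, h1, s, hs, e⟩ := c.exists_move hS hx0 hx hy0 hy
  obtain ⟨y', hyy⟩ := c.hf.exists_eq_one hy0
  obtain ⟨w, hw0, hw, h2, h3⟩ := exists_iso_orth f hU y y'
  have h4 := c.hf.ne_smul_of hyy hw0 h3
  obtain ⟨b, hb, h5, e'⟩ := c.exists_move_perp (smul_ne_zero hs hy0) (by simp [hy]) hw
    (by simp [h2]) fun a => by rw [smul_smul]; exact h4 _
  obtain ⟨b', hb', h6, e''⟩ := c.exists_move_perp hy0 hy hw h2 h4
  refine ⟨b'⁻¹ * b * a, mul_mem (mul_mem (inv_mem hb') hb) ha, ?_, b'.injective (by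
    simp [e, e'', ← e'])⟩
  convert mul_mem (mul_mem (inv_mem h6) h5) h1
  rw [c.hT.mpE_inv, ← c.hT.mpE_mul, ← c.hT.mpE_mul]
  simp

end Move

/-- An overgroup in `Ω` of the stabiliser of a tensor decomposition. -/
structure OCtx (Q : QuadraticForm F V) (T : U →ₗ[F] W →ₗ[F] V) (f : U →ₗ[F] U →ₗ[F] F)
    (h : W →ₗ[F] W →ₗ[F] F) (ε : F) (X : Subgroup (V ≃ₗ[F] V)) : Prop
    extends TF T f ε h ε (polarBilin Q) where
  five : 5 ≤ finrank F V
  sing : ∀ x y, f x x = 0 ∨ h y y = 0 → Q (T x y) = 0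
  isoQ : ∀ m ∈ tensG T, m ∈ isomGroup (polarBilin Q) → m ∈ O Q
  le : X ≤ Om Q
  ge : ∀ g ∈ tensG T, g ∈ Om Q → g ∈ X

namespace OCtx

variable (c : OCtx Q T f h ε X)
include c

theorem flip : OCtx Q T.flip h f ε X :=
  ⟨c.toTF.flip, c.five, fun y x H => c.sing x y H.symm, by rw [tensG_flip]; exact c.isoQ, c.le,
    by rw [tensG_flip]; exact c.ge⟩

variable [FiniteDimensional F U] [FiniteDimensional F W]

theorem memL (x : U) (hx : f x x = 0) (g : V ≃ₗ[F] V) (hg : g ∈ X) (m : V ≃ₗ[F] V)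
    (hm : m ∈ tensG T) (hm' : m ∈ isomGroup (polarBilin Q))
    (hR : m⁻¹ * g ∈ Rad (polarBilin Q) (JL T x)) : m ∈ X := by
  have := c.hT.finiteDimensional
  have h1 := mem_Om.2 (rad_mem_commutator c.hm.nondeg c.five _ _ rfl
    (by rintro _ ⟨w, rfl⟩; exact c.sing _ _ (Or.inl hx))
    ⟨_, mul_mem (inv_mem (c.isoQ m hm hm')) (Om_le (c.le hg))⟩ hR)
  exact c.ge m hm (by simpa using mul_mem (c.le hg) (inv_mem h1))

theorem ctx : Ctx T f ε h ε (polarBilin Q) X :=
  ⟨c.toTF, c.le.trans (Om_le.trans O_le_isom), c.memL, fun p hp g hg m hm =>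
    c.flip.memL p hp g hg m (by rwa [tensG_flip])⟩

variable [Finite F]

/-- Generation of `Ω` from long root elements with pure centres. -/
theorem le_of_RS (hU : 5 ≤ finrank F U) (hW : SpanOpp h) (hW' : ∃ p, p ≠ 0 ∧ h p p = 0)
    (H : ∀ x p u, f x x = 0 → x ≠ 0 → h p p = 0 → p ≠ 0 → f x u = 0 →
      T u p ∈ c.hm.RS X (T x p)) : Om Q ≤ X := by
  have := c.hT.finiteDimensional
  have hX := c.ctx.le
  have H1 : ∀ x p u w, f x x = 0 → x ≠ 0 → h p p = 0 → p ≠ 0 → f x u = 0 →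
      T u w ∈ c.hm.RS X (T x p) := fun x p u w hx hx0 hp hp0 hu => by
    obtain ⟨x', hxx⟩ := c.hf.exists_eq_one hx0
    obtain ⟨y, h1, h2, h3, h4⟩ := exists_iso_orth f hU x x'
    exact c.hf.iso_span (K := (c.hm.RS X (T x p)).comap (T.flip w)) hx0 h2 h3
      (c.hf.ne_smul_of hxx h1 h4) (fun y hy hxy => c.step_eich hX hW H hx hx0 hy hxy
        (c.hf.exists_perp_pair hU x y) hp hp0 w) hu
  have H2 : ∀ x p, f x x = 0 → x ≠ 0 → h p p = 0 → p ≠ 0 →
      Full (X.subgroupOf (O Q)) ⊤ (T x p) := fun x p hx hx0 hp hp0 => full_of _ fun hz w _ hw => by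
    have hz' : polarBilin Q (T x p) (T x p) = 0 := by simp [c.tens, hp]
    obtain ⟨k, hk, b, e⟩ := (c.step_full hX H1 hx hx0 hp hp0 (Or.inl fun x' _ =>
      exists_iso_orth f hU x x') w hw hz').2 (-1)
    obtain ⟨y, hy⟩ := c.hm.exists_eq_one (c.hT.ne_zero hx0 hp0)
    simp only [c.hf.eps, polarBilin_apply_apply, neg_smul, one_smul, polar_neg_left, one_mul] at e hy
    have hb : b = Q w := by
      have := mem_O.1 (Om_le (c.le hk)) y
      rw [e, Q_sub, Q_add, Q_smul, Q_smul, QuadraticMap.map_neg, hz] at this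
      simp only [hy, polar_add_left, polar_smul_left', polar_smul_right', polar_neg_left,
        polar_neg_right, pc hy, pc hw, polar_comm Q y w] at this
      linear_combination -this
    rw [Subgroup.mem_subgroupOf, show (eich Q (T x p) w).1 = k from LinearEquiv.ext fun v => by
      rw [eich_apply hz hw, e, hb, polar_comm Q v, polar_comm Q v]; module]
    exact hk
  obtain ⟨x, hx0, hx, -⟩ := exists_iso_orth f hU 0 0
  obtain ⟨p, hp0, hp⟩ := hW'
  obtain ⟨x', hx', hxx⟩ := c.hf.exists_partner hx0 hx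
  obtain ⟨p', hp', hpp⟩ := c.hh.exists_partner hp0 hp
  rintro _ ⟨g, hg, rfl⟩
  exact commutator_le_of_two_full c.hm.nondeg c.five (c.sing x p (Or.inl hx))
    (c.sing x' p' (Or.inl hx')) (by rw [← polarBilin_apply_apply, c.tens]; simp [hxx, hpp])
    (H2 x p hx hx0 hp hp0) (H2 x' p' hx' (fun h0 => by simp [h0] at hxx) hp'
      fun h0 => by simp [h0] at hpp) hg

end OCtx

/-- The local theorem for `O ⊗ O`. -/
theorem OCtx.mem_tensG_of_stab [FiniteDimensional F U] [FiniteDimensional F W] [Finite F]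
    (c : OCtx Q T f h 1 X) (h2 : (2 : F) ≠ 0) (hU : 5 ≤ finrank F U)
    (hW : 4 ≤ finrank F W ∨ 3 ≤ finrank F W ∧ ∃ t : F, t ≠ 0 ∧ t ^ 2 ≠ 1)
    (hW' : 5 ≤ finrank F W ∨
      ∀ p z, p ≠ 0 → h p p = 0 → h z z = 0 → h p z = 0 → ∃ a : F, z = a • p)
    (hX : ¬ Om Q ≤ X) {x : U} (hx0 : x ≠ 0) (hx : f x x = 0) {g : V ≃ₗ[F] V} (hg : g ∈ X)
    (hJ : ∀ w, g (T x w) ∈ JL T x) : g ∈ tensG T := by
  have : Nontrivial W := Module.nontrivial_of_finrank_pos (R := F) (by omega)
  refine c.ctx.loc_orth h2 hU hx0 hx (fun γ h1 => by_contra fun h3 => hX ?_)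
    (c.hh.scalar_of_comm_symm h2 hW) hg hJ
  have hS := c.hf.spanOpp_of_three h2 (by omega)
  have hle := c.ctx.le
  obtain ⟨x', hxx⟩ := c.hf.exists_eq_one hx0
  have key : ∀ p, p ≠ 0 → h p p = 0 → ∃ d, h p d = 0 ∧ h d d ≠ 0 ∧ T x d ∈ c.hm.RS X (T x p) := by
    intro p hp0 hp
    obtain ⟨γ, h1, h3, h4⟩ := exists_fix_Rad (B := h) (S := Submodule.span F {p})
      (A := c.ctx.Gam x) (A₀ := fun γ => γ = 0)
      (fun b hb γ hγ => (hγ.conj (c.ctx.radR_mem hp hb)).sub hx hγ) rfl h1 h3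
    obtain ⟨p', hp', hpp⟩ := c.hh.exists_partner hp0 hp
    obtain ⟨l, z, h5, h6, h7⟩ := c.hh.cent (γ := γ) (by omega) hp hpp fun b hb y => by
      simpa using Hm.apply_of_conj (b := b) (γ := γ) (c := (0 : F)) (by simpa using h4 b hb) y
    have h8 := h1.adj hx hxx p p'
    have h9 := h1.adj hx hxx p' p'
    simp only [h7 p hp, h6, h5, map_add, map_sub, map_smul, LinearMap.add_apply, LinearMap.sub_apply,
      LinearMap.smul_apply, smul_eq_mul, hpp, hp', c.hh.symm z p'] at h8 h9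
    obtain rfl : l = 0 := (mul_eq_zero.1 (by linear_combination h8)).resolve_left h2
    have h10 : h p' z = 0 := (mul_eq_zero.1 (by linear_combination h9)).resolve_left h2
    have e : ∀ y, γ y = h p y • z - h z y • p := fun y => by
      have := h7 (y - h p y • p') (by simp [hpp])
      simp only [map_sub, map_smul, h6, LinearMap.sub_apply, LinearMap.smul_apply, h10,
        c.hh.symm y z] at this
      linear_combination (norm := module) this
    have hz0 : z ≠ 0 := fun h0 => h3 (LinearMap.ext fun y => by simp [e, h0])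
    have hz := c.hh.ne_smul_of hpp hz0 h10
    have h11 : T x z ∈ c.hm.RS X (T x p) := fun _ => ⟨by simp [c.tens, hx], fun a => by
      obtain ⟨k, hk, e'⟩ := smul_of_sq h2 (A := c.ctx.Gam x) (γ := γ) (fun _ _ => Ctx.Gam.sub hx)
        (fun a => by
          by_cases ha0 : a = 0
          · simpa [ha0] using Ctx.Gam.zero _ _
          obtain ⟨g, hg, h12, e⟩ := c.ctx.exists_move_eq hU hS hx0 hx (smul_ne_zero ha0 hx0)
            (by simp [hx])
          rw [pow_two]
          exact Ctx.Gam.smul_iff.1 (e ▸ h1.mapL hg h12)) a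
      refine ⟨k, hk, 0, fun v => ?_⟩
      simp only [e', e, map_smul, LinearMap.smul_apply, c.left, map_sub, smul_eq_mul]
      module⟩
    by_cases h12 : h z z = 0
    swap
    · exact ⟨z, h5, h12, h11⟩
    rcases hW' with hW' | hW'
    swap
    · obtain ⟨a, ha⟩ := hW' p z hp0 hp h12 h5
      exact (hz a ha).elim
    obtain ⟨y, h13, h14⟩ := c.hh.exists_orth_ne hp0 hz
    obtain ⟨s, h15, h16⟩ := c.hh.partner h12 h14
    have h17 : h p (y - s • z) = 0 := by simp [h13, h5]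
    generalize y - s • z = z' at h15 h16 h17
    obtain ⟨d, a1, a2, a3, a4⟩ : ∃ d, h p d = 0 ∧ h z d = 0 ∧ h z' d = 0 ∧ h d d ≠ 0 := by
      obtain ⟨u, b1, b2⟩ := Hm.exists_orth_notMem (B := h) [p, z, z'] (Submodule.span F {p})
        (by rw [finrank_span_singleton hp0]; simp; omega)
      have b3 := b1 z (by simp)
      have b4 := b1 z' (by simp)
      obtain ⟨w, b5, b6⟩ := c.hh.exists_sep (y := u)
        (S := Submodule.span F {p} ⊔ Submodule.span F {z, z'}) fun hu => by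
          obtain ⟨v, hv, v', hv', rfl⟩ := Submodule.mem_sup.1 hu
          obtain ⟨a, rfl⟩ := Submodule.mem_span_singleton.1 hv
          obtain ⟨a', a'', rfl⟩ := Submodule.mem_span_pair.1 hv'
          simp [c.hh.comm h5, c.hh.comm h17, h12, h15, h16, c.hh.swap_one h16] at b3 b4
          simp [b3, b4, hv] at b2
      have b7 := c.hh.comm (b5 p (Submodule.mem_sup_left (Submodule.mem_span_singleton_self p)))
      have b8 := c.hh.comm (b5 z (Submodule.mem_sup_right (Submodule.subset_span (by simp))))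
      have b9 := c.hh.comm (b5 z' (Submodule.mem_sup_right (Submodule.subset_span (by simp))))
      by_contra! hc
      have := hc (u + w) (by simp [b1, b7]) (by simp [b3, b8]) (by simp [b4, b9])
      simp only [map_add, LinearMap.add_apply, hc u (b1 p (by simp)) b3 b4, hc w b7 b8 b9,
        c.hh.symm u w, b6] at this
      exact h2 (by linear_combination this)
    have k : ∀ t : F, t * t = 1 → T x (z + t • d - (h d d / 2) • z') ∈ c.hm.RS X (T x p) := by
      intro t ht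
      obtain ⟨b, hb, s, hs, e⟩ := c.hh.exists_eich h15 (u := t • d) (by simp [a3])
      have := c.hm.apply_mem_RS hle (c.ctx.radR_mem h15 hb) h11
      simp only [map_smul, LinearMap.smul_apply, smul_eq_mul, RingHom.id_apply] at hs
      rw [show s = h d d / 2 by field_simp; linear_combination hs + h d d * ht] at e
      simpa [e, c.hh.comm h17, c.hh.comm a1, c.hh.comm a2, c.hh.swap_one h16] using this
    refine ⟨d, a1, a4, (Submodule.smul_mem_iff _ h2).1 ?_⟩
    convert sub_mem (k 1 (by simp)) (k (-1) (by simp)) using 1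
    simp only [map_add, map_sub, map_smul]
    module
  obtain ⟨p, -, hp⟩ := exists_iso_mem h (S := ⊤) (by rw [finrank_top]; omega)
  refine c.le_of_RS hU (c.hh.spanOpp_of_three h2 (by omega)) ⟨p, hp⟩ fun y p u hy hy0 hp hp0 _ => ?_
  obtain ⟨d, h4, h5, h6⟩ := key p hp0 hp
  have h7 : ∀ y, y ≠ 0 → f y y = 0 → T y d ∈ c.hm.RS X (T y p) := fun y hy0 hy => by
    obtain ⟨a, -, ha, e⟩ := c.ctx.exists_move_eq hU hS hx0 hx hy0 hy
    simpa [e] using c.hm.apply_mem_RS hle ha h6
  refine c.flip.mem_RS_of_opp hS hy0 hy (fun y' h8 h9 => ?_) u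
  exact c.hm.centre_mem_RS hle (z' := T y' p) (by simp [c.tens, hp])
    (h7 y' (fun h0 => by simp [h0] at h9) h8) (by simp [c.tens, hp])
    (by simp [c.tens, c.hh.comm h4]) (h7 y hy0 hy) (by simp [c.tens, h4])
    (by simp [c.tens, h9, h5])

end Cfsg.Lib.Class.Tn
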