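import Cfsg.Agent.Class.Tens.Gen
import Cfsg.Agent.Class.HermMaxND

/-!
Overgroups of `SU ⊗ SU` in `SU`: the local analysis.
-/

set_option autoImplicit false

namespace Cfsg.Lib.Class.Tn

open Module Form AO

variable {F U W V : Type*} [Field F] [AddCommGroup U] [Module F U] [AddCommGroup W] [Module F W]
  [AddCommGroup V] [Module F V] {σ : F →+* F} {β : V →ₛₗ[σ] V →ₗ[F] F} {ε : F}
  {X : Subgroup (V ≃ₗ[F] V)}

theorem hm_of_herm (h : Herm β) : Hm β 1 :=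
  ⟨h.invol, one_mul 1, h.sym, h.sep, fun u => by simpa using h.exists_trace_eq (h.conj u u)⟩

theorem Hm.herm (h : Hm β 1) (hσ : σ ≠ RingHom.id F) : Herm β :=
  herm_of_isSymm hσ h.invol ⟨fun u v => by simpa using h.conj u v⟩ h.sep

/-- `X` contains the transvections with centre `z`. -/
def TvS (β : V →ₛₗ[σ] V →ₗ[F] F) (ε : F) (X : Subgroup (V ≃ₗ[F] V)) (z : V) : Prop :=
  ∀ s, ε * s + σ s = 0 → ∃ k ∈ X, ∀ v, k v = v + (s * β z v) • z

theorem TvS.apply (hX : X ≤ isomGroup β) {z : V} (hz : TvS β ε X z) {g : V ≃ₗ[F] V} (hg : g ∈ X) :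
    TvS β ε X (g z) := fun s hs => by
  obtain ⟨k, hk, e⟩ := hz s hs
  refine ⟨_, mul_mem (mul_mem hg hk) (inv_mem hg), fun v => ?_⟩
  obtain ⟨v, rfl⟩ := g.surjective v
  simp [e, iso (hX hg)]

theorem TvS.zero : TvS β ε X 0 := fun _ _ => ⟨1, one_mem _, by simp⟩

theorem Hm.trace_of_eIn (hβ : Hm β ε) {z w : V} (hz0 : z ≠ 0) (hz : β z z = 0) (hw : β z w = 0)
    {k : V ≃ₗ[F] V} (hk : k ∈ isomGroup β) {b : F}
    (e : ∀ v, k v = v + β z v • w - (ε * β w v + b * β z v) • z) : ε * b + σ b = β w w := by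
  obtain ⟨y, hy⟩ := hβ.exists_eq_one hz0
  have := iso hk y y
  simp only [e, map_add, map_sub, map_smulₛₗ, LinearMap.add_apply, LinearMap.sub_apply,
    LinearMap.smul_apply, smul_eq_mul, RingHom.id_apply, hz, hw, hβ.comm hw, map_mul, hβ.σε,
    hβ.conj, hy, hβ.swap_one hy, map_one] at this
  linear_combination -this - (β y w + β w y) * hβ.eps

theorem exists_two_skew (hσ : σ ≠ RingHom.id F) (hσ2 : ∀ a, σ (σ a) = a)
    (hq : ∃ a, σ a = a ∧ a ≠ 0 ∧ a ≠ 1) :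
    ∃ s s' : F, s ≠ 0 ∧ s' ≠ 0 ∧ s ≠ s' ∧ 1 * s + σ s = 0 ∧ 1 * s' + σ s' = 0 := by
  obtain ⟨δ, h1, h2⟩ := exists_trace_zero hσ hσ2
  obtain ⟨a, h3, h4, h5⟩ := hq
  exact ⟨δ, a * δ, h1, mul_ne_zero h4 h1, fun h => h5 ((mul_eq_right₀ h1).1 h.symm), by simpa,
    by rw [map_mul, h3]; linear_combination a * h2⟩

theorem Hm.cent_herm [FiniteDimensional F V] (h : Hm β 1) (hσ : σ ≠ RingHom.id F)
    (hn : 3 ≤ finrank F V ∨ finrank F V = 2 ∧ ∃ a, σ a = a ∧ a ≠ 0 ∧ a ≠ 1) {p : V}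
    (hp0 : p ≠ 0) (hp : β p p = 0) {γ : End F V}
    (hγ : ∀ b ∈ Rad β (Submodule.span F {p}), ∃ c : F, b.conj γ - γ = c • 1) :
    ∃ c d : F, ∀ y, γ y = c • y + (d * β p y) • p := by
  rcases hn with hn | ⟨hn, hq⟩
  · obtain ⟨δ, h1, h2⟩ := exists_trace_zero hσ h.invol
    obtain ⟨d, hd⟩ := h.eigen_of_tv hn h1 (by simpa) hp0 hp hγ
    obtain ⟨p', hp'⟩ := h.exists_eq_one hp0
    obtain ⟨c, z, h3, h4, h5⟩ := h.cent hn hp hp' (Hm.comm_of_eigen hp0 hd hγ)
    obtain ⟨t, ht⟩ : ∃ t, σ t ≠ t := by by_contra! hc; exact hσ (RingHom.ext hc)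
    have h6 : ∀ u, β p u = 0 → β u z = 0 := fun u hu => by
      have h7 := h5 (t • u) (by simp [hu])
      rw [map_smul, h5 u hu] at h7
      have : ((σ t - t) * β u z) • p = 0 := by
        simp only [map_smulₛₗ, LinearMap.smul_apply, smul_eq_mul] at h7
        linear_combination (norm := module) h7
      simpa [hp0, sub_eq_zero, ht] using this
    obtain ⟨s, rfl⟩ := h.mem_span_of_orth hp0 h6
    refine ⟨c, s, fun y => ?_⟩
    have h7 := h5 (y - β p y • p') (by simp [hp'])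
    rw [h6 _ (by simp [hp']), map_sub, map_smul, h4] at h7
    linear_combination (norm := module) h7
  · obtain ⟨s, s', h1, h2, h3, h4, h5⟩ := exists_two_skew hσ h.invol hq
    exact h.cent_two hn h1 h2 h3 h4 h5 hp0 hp hγ

variable {T : U →ₗ[F] W →ₗ[F] V} {f : U →ₛₗ[σ] U →ₗ[F] F} {h : W →ₛₗ[σ] W →ₗ[F] F}

/-- An overgroup of `SU ⊗ SU` in `SU`. -/
structure UCtx (T : U →ₗ[F] W →ₗ[F] V) (f : U →ₛₗ[σ] U →ₗ[F] F) (h : W →ₛₗ[σ] W →ₗ[F] F)
    (β : V →ₛₗ[σ] V →ₗ[F] F) (X : Subgroup (V ≃ₗ[F] V)) : Prop extends TF T f 1 h 1 β where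
  ne_id : σ ≠ RingHom.id F
  le : ∀ g ∈ X, g ∈ isomGroup β ∧ LinearEquiv.det g = 1
  ge : ∀ g ∈ tensG T, g ∈ isomGroup β → LinearEquiv.det g = 1 → g ∈ X

namespace UCtx

variable [FiniteDimensional F U] [FiniteDimensional F W] (c : UCtx T f h β X)
include c

omit [FiniteDimensional F U] [FiniteDimensional F W] in
theorem flip : UCtx T.flip h f β X :=
  ⟨c.toTF.flip, c.ne_id, c.le, by rw [tensG_flip]; exact c.ge⟩

theorem ctx : Ctx T f 1 h 1 β X := by
  have := c.hT.finiteDimensional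
  have key : ∀ S, ∀ g ∈ X, ∀ m ∈ tensG T, m ∈ isomGroup β → m⁻¹ * g ∈ Rad β S → m ∈ X :=
    fun S g hg m hm hm' hR => c.ge m hm hm' (by
      have : LinearEquiv.det (m⁻¹ * g) = 1 := Units.ext (by
        rw [LinearEquiv.coe_det, det_of_mem_Rad hR]; rfl)
      simpa [(c.le g hg).2] using this)
  exact ⟨c.toTF, fun g hg => (c.le g hg).1, fun _ _ => key _, fun _ _ => key _⟩

theorem mpE_mem {a : U ≃ₗ[F] U} (ha : a ∈ isomGroup f) (hd : LinearEquiv.det a = 1) :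
    c.hT.mpE a 1 ∈ X :=
  c.ge _ (c.hT.mpE_mem _ _) (c.mpE_isom' ha (one_mem _)) (Units.ext (by
    have : LinearMap.det (a : End F U) = 1 := by rw [← LinearEquiv.coe_det, hd]; rfl
    rw [LinearEquiv.coe_det, c.hT.coe_mpE, c.hT.det_mp, this]
    simp [show ((1 : W ≃ₗ[F] W) : End F W) = 1 from rfl]))

theorem exists_move (hU : 3 ≤ finrank F U) {x y : U} (hx0 : x ≠ 0) (hy0 : y ≠ 0)
    (hxy : f y y = f x x) : ∃ a ∈ isomGroup f, a x = y ∧ c.hT.mpE a 1 ∈ X := by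
  have hf := c.hf.herm c.ne_id
  obtain ⟨g, hg⟩ := hf.witt_one hx0 hy0 hxy
  obtain ⟨d, hd, hdd⟩ := hf.exists_nonisotropic_orth_of_lt (W := Submodule.span F {x}) (by
    have := finrank_span_singleton_le (F := F) x
    omega)
  obtain ⟨μ, hμ, h1⟩ := hf.exists_mul_qrefl_mem hdd g
  refine ⟨_, (g * hf.qrefl d hdd μ hμ).2, ?_, c.mpE_mem (g * hf.qrefl d hdd μ hμ).2 h1⟩
  rw [isom_mul_apply, hf.qrefl_apply_of_orth hdd μ hμ (hf.comm (mem_orth_span_singleton.1 hd)), hg]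

variable [Finite F]

theorem tvS_of_gam (hU : 3 ≤ finrank F U)
    (hW : 3 ≤ finrank F W ∨ finrank F W = 2 ∧ ∃ a, σ a = a ∧ a ≠ 0 ∧ a ≠ 1) {x : U} (hx0 : x ≠ 0)
    (hx : f x x = 0) {γ : End F W} (h1 : c.ctx.Gam x γ) (h2 : ¬ ∃ s : F, γ = s • 1) (y : U)
    (p : W) (hy : f y y = 0) (hp : h p p = 0) : TvS β 1 X (T y p) := by
  by_cases hy0 : y = 0
  · simpa [hy0] using TvS.zero
  by_cases hp0 : p = 0
  · simpa [hp0] using TvS.zero
  obtain ⟨γ, h1, h2, h3⟩ := exists_fix_Rad (B := h) (S := Submodule.span F {p})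
    (A := c.ctx.Gam x) (A₀ := fun γ => ∃ s : F, γ = s • 1)
    (fun b hb γ hγ => (hγ.conj (c.ctx.radR_mem hp hb)).sub hx hγ) ⟨0, by simp⟩ h1 h2
  obtain ⟨l, d, e⟩ := c.hh.cent_herm c.ne_id hW hp0 hp h3
  obtain ⟨x', hxx⟩ := c.hf.exists_eq_one hx0
  obtain ⟨p', hp', hpp⟩ := c.hh.exists_partner hp0 hp
  have h4 := h1.adj hx hxx p p'
  have h5 := h1.adj hx hxx p' p'
  simp only [e, hp, hp', hpp, c.hh.swap_one hpp, map_add, map_smulₛₗ, LinearMap.add_apply,
    LinearMap.smul_apply, smul_eq_mul, RingHom.id_apply, mul_zero, map_zero, mul_one] at h4 h5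
  have h6 := h1.sub hx (Ctx.Gam.scalar (s := l) hx (by linear_combination h4))
  have hd : d ≠ 0 := fun h0 => h2 ⟨l, LinearMap.ext fun y => by simp [e, h0]⟩
  intro s hs
  obtain ⟨a, ha⟩ := exists_norm_eq c.ne_id c.hf.invol (μ := s / d) (by
    rw [map_div₀, show σ s = -s by linear_combination hs, show σ d = -d by linear_combination h5,
      neg_div_neg_eq])
  by_cases ha0 : a = 0
  · exact ⟨1, one_mem _, by simp [show s = 0 by simpa [ha0, hd] using ha.symm]⟩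
  obtain ⟨g, hg, h7, h8⟩ := c.exists_move hU hx0 (smul_ne_zero ha0 hy0) (by simp [hx, hy])
  obtain ⟨k, hk, e'⟩ := Ctx.Gam.smul_iff.1 (h7 ▸ h6.mapL hg h8)
  refine ⟨k, hk, fun v => ?_⟩
  rw [e', mul_comm a, ha, c.left]
  simp [e, smul_smul, ← mul_assoc, hd]

theorem tvS_all (hU : 3 ≤ finrank F U) (hq : ∃ a, σ a = a ∧ a ≠ 0 ∧ a ≠ 1)
    (H : ∀ y p, f y y = 0 → h p p = 0 → TvS β 1 X (T y p)) (y : U) (p : W) (hp : h p p = 0) :
    TvS β 1 X (T y p) := by
  by_cases hp0 : p = 0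
  · simpa [hp0] using TvS.zero
  by_cases hy : f y y = 0
  · exact H y p hy hp
  have hf := c.hf.herm c.ne_id
  obtain ⟨x', hx', hxy⟩ : ∃ x', f x' x' = 0 ∧ f x' y = 1 := by
    by_contra! hc
    refine hy (hf.comm (LinearMap.mem_ker.1 (hf.le_of_isotropic (U := ⊤) (T := LinearMap.ker (f y))
      (fun u _ hu => hf.sep u fun v => hu v trivial) (by rw [finrank_top]; omega)
      (fun v _ hv => hf.comm (by_contra fun h0 => hc ((σ (f v y))⁻¹ • v) (by simp [hv])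
        (by simp [hf.invol, h0]))) trivial)))
  obtain ⟨m, hx, hxx⟩ := c.hf.partner hx' hxy
  obtain ⟨x, rfl⟩ : ∃ x, y = x + m • x' := ⟨y - m • x', by abel⟩
  rw [add_sub_cancel_right] at hx hxx
  have hm : m ≠ 0 := fun h0 => hy (by simp [h0, hx])
  obtain ⟨p', hp', hpp⟩ := c.hh.exists_partner hp0 hp
  obtain ⟨n, hn, hn0, hn1⟩ := hq
  obtain ⟨δ, hδ0, hδ⟩ := hf.exists_trace_zero
  have hδ' : σ δ = -δ := by linear_combination hδ
  obtain ⟨d, hd, hdd⟩ := hf.exists_nonisotropic_orth (W := Submodule.span F {x, x'}) fun hle => by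
    obtain ⟨u, h1, h2⟩ := Hm.exists_orth_notMem (B := f) [x, x'] ⊥ (by simp; omega)
    have a1 := h1 x (by simp)
    have a2 := h1 x' (by simp)
    obtain ⟨a, b, rfl⟩ := Submodule.mem_span_pair.1 (hle (x := u) (mem_orth_span.2 (by simp [a1, a2])))
    simp [hx, hx', hxx, c.hf.swap_one hxx] at a1 a2
    simp [a1, a2] at h2
  have hd1 := hd x (Submodule.subset_span (by simp))
  have hd2 := hd x' (Submodule.subset_span (by simp))
  obtain ⟨a, ha⟩ := hf.exists_smul_norm_eq hdd (μ := (m + σ m) / n) (by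
    simp [hf.invol, hn, add_comm])
  have hz : f (x - σ (m / n) • x' + a • d) (x - σ (m / n) • x' + a • d) = 0 := by
    rw [map_add, map_add, LinearMap.add_apply, LinearMap.add_apply, ha]
    simp [hx, hx', hxx, c.hf.swap_one hxx, hd1, hd2, hf.comm hd1, hf.comm hd2, hf.invol, hn]
    ring
  have h1 : f x' (x - σ (m / n) • x' + a • d) = 1 := by simp [hx', hxx, hd2]
  have h2 : f (x - σ (m / n) • x' + a • d) x = -(m / n) := by
    simp [hx, hxx, hf.comm hd1, hf.invol, hn]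
  generalize x - σ (m / n) • x' + a • d = z at hz h1 h2
  obtain ⟨k₁, hk₁, e₁⟩ := H z p' hz hp' δ (by simpa)
  obtain ⟨k₂, hk₂, e₂⟩ := H x' p hx' hp (-n / δ) (by simp [hn, hδ', neg_div, div_neg])
  obtain ⟨k₃, hk₃, e₃⟩ := H z p' hz hp' (-δ / (1 - n)) (by simp [hn, hδ', neg_div])
  have := (H x p hx hp).apply c.ctx.le (mul_mem hk₃ (mul_mem hk₂ hk₁))
  convert this using 1
  have hn1' : 1 - n ≠ 0 := sub_ne_zero.2 hn1.symm
  simp only [LinearEquiv.mul_apply, e₁, e₂, e₃, map_add, map_smul, c.tens, hp, hp', hpp, h1, h2,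
    hz, c.hh.swap_one hpp, c.hf.swap_one h1, LinearMap.add_apply, LinearMap.smul_apply, smul_eq_mul]
  match_scalars <;> field_simp <;> ring

theorem le_of_tvS (hW : 2 ≤ finrank F W)
    (hU : 4 ≤ finrank F U ∨ 3 ≤ finrank F U ∧ finrank F W = 2 ∧ ∃ a, σ a = a ∧ a ≠ 0 ∧ a ≠ 1)
    (H : ∀ y p, f y y = 0 → h p p = 0 → TvS β 1 X (T y p)) (g : V ≃ₗ[F] V)
    (hg : g ∈ isomGroup β) (hd : LinearEquiv.det g = 1) : g ∈ X := by
  have := c.hT.finiteDimensional
  have hf := c.hf.herm c.ne_id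
  have hh := c.hh.herm c.ne_id
  have hX := c.ctx.le
  obtain ⟨δ, hδ0, hδ⟩ := hf.exists_trace_zero
  have hδ' : 1 * 1 * δ + σ δ = 0 := by simpa
  have hiso : 4 ≤ finrank F U → ∀ x x', ∃ y, y ≠ 0 ∧ f y y = 0 ∧ f x y = 0 ∧ f x' y = 0 := by
    intro h4 x x'
    have h1 := hf.finrank_orth (Submodule.span F {x, x'})
    have h2 := Orth.finrank_span_pair_le (F := F) x x'
    obtain ⟨y, hy, h3⟩ := hf.exists_isotropic_of_two_le (T := orth f (Submodule.span F {x, x'}))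
      (by omega)
    exact ⟨y, h3.1, h3.2, hy x (Submodule.subset_span (by simp)),
      hy x' (Submodule.subset_span (by simp))⟩
  have SP : ∀ x, x ≠ 0 → f x x = 0 → ∀ K : Submodule F U, (∀ y, f x y = 0 → (∀ a : F, y ≠ a • x) →
      (∀ (a : F) p, h p p = 0 → TvS β 1 X (T (y + a • x) p)) → y ∈ K) →
      ∀ u, f x u = 0 → u ∈ K := by
    intro x hx0 hx K hK u hu
    obtain ⟨x', hx', hxx⟩ := c.hf.exists_partner hx0 hx
    have hxx' := c.hf.swap_one hxx
    rcases hU with h4 | ⟨h3, -, hq⟩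
    · have h1 : ∀ y, f y y = 0 → f x y = 0 → (∀ a : F, y ≠ a • x) → y ∈ K := fun y hy h1 h2 =>
        hK y h1 h2 fun a p hp => H _ p (by simp [hy, hx, h1, hf.comm h1]) hp
      have h2 : ∀ y, y ≠ 0 → f x' y = 0 → ∀ a : F, y ≠ a • x := by
        rintro y hy0 hy a rfl
        simp [hxx'] at hy
        simp [hy] at hy0
      have hxK : x ∈ K := by
        obtain ⟨y, hy0, hy, h3, h4⟩ := hiso h4 x x'
        simpa using K.sub_mem (h1 (y + x) (by simp [hy, hx, h3, hf.comm h3]) (by simp [hx, h3])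
          fun a ha => h2 y hy0 h4 (a - 1) (by rw [sub_smul, ← ha]; simp)) (h1 y hy h3 (h2 y hy0 h4))
      have h3 : orth f (Submodule.span F {x, x'}) ≤ K := by
        refine hf.le_of_isotropic (hf.nondegOn_orth fun v hv h5 => ?_) ?_ fun v hv hvv => ?_
        · obtain ⟨a, b, rfl⟩ := Submodule.mem_span_pair.1 hv
          have a1 := h5 x (Submodule.subset_span (by simp))
          have a2 := h5 x' (Submodule.subset_span (by simp))
          simp [hx, hx', hxx, hxx'] at a1 a2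
          simp [a1, a2]
        · have h1 := hf.finrank_orth (Submodule.span F {x, x'})
          have h2 := Orth.finrank_span_pair_le (F := F) x x'
          omega
        · by_cases hv0 : v = 0
          · simp [hv0]
          · exact h1 v hvv (hv x (Submodule.subset_span (by simp)))
              (h2 v hv0 (hv x' (Submodule.subset_span (by simp))))
      simpa using K.add_mem (h3 (x := u - f x' u • x) (mem_orth_span.2 (by simp [hu, hx, hxx'])))
        (K.smul_mem (f x' u) hxK)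
    · have h1 : ∀ y, f x y = 0 → y ∉ Submodule.span F {x} → y ∈ K := fun y h1 h2 =>
        hK y h1 (fun a ha => h2 (Submodule.mem_span_singleton.2 ⟨a, ha.symm⟩))
          fun a p hp => c.tvS_all h3 hq H _ p hp
      by_cases h2 : u ∈ Submodule.span F {x}
      · obtain ⟨d, h4, h5⟩ := Hm.exists_orth_notMem_one (B := f) h3 x x
        simpa using K.sub_mem (h1 (d + u) (by simp [h4, hu])
          (by rwa [Submodule.add_mem_iff_left _ h2])) (h1 d h4 h5)
      · exact h1 u hu h2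
  have H0 : ∀ x p u, f x x = 0 → x ≠ 0 → h p p = 0 → f x u = 0 →
      T u p ∈ c.hm.RS X (T x p) := fun x p u hx hx0 hp =>
    SP x hx0 hx ((c.hm.RS X (T x p)).comap (T.flip p)) (fun y hy _ h2 =>
      c.hm.mem_RS_of_tv (by simp [c.tens, hp]) (by simp [c.tens, hp]) (by simp [c.tens, hp]) hδ0 hδ'
        (by simpa using h2 0 p hp (-δ) (by simp; linear_combination -hδ))
        fun a => by simpa using h2 a p hp δ (by simpa)) u
  have hne : ∀ x y, x ≠ 0 → (∀ a : F, y ≠ a • x) → ∃ u, f x u = 0 ∧ f y u ≠ 0 := by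
    intro x y hx0 hy
    by_contra! hc
    obtain ⟨a, ha⟩ := c.hf.mem_span_of_orth hx0 fun u hu => hf.comm (hc u hu)
    exact hy a ha
  have H1 : ∀ x p u w, f x x = 0 → x ≠ 0 → h p p = 0 → p ≠ 0 → f x u = 0 →
      T u w ∈ c.hm.RS X (T x p) := fun x p u w hx hx0 hp hp0 =>
    SP x hx0 hx ((c.hm.RS X (T x p)).comap (T.flip w)) (fun y hy h1 h2 =>
      c.mem_RS_of_opp (c.hh.spanOpp_of_tv hδ0 (by simpa)) hp0 hp (fun p' hp' hpp => by
        obtain ⟨k, hk, e⟩ := h2 0 p' hp' δ (by simpa)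
        obtain ⟨u, hu, hu'⟩ := hne x y hx0 h1
        rw [zero_smul, add_zero] at e
        exact c.hm.tv_mem_RS hX hk hδ0 e (by simp [c.tens, hf.comm hy]) (H0 x p u hx hx0 hp hu)
          (by simp [c.tens, hu', hpp])) w) u
  have hβ : Herm β := (show Hm β 1 by simpa using c.hm).herm c.ne_id
  have hV : 4 ≤ finrank F V := by rw [c.hT.finrank_eq]; nlinarith [show 3 ≤ finrank F U by omega]
  have H2 : ∀ x p, f x x = 0 → x ≠ 0 → h p p = 0 → p ≠ 0 →
      hβ.Full (X.subgroupOf (isomGroup β)) (T x p) := by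
    intro x p hx hx0 hp hp0
    have hz : β (T x p) (T x p) = 0 := by simp [c.tens, hp]
    refine hβ.full_of_forall (by omega) hz fun v hv => ⟨0, ?_⟩
    refine ((c.step_full hX H1 hx hx0 hp hp0 (hU.imp (fun h4 x' _ => hiso h4 x x')
      fun ⟨_, h2, _⟩ => ⟨fun y hy => ?_, fun w hw => ?_⟩) v hv hz).2 1).elim fun k ⟨hk, b, e⟩ => ?_
    · have hb := c.hm.trace_of_eIn (c.hT.ne_zero hx0 hp0) hz (by simpa) (hX hk) e
      simp only [one_smul, one_mul] at e hb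
      rw [zero_smul, add_zero]
      refine ⟨hv, b, hb, ?_⟩
      rwa [Subgroup.mem_subgroupOf, show ((hβ.eich hz hv b hb : isomGroup β) : V ≃ₗ[F] V) = k from
        LinearEquiv.ext fun y => by rw [hβ.eich_apply, e]]
    · by_cases h3 : f x y = 0
      · exact H1 x p y p hx hx0 hp hp0 h3
      · obtain ⟨k, hk, e⟩ := H y p hy hp δ (by simpa)
        obtain ⟨u, hu, hu'⟩ := hne x y hx0 (by rintro a rfl; simp [hx] at h3)
        obtain ⟨w, hw⟩ := c.hh.exists_eq_one hp0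
        exact c.hm.tv_mem_RS hX hk hδ0 e (by simp [c.tens, hp]) (H1 x p u w hx hx0 hp hp0 hu)
          (by simp [c.tens, hu', hw])
    · have h3 := hh.finrank_orth (Submodule.span F {p})
      rw [finrank_span_singleton hp0] at h3
      have h4 : Submodule.span F {p} = orth h (Submodule.span F {p}) :=
        Submodule.eq_of_le_of_finrank_eq ((Submodule.span_singleton_le_iff_mem _ _).2
          (mem_orth_span_singleton.2 hp)) (by rw [finrank_span_singleton hp0]; omega)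
      obtain ⟨a, ha⟩ := Submodule.mem_span_singleton.1 (h4.ge (mem_orth_span_singleton.2 hw))
      exact ⟨a, ha.symm⟩
  obtain ⟨x, hx0, hx⟩ := hf.exists_isotropic (by omega)
  obtain ⟨p, hp0, hp⟩ := hh.exists_isotropic hW
  obtain ⟨x', hx', hxx⟩ := c.hf.exists_partner hx0 hx
  obtain ⟨p', hp', hpp⟩ := c.hh.exists_partner hp0 hp
  exact hβ.sIsom_le_of_full hV (H2 x p hx hx0 hp hp0) (H2 x' p' hx' (fun h0 => by simp [h0] at hxx)
    hp' fun h0 => by simp [h0] at hpp) (by simp [c.tens, hxx, hpp]) (x := ⟨g, hg⟩) hd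

/-- The local theorem for unitary groups. -/
theorem mem_tensG_of_stab (hW : 3 ≤ finrank F W ∨ finrank F W = 2 ∧ ∃ a, σ a = a ∧ a ≠ 0 ∧ a ≠ 1)
    (hU : 4 ≤ finrank F U ∨ 3 ≤ finrank F U ∧ finrank F W = 2)
    (hX : ¬ ∀ g ∈ isomGroup β, LinearEquiv.det g = 1 → g ∈ X) {x : U} (hx0 : x ≠ 0)
    (hx : f x x = 0) {g : V ≃ₗ[F] V} (hg : g ∈ X) (hJ : ∀ w, g (T x w) ∈ JL T x) :
    g ∈ tensG T := by
  have : Nontrivial W := Module.nontrivial_of_finrank_pos (R := F) (by omega)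
  obtain ⟨δ, hδ0, hδ⟩ := exists_trace_zero c.ne_id c.hf.invol
  obtain ⟨x', hxx⟩ := c.hf.exists_eq_one hx0
  have hΓ : ∀ γ, c.ctx.Gam x γ → ∃ s : F, γ = s • 1 := fun γ h1 => by_contra fun h2 =>
    hX (c.le_of_tvS (by omega) (hU.imp_right fun h => ⟨h.1, h.2, (hW.resolve_left (by omega)).2⟩)
      (c.tvS_of_gam (by omega) hW hx0 hx h1 h2))
  refine c.ctx.mem_tensG_of_stab hx0 hx (c.ctx.loc_of hx hxx hΓ fun u e hu hu' he => ?_)
    (Or.inr ⟨δ, hδ0, by simpa⟩) hg hJ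
  obtain ⟨t, ht⟩ : ∃ t, σ t ≠ t := by by_contra! hc; exact c.ne_id (RingHom.ext hc)
  obtain ⟨γ, h1, h2⟩ := he.exists_gam hx hxx hu hu'
  obtain ⟨γ', h3, h4⟩ := (he.smul t).exists_gam hx hxx (by simp [hu]) (by simp [hu'])
  obtain ⟨s, rfl⟩ := hΓ _ h1
  obtain ⟨s', rfl⟩ := hΓ _ h3
  refine ⟨(s' - t * s) / (t - σ t), LinearMap.ext fun w' => c.hh.ext_right fun w => ?_⟩
  have h5 := h2 w w'
  have h6 := h4 w w'
  have h7 : t - σ t ≠ 0 := sub_ne_zero.2 ht.symm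
  simp only [LinearMap.smul_apply, End.one_apply, map_smulₛₗ, c.hf.invol, smul_eq_mul,
    RingHom.id_apply] at h5 h6 ⊢
  field_simp
  linear_combination t * h5 - h6

end UCtx

end Cfsg.Lib.Class.Tn
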