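import Cfsg.Agent.Class.Tens.GlobT
import Cfsg.Agent.Class.Tens.Uni
import Cfsg.Agent.Class.AO.TensMat
import Cfsg.Agent.Class.UTwo
import Cfsg.Agent.Class.HermTransv

/-!
Maximality of the stabiliser of a unitary tensor decomposition.
-/

set_option autoImplicit false

namespace Cfsg.Lib.Class.Tn

open Module Form AO

section Abstract

variable {F U W V : Type*} [Field F] [AddCommGroup U] [Module F U] [AddCommGroup W] [Module F W]
  [AddCommGroup V] [Module F V] {σ : F →+* F} {T : U →ₗ[F] W →ₗ[F] V} {f : U →ₛₗ[σ] U →ₗ[F] F}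
  {h : W →ₛₗ[σ] W →ₗ[F] F} {β : V →ₛₗ[σ] V →ₗ[F] F} {ε₁ ε₂ : F} {X : Subgroup (V ≃ₗ[F] V)}

theorem Hm.smul (hf : Hm f ε₁) {c : F} (hc0 : c ≠ 0) (hc : σ c = c) : Hm (c • f) ε₁ :=
  ⟨hf.invol, hf.eps, fun u v => by simp [hc, hf.sym u v, mul_left_comm],
    fun u hu => hf.sep u fun v => by simpa [hc0] using hu v, fun u =>
      let ⟨a, ha⟩ := hf.tr u; ⟨c * a, by simp [hc, ← ha]; ring⟩⟩

theorem tf_of_smul [Nontrivial U] [Nontrivial W] (hT : IsTens T) (hf : Hm f ε₁) (hh : Hm h ε₂)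
    (hβ : Hm β (ε₁ * ε₂)) {c : F} (hc0 : c ≠ 0)
    (e : ∀ x y x' y', β (T x y) (T x' y') = c * (f x x' * h y y')) : TF T (c • f) ε₁ h ε₂ β := by
  obtain ⟨x, x', hx⟩ := hf.exists_ne_pair
  obtain ⟨y, y', hy⟩ := hh.exists_ne_pair
  have := hβ.sym (T x y) (T x' y')
  simp only [e, hx, hy, hf.swap_one hx, hh.swap_one hy, map_mul, hf.σε, hh.σε] at this
  exact ⟨hT, hf.smul hc0 (by
    linear_combination -this - σ c * ε₂ * ε₂ * hf.eps - σ c * hh.eps), hh,
    fun _ _ _ _ => by simp [e, mul_assoc]⟩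

variable [FiniteDimensional F U] [FiniteDimensional F W] [Finite F]

theorem UCtx.le_tensG (c : UCtx T f h β X) (h2 : 2 ≤ finrank F U) (hlt : finrank F U < finrank F W)
    (hq : finrank F U = 2 → ∃ a, σ a = a ∧ a ≠ 0 ∧ a ≠ 1)
    (hX : ¬ ∀ g ∈ isomGroup β, LinearEquiv.det g = 1 → g ∈ X) : X ≤ tensG T := by
  have : Nontrivial U := Module.nontrivial_of_finrank_pos (R := F) (by omega)
  have hh := c.hh.herm c.ne_id
  obtain ⟨s, hs0, hs⟩ := hh.exists_trace_zero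
  refine c.ctx.le_tensG hs0 (by simpa using hs) (fun S hS => hh.exists_isotropic_of_two_le hS) hlt
    ?_ fun p hp0 hp y hy e => tensG_flip T ▸ c.flip.mem_tensG_of_stab ?_ (by omega) hX hp0 hp hy e
  · by_cases h3 : finrank F U = 2
    · exact Or.inl ⟨by omega, hq h3⟩
    · exact Or.inr (by omega)
  · by_cases h3 : finrank F U = 2
    · exact Or.inr ⟨h3, hq h3⟩
    · exact Or.inl (by omega)

end Abstract

open Cfsg.Geo Asch TvP
open scoped MatrixGroups

theorem isTens_tb {F : Type*} [Field F] {ι : Type} [Fintype ι] [DecidableEq ι] {d k : ℕ}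
    (e : ι ≃ Fin d × Fin k) (P : GL ι F) : IsTens (tb e P) :=
  isTens_of_span (map₂_tb e P) (by simp [card_eq_mul e])

/-- The stabiliser in `SU` of a unitary tensor decomposition is maximal. -/
theorem isMaximalIn_SU_tensor {F : Type*} [Field F] [Fintype F] {n q : ℕ}
    (hF : Fintype.card F = q ^ 2) {n₁ n₂ : ℕ} (h1 : 2 ≤ n₁) (h12 : n₁ < n₂)
    (hex : ¬ (n₁ = 2 ∧ q = 2)) {e : Fin n ≃ Fin n₁ × Fin n₂} {P : GL (Fin n) F}
    {f₁ : (Fin n₁ → F) → (Fin n₁ → F) → F} {f₂ : (Fin n₂ → F) → (Fin n₂ → F) → F}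
    (hf₁ : IsUnitaryFormPow q f₁) (hf₂ : IsUnitaryFormPow q f₂)
    (hT : IsTensorFormStructure (fun x : F => x ^ q) (hermForm n F q) f₁ f₂ e P) :
    IsMaximalIn (GU n F q ⊓ specialLinear (Fin n) F)
      (tensorProductSubgroup n₁ n₂ e P ⊓ (GU n F q ⊓ specialLinear (Fin n) F)) := by
  obtain ⟨c, hc, hT⟩ := hT
  have : Nonempty (Fin n₁) := ⟨⟨0, by omega⟩⟩
  have : Nonempty (Fin n₂) := ⟨⟨0, by omega⟩⟩
  have hn : n = n₁ * n₂ := by simpa using Fintype.card_congr e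
  have t := tf_of_smul (isTens_tb e P) (hm_of_herm (herm_sesqOf hF hf₁))
    (hm_of_herm (herm_sesqOf hF hf₂)) (by simpa using hm_of_herm (herm_hermSesq hF n)) hc
    fun x y x' y' => by
      rw [sesqOf_apply, sesqOf_apply, ← formOfGram_kronecker_ptv
        (isSesq_of_isUnitaryFormPow hF hf₁).pre (isSesq_of_isUnitaryFormPow hF hf₂).pre]
      exact hT _ _
  refine isMaximalIn_SU_of hF n (H' := (tensG (tb e P)).comap (isomGroup _).subtype)
    (fun g => mem_tensorProductSubgroup_iff_glLin e P g) ⟨fun hle => ?_, fun M hM hMS g hg hgH => ?_⟩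
  · refine (tvIrr_SUG hF (by nlinarith)).not_le_tensorProductSubgroup h1 (by omega) e P
      fun g hg => ?_
    obtain ⟨k, hk, rfl⟩ := exists_toGL_SUG hF hg
    rw [mem_tensorProductSubgroup_iff_glLin,
      show glLin _ F (toGL hF n k) = k from LinearEquiv.ext (toGL_mulVec hF k)]
    exact hle hk
  by_contra hc
  refine hgH (UCtx.le_tensG (X := M.map (isomGroup _).subtype) ⟨t, frobq_ne_id hF, ?_,
    fun k h3 h4 h5 => ⟨⟨k, h4⟩, hM _ h3 h5, rfl⟩⟩ (by simpa) (by simpa)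
    (fun h3 => exists_fixed_ne_of_ne_two hF fun h4 => hex ⟨by simpa using h3, h4⟩)
    (fun h3 => hc fun k hk => ?_) ⟨g, hg, rfl⟩)
  · rintro _ ⟨k, hk, rfl⟩
    exact ⟨k.2, hMS hk⟩
  · obtain ⟨k', h4, h5⟩ := h3 k k.2 hk
    rwa [← Subtype.ext h5]

end Cfsg.Lib.Class.Tn
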