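import Cfsg.Agent.Class.Tens.GlobO
import Cfsg.Agent.Class.Tens.Om
import Cfsg.Agent.Class.Tens.UniMax
import Cfsg.Agent.Class.OMaxBlock
import Cfsg.Agent.Class.OrthTwo

/-!
Maximality of the stabiliser of a tensor decomposition with two orthogonal factors.
-/

set_option autoImplicit false

namespace Cfsg.Lib.Class.Tn

open Module Form AO QuadraticMap Orth OMax
open LinearMap (range ker)

section Abstract

variable {F U W V : Type*} [Field F] [AddCommGroup U] [Module F U] [AddCommGroup W] [Module F W]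
  [AddCommGroup V] [Module F V] {Q : QuadraticForm F V} {X : Subgroup (V ≃ₗ[F] V)}
  {T : U →ₗ[F] W →ₗ[F] V} {f : U →ₗ[F] U →ₗ[F] F} {h : W →ₗ[F] W →ₗ[F] F}

/-- No plane is totally singular. -/
def Wi1 (h : W →ₗ[F] W →ₗ[F] F) : Prop :=
  ∀ S : Submodule F W, finrank F S = 2 → ∃ v ∈ S, h v v ≠ 0

theorem finrank_span_pair_eq [FiniteDimensional F W] {p z : W} (hp0 : p ≠ 0)
    (hz : ∀ a : F, z ≠ a • p) : finrank F (Submodule.span F {p, z}) = 2 := by
  have h6 := Orth.finrank_span_pair_le (F := F) p z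
  have := Submodule.finrank_lt_finrank_of_lt (show Submodule.span F {p} <
    Submodule.span F {p, z} from SetLike.lt_iff_le_and_exists.2
      ⟨Submodule.span_mono (by simp), z, Submodule.subset_span (by simp), fun hm =>
        let ⟨a, e⟩ := Submodule.mem_span_singleton.1 hm; hz a e.symm⟩)
  rw [finrank_span_singleton hp0] at this
  omega

theorem Wi1.smul {c : F} (H : Wi1 h) (hc : c ≠ 0) : Wi1 (c • h) := fun S hS =>
  let ⟨v, h1, h2⟩ := H S hS; ⟨v, h1, by simp [hc, h2]⟩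

variable [FiniteDimensional F U] [FiniteDimensional F W]

theorem Wi1.eq_smul (H : Wi1 h) (hh : Hm h 1) (p z : W) (hp0 : p ≠ 0) (hp : h p p = 0)
    (hz : h z z = 0) (hpz : h p z = 0) : ∃ a : F, z = a • p := by
  by_contra! hc
  obtain ⟨v, hv, h0⟩ := H _ (finrank_span_pair_eq hp0 hc)
  obtain ⟨a, b, rfl⟩ := Submodule.mem_span_pair.1 hv
  simp [hp, hz, hpz, hh.comm hpz] at h0

theorem Hm.wi1_of_three (hh : Hm h 1) (h2 : (2 : F) ≠ 0) (h3 : finrank F W ≤ 3) : Wi1 h := by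
  intro S hS
  by_contra! hc
  have h1 := LinearMap.BilinForm.finrank_orthogonal hh.nondeg S
  have h4 : S ≤ LinearMap.BilinForm.orthogonal h S := fun v hv u hu => mul_left_cancel₀ h2 (by
    have := hc _ (S.add_mem hu hv)
    simp only [map_add, LinearMap.add_apply, hc u hu, hc v hv, hh.symm v u] at this
    linear_combination this)
  have := Submodule.finrank_mono h4
  omega

theorem Hm.two_le_rank (hf : Hm f 1) (h2 : (2 : F) ≠ 0) {a : End F U}
    (ha : ∀ u u', f (a u) u' = -f u (a u')) (h0 : a ≠ 0) : 2 ≤ finrank F (range a) := by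
  obtain ⟨y, hy⟩ := DFunLike.ne_iff.1 h0
  obtain ⟨x', hx⟩ := hf.exists_eq_one hy
  have h1 : f (a x') x' = 0 := mul_left_cancel₀ h2 (by linear_combination ha x' x' - hf.symm x' (a x'))
  rw [← finrank_span_pair_eq (F := F) hy (z := a x') fun c e => by
    obtain rfl : c = 0 := by simpa [e, hx] using h1
    simp [ha, e] at hx]
  exact Submodule.finrank_mono (Submodule.span_le.2 (by rintro _ (rfl | rfl) <;> simp))

theorem OCtx.le_tensG [Finite F] (c : OCtx Q T f h 1 X) (h2 : (2 : F) ≠ 0)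
    (hlt : finrank F U < finrank F W) (hW : 5 ≤ finrank F W)
    (hU : 4 ≤ finrank F U ∨ 3 ≤ finrank F U ∧ ∃ t : F, t ≠ 0 ∧ t ^ 2 ≠ 1)
    (hU' : 5 ≤ finrank F U ∨ Wi1 f) (hX : ¬ Om Q ≤ X) : X ≤ tensG T := by
  have : Nontrivial U := Module.nontrivial_of_finrank_pos (R := F) (by omega)
  refine (c.ctx.oLoc h2 hW (fun p hp0 hp y hy e => tensG_flip T ▸ c.flip.mem_tensG_of_stab h2 hW hU
    (hU'.imp_right fun H => H.eq_smul c.hf) hX hp0 hp hy e) fun a ha _ e => ?_).le_tensG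
  by_cases h0 : a = 0
  · rw [h0, LinearMap.range_zero, finrank_bot] at e
    omega
  · have := Nat.mul_le_mul_right (finrank F W) (c.hf.two_le_rank h2 ha h0)
    omega

omit [FiniteDimensional F U] [FiniteDimensional F W] in
theorem oCtx_of_symm {ε : F} (t : TF T f ε h ε (polarBilin Q)) (h2 : (2 : F) ≠ 0)
    (h5 : 5 ≤ finrank F V) (le : X ≤ Om Q) (ge : ∀ g ∈ tensG T, g ∈ Om Q → g ∈ X) :
    OCtx Q T f h ε X :=
  ⟨t, h5, fun x y H => mul_left_cancel₀ h2 (by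
    rw [← polar_self', ← polarBilin_apply_apply, t.tens, mul_zero, mul_eq_zero.2 H]),
    fun m _ hm => mem_O.2 fun v => mul_left_cancel₀ h2 (by
      rw [← polar_self', ← polar_self']; exact hm v v), le, ge⟩

end Abstract

open Cfsg.Geo
open scoped MatrixGroups

variable {F : Type*} [Field F] {ι : Type} [Fintype ι] [DecidableEq ι] {Q : QuadraticForm F (ι → F)}

theorem isMaximalIn_omega_of {N : Subgroup ((ι → F) ≃ₗ[F] (ι → F))} {H : Subgroup (GL ι F)}
    (hH : ∀ g, g ∈ H ↔ glLin ι F g ∈ N) (hne : ¬ omegaGL Q ≤ H)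
    (hmax : ∀ X, X ≤ Om Q → (∀ g ∈ N, g ∈ Om Q → g ∈ X) → ¬ Om Q ≤ X → X ≤ N) :
    IsMaximalIn (omegaGL Q) (H ⊓ omegaGL Q) := by
  refine MaxOm.isMaximalIn ⟨by_contra fun hc => hne fun g hg => ?_, fun X h1 h2 h3 g hg =>
    hmax (X.map (O Q).subtype) (Subgroup.map_mono h1) ?_ (fun h4 => h3 fun k hk => ?_)
      ⟨g, hg, rfl⟩⟩ hH
  · obtain ⟨k, hk, rfl⟩ := mem_omegaGL_iff.1 hg
    rw [hH, glLin_toGL]
    exact by_contra fun h => hc ⟨k, hk, h⟩
  · rintro _ h4 ⟨k, hk, rfl⟩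
    exact ⟨k, h2 k hk h4, rfl⟩
  · exact (Subgroup.mem_map_iff_mem (O Q).subtype_injective).1 (h4 (mem_Om.2 hk))

variable [Fintype F]

/-- The condition on the smaller orthogonal factor. -/
def SmallO {d : ℕ} (f : (Fin d → F) → (Fin d → F) → F) : Prop :=
  d = 3 ∧ Fintype.card F ≠ 3 ∨ d = 4 ∧ ¬ IsPlusTypeOn (fun v => f v v) ⊤ ∨ 5 ≤ d

theorem SmallO.cond {d : ℕ} {f : (Fin d → F) → (Fin d → F) → F} (H : SmallO f)
    (hq : Odd (Fintype.card F)) (hf : IsSymmetricForm f) :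
    (4 ≤ finrank F (Fin d → F) ∨ 3 ≤ finrank F (Fin d → F) ∧ ∃ t : F, t ≠ 0 ∧ t ^ 2 ≠ 1) ∧
      (5 ≤ finrank F (Fin d → F) ∨ Wi1 (geoBilin hf.bilinear)) := by
  have h2 := two_ne_zero_of_odd_card hq
  rw [finrank_fin_fun]
  rcases H with ⟨rfl, h3⟩ | ⟨rfl, h3⟩ | h3
  · refine ⟨Or.inr ⟨le_rfl, Orth.exists_sq_ne_one ?_⟩, Or.inr ((hm_of_symm h2
      (geoBilin_nondegenerate _ hf.nondegenerate) hf.symm).wi1_of_three h2 (by simp))⟩
    have := Fintype.one_lt_card (α := F)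
    obtain ⟨r, hr⟩ := hq
    omega
  · exact ⟨Or.inl le_rfl, Or.inr fun S hS => by_contra fun hc =>
      h3 ⟨S, le_top, fun v hv => by_contra fun h => hc ⟨v, hv, h⟩, by simp [hS]⟩⟩
  · exact ⟨Or.inl (by omega), Or.inl h3⟩

/-- The stabiliser in `Ω` of a tensor decomposition with two orthogonal factors is maximal. -/
theorem isMaximalIn_omega_tensor_sym (hQ : (polarBilin Q).Nondegenerate)
    (hq : Odd (Fintype.card F)) {d k : ℕ} {e : ι ≃ Fin d × Fin k} {P : GL ι F}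
    {f₁ : (Fin d → F) → (Fin d → F) → F} {f₂ : (Fin k → F) → (Fin k → F) → F}
    (h₁ : IsSymmetricForm f₁) (h₂ : IsSymmetricForm f₂)
    (H : d < k ∧ 5 ≤ k ∧ SmallO f₁ ∨ k < d ∧ 5 ≤ d ∧ SmallO f₂)
    (hT : IsTensorFormStructure id (polar Q) f₁ f₂ e P) :
    IsMaximalIn (omegaGL Q) (tensorProductSubgroup d k e P ⊓ omegaGL Q) := by
  have h2 := two_ne_zero_of_odd_card hq
  have hd : 3 ≤ d ∧ 3 ≤ k := by rcases H with ⟨_, _, _ | _ | _⟩ | ⟨_, _, _ | _ | _⟩ <;> omega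
  refine isMaximalIn_omega_of (mem_tensorProductSubgroup_iff_glLin e P)
    (not_le_tensor_sym hQ hq hd.1 hd.2 h₁ h₂ hT) fun X le ge hX => ?_
  obtain ⟨c, hc, t⟩ := exists_tens h₁.bilinear h₁.nondegenerate h₂.bilinear h₂.nondegenerate hT
  have o := oCtx_of_symm (f := c • geoBilin h₁.bilinear) ⟨isTens_tb e P,
    hm_of_symm h2 t.ndf fun x y => congrArg (c * ·) (h₁.symm x y), hm_of_symm h2 t.ndg h₂.symm,
    t.polar_eq⟩ h2 (by rw [t.dim]; simp only [finrank_fin_fun]; nlinarith [hd.1, hd.2]) le ge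
  rcases H with ⟨h3, h4, h5⟩ | ⟨h3, h4, h5⟩
  · exact o.le_tensG h2 (by simpa) (by simpa) (h5.cond hq h₁).1
      ((h5.cond hq h₁).2.imp_right fun H => H.smul hc) hX
  · exact tensG_flip (tb e P) ▸ o.flip.le_tensG h2 (by simpa) (by simpa) (h5.cond hq h₂).1
      (h5.cond hq h₂).2 hX

end Cfsg.Lib.Class.Tn
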