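import Cfsg.Agent.Class.Tens.SpOMax
import Cfsg.Agent.Class.SpGeo2

/-!
The subgroups `GL₂(q).2` and `GU₂(q).2` are maximal in `Sp₄(q)` for odd `q ≥ 5`.
-/

set_option autoImplicit false
set_option linter.unusedSectionVars false

namespace Cfsg.Lib.Class.Tn

open Module Form AO Wr
open LinearMap (range ker)

section Abstract

variable {F U W V : Type*} [Field F] [AddCommGroup U] [Module F U] [AddCommGroup W] [Module F W]
  [AddCommGroup V] [Module F V] {X : Subgroup (V ≃ₗ[F] V)} {T : U →ₗ[F] W →ₗ[F] V}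
  {f : U →ₗ[F] U →ₗ[F] F} {h : W →ₗ[F] W →ₗ[F] F} {β : V →ₗ[F] V →ₗ[F] F}
  [FiniteDimensional F U] [FiniteDimensional F W]

theorem span_two (hU : finrank F U = 2) {u u' : U} (hu : u ≠ 0) (hu' : ∀ a : F, u' ≠ a • u)
    (x : U) : ∃ a b : F, x = a • u + b • u' := by
  have := Submodule.eq_top_of_finrank_eq ((finrank_span_pair_eq hu hu').trans hU.symm)
  obtain ⟨a, b, e⟩ := Submodule.mem_span_pair.1 (this ▸ Submodule.mem_top (x := x))
  exact ⟨a, b, e.symm⟩

theorem Hm.exists_orth_basis (hh : Hm h 1) (hW : finrank F W = 2) {w : W} (hw : h w w ≠ 0) :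
    ∃ v, h w v = 0 ∧ h v w = 0 ∧ h v v ≠ 0 ∧ ∀ y, ∃ a b : F, y = a • w + b • v := by
  obtain ⟨v, h1, h2⟩ := Hm.exists_orth_notMem (B := h) [w] ⊥ (by simp [hW])
  have h3 : h w v = 0 := h1 w (by simp)
  have h4 := span_two hW (u := w) (u' := v) (fun e => by simp [e] at hw) fun a e => by
    obtain rfl : a = 0 := by simpa [e, hw] using h3
    simp [e] at h2
  refine ⟨v, h3, hh.comm h3, fun h0 => h2 (hh.sep v fun y => ?_), h4⟩
  obtain ⟨a, b, rfl⟩ := h4 y
  simp [h0, hh.comm h3]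

theorem Hm.exists_sim {ε : F} (hh : Hm h ε) {b : End F W} {m : F} (hm : m ≠ 0)
    (e : ∀ y y', h (b y) (b y') = m * h y y') : ∃ b' : W ≃ₗ[F] W, ∀ y, b' y = b y :=
  ⟨LinearEquiv.ofInjectiveEndo b ((injective_iff_map_eq_zero _).2 fun y hy => hh.sep y fun y' => by
    simpa [hy, hm] using e y y'), fun _ => rfl⟩

namespace SCtx

variable [Finite F] (c : SCtx T f h β X) (hU : finrank F U = 2) (hW : finrank F W = 2)
include c hU hW

theorem exists_move_two {x : U} (hx : x ≠ 0) {w w' : W} (hw : h w w ≠ 0) (hw' : h w' w' ≠ 0) :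
    ∃ g ∈ X, g (T x w) = T x w' := by
  obtain ⟨v, h1, h2, h3, h4⟩ := c.hh.exists_orth_basis hW hw
  obtain ⟨x', hx'⟩ := c.hf.exists_eq_one hx
  have ha := c.hf.alt c.two
  have h5 := span_two hU hx (u' := x') fun a e => by simp [e, ha] at hx'
  obtain ⟨r, s, rfl⟩ := h4 w'
  have hm := div_ne_zero hw' hw
  have e1 : ∀ y y', h (((h w w)⁻¹ • (h w).smulRight (r • w + s • v) +
      (h v v)⁻¹ • (h v).smulRight (-(s * h v v / h w w) • w + r • v) : End F W) y)
      (((h w w)⁻¹ • (h w).smulRight (r • w + s • v) +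
      (h v v)⁻¹ • (h v).smulRight (-(s * h v v / h w w) • w + r • v) : End F W) y') =
      h (r • w + s • v) (r • w + s • v) / h w w * h y y' := fun y y' => by
    obtain ⟨a, b, rfl⟩ := h4 y
    obtain ⟨a', b', rfl⟩ := h4 y'
    simp [h1, h2]
    field_simp
    ring
  obtain ⟨b, hb⟩ := c.hh.exists_sim hm e1
  generalize h (r • w + s • v) (r • w + s • v) / h w w = m at hm e1
  have e2 : ∀ y y', f ((-(f x').smulRight x + m⁻¹ • (f x).smulRight x' : End F U) y)
      ((-(f x').smulRight x + m⁻¹ • (f x).smulRight x' : End F U) y') = m⁻¹ * f y y' :=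
    fun y y' => by
    obtain ⟨a, b, rfl⟩ := h5 y
    obtain ⟨a', b', rfl⟩ := h5 y'
    simp [ha, hx', c.hf.swap_one hx']
    ring
  obtain ⟨a, ha'⟩ := c.hf.exists_sim (inv_ne_zero hm) e2
  refine ⟨_, c.ge _ (c.hT.mpE_mem a b) (c.mpE_isom fun x y x' y' => ?_), ?_⟩
  · rw [ha', ha', hb, hb, e1, e2]
    field_simp
  · simp [ha', hb, ha, c.hf.swap_one hx', hw, h2]

theorem le_of_TSet_two (ht : ∃ t : F, t ≠ 0 ∧ t ^ 2 ≠ 1) {x : U} {p : W} (hx : x ≠ 0)
    (hp : h p p ≠ 0) (H : T x p ∈ TSet c.isAlt X) : isomGroup β ≤ X := by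
  have := c.hT.finiteDimensional
  have h1 : ∀ y q, y ≠ 0 → h q q ≠ 0 → T y q ∈ TSet c.isAlt X := fun y q hy hq => by
    obtain ⟨a, ha, e⟩ := SpB_exists_apply_eq c.hf.nondeg (c.hf.alt c.two) hx hy
    obtain ⟨g, hg, e'⟩ := c.exists_move_two hU hW hx hp hq
    simpa [e, e'] using apply_mem_TSet (c.mpE_mem ha (one_mem _)) (c.mpE_isom' ha (one_mem _))
      (apply_mem_TSet hg (c.le hg) H)
  obtain ⟨p', k1, k2, k3, k4⟩ := c.hh.exists_orth_basis hW hp
  obtain ⟨s, hs0, hs⟩ : ∃ s : F, s ≠ 0 ∧ h (p + s • p') (p + s • p') ≠ 0 := by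
    obtain ⟨t, ht0, ht⟩ := ht
    by_contra! hc
    have e1 := hc 1 one_ne_zero
    have e2 := hc t ht0
    simp [k1, k2] at e1 e2
    exact ht (mul_right_cancel₀ k3 (by linear_combination e2 - e1))
  have h2 : ∀ v, v ≠ 0 → ¬ (c.flip.c p v = 0 ∧ c.flip.c p' v = 0) := fun v hv h0 =>
    hv (c.hβ.sep' v (c.hT.ind (by simp) (fun a b ha hb => by simp [ha, hb]) fun y q => by
      obtain ⟨a, b, rfl⟩ := k4 q
      refine (c.flip.left _ y v).trans ?_
      simp [c.flip.c_add, c.flip.c_smul, h0.1, h0.2]))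
  refine le_of_TSet_conn c.hβ c.two c.isAlt fun u v hu hv => ?_
  obtain ⟨q, h3, h4, h5⟩ : ∃ q, h q q ≠ 0 ∧ c.flip.c q u ≠ 0 ∧ c.flip.c q v ≠ 0 := by
    by_contra! hc
    have e1 := hc p hp
    have e2 := hc p' k3
    have e3 := hc _ hs
    have e4 := h2 u hu
    have e5 := h2 v hv
    simp only [c.flip.c_add, c.flip.c_smul, RingHom.id_apply] at e3
    by_cases h6 : c.flip.c p u = 0
    · have h7 : c.flip.c p' u ≠ 0 := fun e => e4 ⟨h6, e⟩
      exact e5 ⟨by simpa [e2 h7] using e3 (by simp [h6, h7, hs0]), e2 h7⟩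
    · have h7 : c.flip.c p' u = 0 := by_contra fun e => e5 ⟨e1 h6, e2 e⟩
      exact e5 ⟨e1 h6, by simpa [e1 h6, hs0] using e3 (by simp [h6, h7])⟩
  obtain ⟨a, -, h6, h7⟩ := exists_mem_both_ne_zero ⊤ (f (c.flip.c q u)) (f (c.flip.c q v))
    ((c.hf.exists_ne h4).imp fun _ h => ⟨trivial, h⟩)
    ((c.hf.exists_ne h5).imp fun _ h => ⟨trivial, h⟩)
  refine ⟨_, h1 a q (fun e => by simp [e] at h6) h3, ?_, ?_⟩ <;>
    rw [show T a q = T.flip q a from rfl, c.flip.right] <;> simpa

theorem mem_tensG_of_stab_two (ht : ∃ t : F, t ≠ 0 ∧ t ^ 2 ≠ 1) (hX : ¬ isomGroup β ≤ X) {x : U}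
    (hx0 : x ≠ 0) {g : V ≃ₗ[F] V} (hg : g ∈ X) (hJ : ∀ w, g (T x w) ∈ JL T x) : g ∈ tensG T := by
  have : Nontrivial W := Module.nontrivial_of_finrank_pos (R := F) (by omega)
  have hx := c.hf.alt c.two x
  obtain ⟨x', hxx⟩ := c.hf.exists_eq_one hx0
  have hs : ∀ γ, c.ctx.Gam x γ → ∀ w w', h (γ w) w' = h w (γ w') := fun γ hγ w w' => by
    simpa using hγ.adj hx hxx w w'
  have key : ∀ γ, c.ctx.Gam x γ → ∀ w v, h w w ≠ 0 → h v v ≠ 0 → h w v = 0 →
      h w (γ w) * h v v = h v (γ v) * h w w := fun γ hγ w v hw hv hwv => by_contra fun hne => by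
    have h4 := span_two hW (u := w) (u' := v) (fun e => by simp [e] at hw) fun a e => by
      obtain rfl : a = 0 := by simpa [e, hw] using hwv
      simp [e] at hv
    have hvw := c.hh.comm hwv
    obtain ⟨r, hr, e1, e2⟩ := c.hh.exists_refl hw
    have h3 : c.ctx.Gam x ((2 * (h w (γ w) / h w w - h v (γ v) / h v v) / h w w) •
        (h w).smulRight w) := by
      convert ((hγ.add hx (hγ.conj (c.mpE_mem (one_mem _) hr))).sub hx
        (Ctx.Gam.scalar hx (s := 2 * (h v (γ v) / h v v)) (by simp))) using 1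
      obtain ⟨a, b, ha⟩ := h4 (γ w)
      obtain ⟨a', b', hb⟩ := h4 (γ v)
      have r1 : r w = -w := by rw [e1, div_mul_cancel₀ _ hw]; module
      have r2 : r v = v := by simp [e1, hwv]
      ext y
      obtain ⟨s, t, rfl⟩ := h4 y
      simp only [LinearMap.smul_apply, LinearMap.smulRight_apply, map_add, map_smul, hwv, hvw,
        LinearMap.sub_apply, LinearMap.add_apply, LinearEquiv.conj_apply_apply, e2, r1, r2, ha, hb,
        map_neg, End.one_apply, smul_eq_mul]
      match_scalars <;> field_simp <;> ring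
    have hd : 2 * (h w (γ w) / h w w - h v (γ v) / h v v) / h w w ≠ 0 :=
      div_ne_zero (mul_ne_zero c.two fun e => hne (by field_simp at e; linear_combination e)) hw
    generalize 2 * (h w (γ w) / h w w - h v (γ v) / h v v) / h w w = d at h3 hd
    refine hX (c.le_of_TSet_two hU hW ht hx0 hw fun t => ?_)
    obtain ⟨k, hk, e⟩ := smul_of_sq c.two (A := c.ctx.Gam x) (fun _ _ => Ctx.Gam.sub hx)
      (fun a => by
        by_cases ha0 : a = 0
        · simpa [ha0] using Ctx.Gam.zero _ _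
        obtain ⟨g, hg, e⟩ := SpB_exists_apply_eq c.hf.nondeg (c.hf.alt c.two) hx0
          (smul_ne_zero ha0 hx0)
        rw [sq]
        exact Ctx.Gam.smul_iff.1 (e ▸ h3.mapL hg (c.mpE_mem hg (one_mem _))))
      (-(t / d))
    convert hk using 1
    ext v
    rw [e, altTEquiv_apply', c.hβ.skew, c.left]
    simp [smul_smul, ← mul_assoc, hd]
  refine c.ctx.mem_tensG_of_stab hx0 hx (c.ctx.loc_of hx hxx (fun γ hγ => ?_)
    fun u e hu hu' he => ?_) (Or.inr ⟨1, one_ne_zero, by simp⟩) hg hJ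
  · obtain ⟨w, -, hw⟩ := c.hh.exists_aniso c.two [] (by simp [hW])
    obtain ⟨v, k1, k2, k3, k4⟩ := c.hh.exists_orth_basis hW hw
    obtain ⟨s, hs0, hs'⟩ : ∃ s : F, s ≠ 0 ∧ h w w + s ^ 2 * h v v ≠ 0 := by
      obtain ⟨t, ht0, ht⟩ := ht
      by_contra! hc
      exact ht (mul_right_cancel₀ k3 (by linear_combination hc t ht0 - hc 1 one_ne_zero))
    obtain ⟨a, b, ha⟩ := k4 (γ w)
    obtain ⟨a', b', hb⟩ := k4 (γ v)
    have e1 := key γ hγ w v hw k3 k1
    have e2 := key γ hγ (w + s • v) ((s * h v v) • w - h w w • v)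
      (by simp [k1, k2]; intro e; exact hs' (by linear_combination e))
      (by
        simp [k1, k2]
        intro e
        exact mul_ne_zero (mul_ne_zero hw k3) hs' (by linear_combination e))
      (by simp [k1, k2]; ring)
    have e3 := hs γ hγ w v
    simp only [map_add, map_sub, map_smul, ha, hb, k1, k2, LinearMap.add_apply,
      LinearMap.sub_apply, LinearMap.smul_apply, smul_eq_mul] at e1 e2 e3
    obtain rfl : a = b' := mul_right_cancel₀ (mul_ne_zero hw k3) (by linear_combination e1)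
    obtain rfl : b = 0 := mul_right_cancel₀ (mul_ne_zero (mul_ne_zero (mul_ne_zero
      (mul_ne_zero c.two c.two) hs0) (mul_ne_zero hw (mul_ne_zero k3 k3))) hs') (by
        linear_combination e2 + (2 * s * h w w * h v v * (h w w + s ^ 2 * h v v)) * e3)
    obtain rfl : a' = 0 := mul_right_cancel₀ hw (by linear_combination -e3)
    refine ⟨a, LinearMap.ext fun y => ?_⟩
    obtain ⟨s, t, rfl⟩ := k4 y
    simp only [map_add, map_smul, ha, hb, LinearMap.smul_apply, End.one_apply]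
    module
  · obtain ⟨a, b, rfl⟩ := span_two hU hx0 (u' := x') (fun a e => by simp [e, hx] at hxx) u
    obtain rfl : b = 0 := by simpa [hx, hxx] using hu
    obtain rfl : a = 0 := by simpa [c.hf.swap_one hxx] using hu'
    obtain ⟨q, -, -, he⟩ := he
    exact ⟨0, LinearMap.ext fun w => by simp [← he, TF.c]⟩

theorem le_tensG_two (ht : ∃ t : F, t ≠ 0 ∧ t ^ 2 ≠ 1) (hX : ¬ isomGroup β ≤ X) :
    X ≤ tensG T := by
  have : Nontrivial W := Module.nontrivial_of_finrank_pos (R := F) (by omega)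
  have : Nontrivial U := Module.nontrivial_of_finrank_pos (R := F) (by omega)
  have ha := c.hf.alt c.two
  have hL := c.ctx.flip.loc one_ne_zero (by simp) (iso2_of_alt ha) hU.ge (Or.inl c.two)
    fun p hp0 _ y hy e => (tensG_flip T).ge (c.mem_tensG_of_stab_two hU hW ht hX hp0 hy e)
  obtain ⟨t, ht0, ht⟩ := ht
  have hG : ∀ g ∈ X, Good T.flip (tr T.flip g) := fun g hg =>
    c.ctx.flip.good_of_fixed one_ne_zero (by simp) (iso2_of_alt ha) hL (a := t) rfl ht0
      (fun e => ht (by simp [e])) (Or.inr ⟨by rwa [← pow_two], ha⟩) hg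
  exact fun g hg => (tensG_flip T).le ((hG g hg).resolve_right
    (c.not_comm hL hG (Or.inl (by omega)) hg))

end SCtx

variable {B : LinearMap.BilinForm F V} {θ : V →ₗ[F] V} {δ : F} [FiniteDimensional F V] [Finite F]

open Cfsg.Geo in
theorem isMaximalIn_of_skewRt (H : SkewRt B θ δ) (hA : B.IsAlt) (hd : finrank F V = 4)
    (ht : ∃ t : F, t ≠ 0 ∧ t ^ 2 ≠ 1) {x : V} (hx : B x (θ x) = 0) (hx0 : x ≠ 0)
    (hx' : ∀ s : F, θ x ≠ s • x) {N : Subgroup (V ≃ₗ[F] V)}
    (hN : ∀ g : V ≃ₗ[F] V, (∀ z, g (θ z) = θ (g z)) ∨ (∀ z, g (θ z) = -θ (g z)) → g ∈ N)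
    (hN' : ¬ SpB B ≤ N) : IsMaximalIn (SpB B) (N ⊓ SpB B) := by
  have hB := hm_of_alt H.nondeg hA
  have h2 := H.two
  have hδ := H.ne
  obtain ⟨y, y1, y2, y3⟩ : ∃ y, B x y = 1 ∧ B x (θ y) = 0 ∧ B y (θ y) = 0 := by
    obtain ⟨y, k1, k2⟩ := hB.exists_pair (x := θ x) (y := x) fun h => by
      obtain ⟨a, ha⟩ := Submodule.mem_span_singleton.1 h
      have ha0 : a ≠ 0 := fun e => hx0 (by simpa [e] using ha.symm)
      exact hx' a⁻¹ (by rw [eq_inv_smul_iff₀ ha0, ha])
    have k3 : B x (θ y) = 0 := by rw [H.symm hA, k1]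
    refine ⟨-y + (B y (θ y) / (2 * δ)) • θ x, by simp [hx, hB.skew x y, k2], ?_, ?_⟩
    · simp [k3, H.sq, hA x]
    · simp only [map_add, map_neg, map_smul, H.sq, LinearMap.add_apply, LinearMap.neg_apply,
        LinearMap.smul_apply, H.both, k2, smul_eq_mul, hB.skew x y, H.skew, hx, hA x]
      field_simp
      ring
  have y4 : B y x = -1 := hB.swap_one y1
  have y5 : B y (θ x) = 0 := by rw [H.symm hA, y2]
  let T : F × F →ₗ[F] F × F →ₗ[F] V := LinearMap.mk₂ F
    (fun u w => w.1 • (u.1 • x + u.2 • y) + w.2 • θ (u.1 • x + u.2 • y))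
    (fun _ _ _ => by simp only [Prod.fst_add, Prod.snd_add, map_add, map_smul]; module)
    (fun _ _ _ => by simp only [Prod.smul_fst, Prod.smul_snd, map_add, map_smul, smul_eq_mul]; module)
    (fun _ _ _ => by simp only [Prod.fst_add, Prod.snd_add]; module)
    (fun _ _ _ => by simp only [Prod.smul_fst, Prod.smul_snd, smul_eq_mul]; module)
  have eT : ∀ u w, T u w = w.1 • (u.1 • x + u.2 • y) + w.2 • θ (u.1 • x + u.2 • y) := fun _ _ => rfl
  let f : F × F →ₗ[F] F × F →ₗ[F] F := LinearMap.mk₂ F (fun u v => u.1 * v.2 - u.2 * v.1)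
    (fun _ _ _ => by simp; ring) (fun _ _ _ => by simp; ring) (fun _ _ _ => by simp; ring)
    (fun _ _ _ => by simp; ring)
  have ef : ∀ u v, f u v = u.1 * v.2 - u.2 * v.1 := fun _ _ => rfl
  let h : F × F →ₗ[F] F × F →ₗ[F] F := LinearMap.mk₂ F (fun u v => u.1 * v.1 - δ * (u.2 * v.2))
    (fun _ _ _ => by simp; ring) (fun _ _ _ => by simp; ring) (fun _ _ _ => by simp; ring)
    (fun _ _ _ => by simp; ring)
  have eh : ∀ u v, h u v = u.1 * v.1 - δ * (u.2 * v.2) := fun _ _ => rfl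
  have hT : IsTens T := by
    have h1 : LinearIndependent F ![x, y, θ x, θ y] := by
      refine Fintype.linearIndependent_iff.2 fun g hg i => ?_
      simp only [Fin.sum_univ_four, Matrix.cons_val] at hg
      fin_cases i
      · simpa [hA y, y3, y4, y5] using congrArg (B y) hg
      · simpa [hA x, y1, y2, hx] using congrArg (B x) hg
      · simpa [H.skew, H.sq, hA y, y3, y4, y5, hδ] using congrArg (B (θ y)) hg
      · simpa [H.skew, H.sq, hA x, y1, y2, hx, hδ] using congrArg (B (θ x)) hg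
    refine isTens_of_span (eq_top_iff.2 ((h1.span_eq_top_of_card_eq_finrank' (by simp [hd])).ge.trans
      (Submodule.span_le.2 ?_))) (by simp [hd])
    rintro _ ⟨i, rfl⟩
    fin_cases i
    · simpa [eT] using Submodule.apply_mem_map₂ T (p := ⊤) (q := ⊤) (m := (1, 0)) (n := (1, 0))
        trivial trivial
    · simpa [eT] using Submodule.apply_mem_map₂ T (p := ⊤) (q := ⊤) (m := (0, 1)) (n := (1, 0))
        trivial trivial
    · simpa [eT] using Submodule.apply_mem_map₂ T (p := ⊤) (q := ⊤) (m := (1, 0)) (n := (0, 1))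
        trivial trivial
    · simpa [eT] using Submodule.apply_mem_map₂ T (p := ⊤) (q := ⊤) (m := (0, 1)) (n := (0, 1))
        trivial trivial
  have t : TF T f (-1) h 1 B :=
    ⟨hT, ⟨fun _ => rfl, by simp, fun u v => by simp [ef, mul_comm], fun u hu => Prod.ext
      (by simpa [ef] using hu (0, 1)) (by simpa [ef] using hu (1, 0)),
      fun u => ⟨0, by simp [ef, mul_comm]⟩⟩,
      ⟨fun _ => rfl, by simp, fun u v => by simp [eh, mul_comm], fun u hu => Prod.ext
      (by simpa [eh] using hu (1, 0)) (by simpa [eh, hδ] using hu (0, 1)),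
      fun u => ⟨h u u / 2, by simp only [RingHom.id_apply]; field_simp; ring⟩⟩, fun u w u' w' => by
      simp only [eT, ef, eh, map_add, map_smul, LinearMap.add_apply, LinearMap.smul_apply,
        H.skew, H.sq, hA x, hA y, hx, y1, y2, y3, y4, y5, smul_eq_mul]
      ring⟩
  have eθ : ∀ u w, θ (T u w) = T u (δ * w.2, w.1) := fun u w => by
    simp only [eT, map_add, map_smul, H.sq]
    module
  clear_value T f h
  have key : ∀ g ∈ tensG T, g ∈ SpB B → g ∈ N := by
    rintro g ⟨a, b, e⟩ hg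
    have h1 : ∀ w w', f (a (1, 0)) (a (0, 1)) * h (b w) (b w') = h w w' := fun w w' => by
      rw [← t.tens, ← e, ← e, iso (B := B) hg, t.tens]
      simp [ef]
    generalize f (a (1, 0)) (a (0, 1)) = m at h1
    have k1 := h1 (1, 0) (1, 0)
    have k2 := h1 (0, 1) (0, 1)
    have k3 := h1 (1, 0) (0, 1)
    have hb : ∀ w, b w = w.1 • b (1, 0) + w.2 • b (0, 1) := fun w => by
      rw [← map_smul, ← map_smul, ← map_add]; simp
    obtain ⟨p, q, hp⟩ : ∃ p q, b (1, 0) = (p, q) := ⟨_, _, rfl⟩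
    obtain ⟨r, s, hr⟩ : ∃ r s, b (0, 1) = (r, s) := ⟨_, _, rfl⟩
    simp only [hp, hr, eh] at k1 k2 k3 hb
    have k4 : r = m * (p * s - q * r) * (δ * q) := by linear_combination p * k3 - r * k1
    have k5 : s = m * (p * s - q * r) * p := by linear_combination q * k3 - s * k1
    generalize m * (p * s - q * r) = l at k4 k5
    subst k4 k5
    have k6 : (l - 1) * (l + 1) = 0 :=
      mul_left_cancel₀ hδ (by linear_combination -k2 - δ * l ^ 2 * k1)
    have k7 : ∀ z, g (θ z) = l • θ (g z) := fun z => LinearMap.congr_fun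
      (hT.ext (a := g.toLinearMap ∘ₗ θ) (b := l • θ ∘ₗ g.toLinearMap) fun u w => by
        simp only [LinearMap.comp_apply, LinearMap.smul_apply, LinearEquiv.coe_coe, eθ, e,
          ← map_smul, hb w, hb (δ * w.2, w.1)]
        congr 1
        ext
        · simp; linear_combination -δ * w.2 * p * k6
        · simp; linear_combination -δ * w.2 * q * k6) z
    refine hN g ((mul_eq_zero.1 k6).imp (fun e z => ?_) fun e z => ?_)
    · rw [k7, sub_eq_zero.1 e, one_smul]
    · rw [k7, eq_neg_of_add_eq_zero_left e, neg_one_smul]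
  exact isMaximalIn_of_forall inf_le_right (fun hle => hN' (hle.trans inf_le_left))
    fun M h5 h6 g hg hg' => by_contra fun hc => hg' ⟨key g (SCtx.le_tensG_two
      ⟨t, h2, h6, fun g h7 h8 => h5 ⟨key g h7 h8, h8⟩⟩ (by simp) (by simp) ht hc hg) (h6 hg), h6 hg⟩

open Cfsg.Geo in
theorem isMaximalIn_normRoot_four (H : SkewRoot B θ δ) (hA : B.IsAlt) (hd : finrank F V = 4)
    (ht : ∃ t : F, t ≠ 0 ∧ t ^ 2 ≠ 1) : IsMaximalIn (SpB B) (normRoot θ ⊓ SpB B) := by
  obtain ⟨x, -, hx0, hx⟩ := exists_iso_mem (B.compl₂ θ) (S := ⊤) (by rw [finrank_top]; omega)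
  have hi := fun a b => root_indep_one H.sq H.nonsq hx0 (a := a) (b := b)
  replace hx : B x (θ x) = 0 := hx
  refine isMaximalIn_of_skewRt H.skewRt hA hd ht hx hx0
    (fun s e => by simpa using (hi s (-1) (by simp [e])).2) (fun g hg => ?_) fun hle => ?_
  · rcases hg with hg | hg
    · exact ⟨0, 1, one_ne_zero, by simpa⟩
    · exact ⟨0, -1, by simp, by simpa⟩
  obtain ⟨s, t, -, hst⟩ := hle (altTEquiv_mem_SpB hA x 1)
  have h1 := hst x
  rw [altTEquiv_of_orth hA _ (hA x), altTEquiv_of_orth hA _ (by rw [H.skew, hx, neg_zero])] at h1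
  obtain ⟨h2, h3⟩ := hi s (t - 1) (by linear_combination (norm := module) -h1)
  obtain ⟨y, hy⟩ := exists_alt_eq_one H.nondeg.flip hx0
  rw [LinearMap.BilinForm.flip_apply] at hy
  have h4 := hst y
  rw [h2, sub_eq_zero.1 h3] at h4
  simp only [altTEquiv_apply', hy, map_add, map_smul] at h4
  simpa using (hi (B (θ y) x) (-1) (by linear_combination (norm := module) h4)).2

open Cfsg.Geo in
theorem isMaximalIn_stabDec_four (hB : B.Nondegenerate) (hA : B.IsAlt) (h2 : (2 : F) ≠ 0)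
    {D : Fin 2 → Submodule F V} (hL : LagPair B (D 0) (D 1)) (hm : finrank F (D 0) = 2)
    (ht : ∃ t : F, t ≠ 0 ∧ t ^ 2 ≠ 1) : IsMaximalIn (SpB B) (stabDec D ⊓ SpB B) := by
  have h6 := hL.finrank_eq hB
  let θ : V →ₗ[F] V := LinearMap.ofIsCompl hL.compl (D 0).subtype (-(D 1).subtype)
  have θW : ∀ w ∈ D 0, θ w = w := fun w hw => LinearMap.ofIsCompl_apply_left hL.compl ⟨w, hw⟩
  have θU : ∀ u ∈ D 1, θ u = -u := fun u hu => LinearMap.ofIsCompl_apply_right hL.compl ⟨u, hu⟩
  have mW : ∀ v, θ v = v → v ∈ D 0 := fun v hv => by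
    obtain ⟨w, hw, u, hu, rfl⟩ := hL.exists_add v
    rw [map_add, θW w hw, θU u hu] at hv
    have : u = 0 := (smul_eq_zero.1 (show (2 : F) • u = 0 by
      linear_combination (norm := module) -hv)).resolve_left h2
    simpa [this]
  have mU : ∀ v, θ v = -v → v ∈ D 1 := fun v hv => by
    obtain ⟨w, hw, u, hu, rfl⟩ := hL.exists_add v
    rw [map_add, θW w hw, θU u hu] at hv
    have : w = 0 := (smul_eq_zero.1 (show (2 : F) • w = 0 by
      linear_combination (norm := module) hv)).resolve_left h2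
    simpa [this]
  have H : SkewRt B θ 1 := ⟨hB, h2, fun v => by
    obtain ⟨w, hw, u, hu, rfl⟩ := hL.exists_add v
    simp [θW w hw, θU u hu], one_ne_zero, fun v v' => by
    obtain ⟨w, hw, u, hu, rfl⟩ := hL.exists_add v
    obtain ⟨w', hw', u', hu', rfl⟩ := hL.exists_add v'
    simp [θW w hw, θU u hu, θW w' hw', θU u' hu', hL.left w hw w' hw', hL.right u hu u' hu',
      add_comm]⟩
  obtain ⟨a, ha, ha0⟩ := (D 0).exists_mem_ne_zero_of_ne_bot (fun h => by
    rw [h, finrank_bot] at hm; omega)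
  obtain ⟨b, hb, hb0, hab⟩ := exists_mem_orth_notMem hB (D 1) (Submodule.span F {a}) ⊥ (by
    rw [finrank_bot, finrank_span_singleton ha0]; omega)
  replace hab := hab a (Submodule.mem_span_singleton_self a)
  have h1 : ∀ i, a + b ∉ D i := by
    intro i h
    fin_cases i
    · exact hb0 (hL.eq_zero ((add_mem_cancel_left ha).1 h) hb)
    · exact ha0 (hL.eq_zero ha ((add_mem_cancel_right hb).1 h))
  have h0 : a + b ≠ 0 := fun h => h1 0 (h ▸ (D 0).zero_mem)
  refine isMaximalIn_of_skewRt H hA (by omega) ht (x := a + b)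
    (by simp [θW a ha, θU b hb, hA a, hA b, hab, alt_eq_zero_comm hA hab]) h0 (fun s e => ?_)
    (fun g hg => ?_) fun hle => ?_
  · have := H.sq (a + b)
    rw [e, map_smul, e, smul_smul] at this
    rcases mul_self_eq_one_iff.1 (smul_left_injective F h0 this) with rfl | rfl
    · exact h1 0 (mW _ (by simpa using e))
    · exact h1 1 (mU _ (by rw [e, neg_one_smul]))
  · rcases hg with hg | hg
    · refine mem_stabDec_of_forall fun i v hv => ?_
      fin_cases i
      · exact mW _ (by rw [← hg, θW v hv])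
      · exact mU _ (by rw [← hg, θU v hv, map_neg])
    · refine ⟨Equiv.swap 0 1, fun i => Submodule.eq_of_le_of_finrank_eq ?_ ?_⟩
      · rintro _ ⟨v, hv, rfl⟩
        fin_cases i
        · exact mU _ (by rw [← neg_eq_iff_eq_neg, LinearEquiv.coe_coe, ← hg, θW v hv])
        · exact mW _ (by rw [← neg_inj, LinearEquiv.coe_coe, ← hg, θU v hv, map_neg])
      · rw [LinearEquiv.finrank_map_eq]
        fin_cases i
        exacts [h6.2.symm, h6.2]
  · obtain ⟨g, hg, hga⟩ := SpB_exists_apply_eq hB hA ha0 h0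
    obtain ⟨σ, hσ⟩ := hle hg
    refine h1 (σ 0) ?_
    rw [← hσ, ← hga]
    exact ⟨a, ha, rfl⟩

end Abstract

end Cfsg.Lib.Class.Tn

namespace Cfsg.Lib.Class.SpGeo

open Cfsg Matrix

theorem lagPair_two {F : Type*} [Field F] [Fintype F] (m : ℕ) (hm : m = 2) (hodd : Odd (Fintype.card F)) (h5 : 5 ≤ Fintype.card F) (D : Fin 2 → Submodule F (Fin m ⊕ Fin m → F)) (hD : Cfsg.Geo.IsMDecomposition m D) (hts : ∀ i, Cfsg.Geo.IsTotallySingularFor (Cfsg.sympForm m F) (D i)) : Cfsg.Geo.IsMaximalIn (Cfsg.spGL m F) (Cfsg.Geo.decompositionStabilizer D ⊓ Cfsg.spGL m F) := by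
  classical
  refine isMaximalIn_spGL_of m (mem_decompositionStabilizer_iff_glLin D) ?_
  refine Tn.isMaximalIn_stabDec_four (sympBilin_nondegenerate m) (sympBilin_isAlt m)
    (two_ne_zero_of_odd_card hodd) ⟨fun u hu v hv => by simpa using hts 0 u hu v hv,
      fun u hu v hv => by simpa using hts 1 u hu v hv, ?_, ?_⟩ (by rw [hD.finrank_eq]; omega)
    (Orth.exists_sq_ne_one (by omega))
  · exact hD.indep.pairwiseDisjoint (show (0 : Fin 2) ≠ 1 by decide)
  · rw [codisjoint_iff, eq_top_iff, ← hD.iSup_eq_top, iSup_le_iff]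
    intro i
    fin_cases i
    · exact le_sup_left
    · exact le_sup_right

theorem unitary_two {F : Type*} [Field F] [Fintype F] (m : ℕ) (hm : m = 2) (hodd : Odd (Fintype.card F)) (h5 : 5 ≤ Fintype.card F) (K : Subalgebra F (Matrix (Fin m ⊕ Fin m) (Fin m ⊕ Fin m) F)) (hK : Cfsg.Geo.IsFieldSubalgebra 2 K) (hac : Cfsg.Geo.IsAdjointClosedFor (Cfsg.sympForm m F) K) (hnsa : ¬ Cfsg.Geo.IsSelfAdjointFor (Cfsg.sympForm m F) K) : Cfsg.Geo.IsMaximalIn (Cfsg.spGL m F) (Cfsg.Geo.subalgebraNormalizer K ⊓ Cfsg.spGL m F) := by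
  have h2 := two_ne_zero_of_odd_card hodd
  have hB := sympBilin_nondegenerate (F := F) m
  have hA := sympBilin_isAlt (F := F) m
  simp only [Cfsg.Geo.IsSelfAdjointFor, not_forall] at hnsa
  obtain ⟨k, hk, u₀, v₀, hne⟩ := hnsa
  obtain ⟨k', hk', hkk⟩ := hac k hk
  simp only [← sympBilin_apply] at hne hkk
  set B := sympBilin m F
  have hT : k - k' ∈ K := K.sub_mem hk hk'
  have hskew : ∀ u v, B ((k - k') *ᵥ u) v = -B u ((k - k') *ᵥ v) := fun u v => by
    simp only [Matrix.sub_mulVec, map_sub, LinearMap.sub_apply, hkk]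
    rw [← hA.neg_eq v, ← hkk v u, hA.neg_eq]
    ring
  have hT0 : B ((k - k') *ᵥ v₀) u₀ ≠ 0 := by
    rw [← hA.neg_eq, Matrix.sub_mulVec, map_sub, ← hkk, neg_sub, sub_ne_zero]
    exact hne
  set T := k - k'
  have hind : ∀ s t : F, s • (1 : Matrix _ _ F) + t • T = 0 → s = 0 ∧ t = 0 := by
    intro s t h
    have h1 : ∀ u, s • u + t • T *ᵥ u = 0 := fun u => by
      simpa [Matrix.add_mulVec, Matrix.smul_mulVec] using congrArg (· *ᵥ u) h
    have e1 := congrArg (B · u₀) (h1 (T *ᵥ v₀))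
    have e2 := congrArg (B (T *ᵥ v₀)) (h1 u₀)
    have e3 := congrArg (B · u₀) (h1 v₀)
    simp only [map_add, map_smul, LinearMap.add_apply, LinearMap.smul_apply, smul_eq_mul, map_zero,
      LinearMap.zero_apply, hskew (T *ᵥ v₀)] at e1 e2 e3
    have hs : s = 0 := by
      have : 2 * s * B (T *ᵥ v₀) u₀ = 0 := by linear_combination e1 + e2
      simpa [h2, hT0] using this
    exact ⟨hs, by simpa [hs, hT0] using e3⟩
  have hspan : ∀ x ∈ K, ∃ s t : F, s • (1 : Matrix _ _ F) + t • T = x := by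
    intro x hx
    have hli : LinearIndependent F ![(1 : K), ⟨T, hT⟩] :=
      LinearIndependent.pair_iff.2 fun s t h => hind s t (congrArg Subtype.val h)
    have : FiniteDimensional F K := Module.finite_of_finrank_pos (by rw [hK.finrank_eq]; norm_num)
    have h1 := (hli.span_eq_top_of_card_eq_finrank' (by simp [hK.finrank_eq])).ge
      (Submodule.mem_top (x := ⟨x, hx⟩))
    rw [Matrix.range_cons_cons_empty, Submodule.mem_span_pair] at h1
    obtain ⟨s, t, h⟩ := h1
    exact ⟨s, t, congrArg Subtype.val h⟩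
  obtain ⟨δ, t, hδ⟩ := hspan _ (K.mul_mem hT hT)
  have ht : t = 0 := by
    have h1 : ∀ u, δ • u + t • T *ᵥ u = T *ᵥ (T *ᵥ u) := fun u => by
      simpa [Matrix.add_mulVec, Matrix.smul_mulVec] using congrArg (· *ᵥ u) hδ
    have e1 := congrArg (B · u₀) (h1 v₀)
    have e2 := congrArg (B v₀) (h1 u₀)
    have e3 := hskew v₀ u₀
    have e4 := hskew v₀ (T *ᵥ u₀)
    simp only [map_add, map_smul, LinearMap.add_apply, LinearMap.smul_apply, smul_eq_mul,
      hskew (T *ᵥ v₀)] at e1 e2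
    have : 2 * t * B (T *ᵥ v₀) u₀ = 0 := by linear_combination e1 - e2 + t * e3 - e4
    simpa [h2, hT0] using this
  rw [ht, zero_smul, add_zero] at hδ
  have h : SkewRoot B (Matrix.toLin' T) δ := by
    refine ⟨hB, h2, fun x => ?_, fun s hs => ?_, hskew⟩
    · simp [← hδ, Matrix.smul_mulVec]
    · obtain ⟨y, -, hy⟩ := hK.inv (s • 1 + (1 : F) • T)
        (K.add_mem (K.smul_mem K.one_mem _) (K.smul_mem hT _)) fun h0 => by simpa using (hind _ _ h0).2
      have h0 : ((-s) • 1 + (1 : F) • T) * (s • 1 + (1 : F) • T) = 0 := by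
        simp only [add_mul, mul_add, Matrix.smul_mul, Matrix.mul_smul, one_mul, mul_one, ← hδ, ← hs]
        module
      have h1 := congrArg (· * y) h0
      simp only [mul_assoc, hy, mul_one, zero_mul] at h1
      simpa using (hind _ _ h1).2
  refine isMaximalIn_spGL_of m (fun g => ⟨fun hg => ?_, fun hg => ?_⟩)
    (Tn.isMaximalIn_normRoot_four h hA (by simp; omega) (Orth.exists_sq_ne_one (by omega)))
  · obtain ⟨s, t, e⟩ := hspan _ ((hg T).1 hT)
    have e' : s • g.1 + t • (T * g.1) = g.1 * T := by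
      simpa [add_mul, mul_assoc] using congrArg (· * g.1) e
    refine ⟨s, t, ?_, fun x => ?_⟩
    · rintro rfl
      have h1 := congrArg ((g⁻¹).1 * ·) e'
      simp only [zero_smul, add_zero, Matrix.mul_smul, Units.inv_mul, Units.inv_mul_cancel_left]
        at h1
      simpa using (hind s (-1) (by simp [h1])).2
    · simp [← e', Matrix.add_mulVec, Matrix.smul_mulVec]
  · have key : ∀ g : GL _ F, glLin _ F g ∈ normRoot (Matrix.toLin' T) → ∀ x ∈ K,
        g.1 * x * (g⁻¹).1 ∈ K := by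
      rintro g ⟨s, t, -, hst⟩ x hx
      obtain ⟨a, b, rfl⟩ := hspan x hx
      have e : g.1 * T = s • g.1 + t • (T * g.1) :=
        matrix_ext_mulVec fun v => by simpa [Matrix.add_mulVec, Matrix.smul_mulVec] using hst v
      simp only [mul_add, add_mul, Matrix.mul_smul, Matrix.smul_mul, e, mul_one, Units.mul_inv,
        Units.mul_inv_cancel_right]
      exact K.add_mem (K.smul_mem K.one_mem _) (K.smul_mem (K.add_mem (K.smul_mem K.one_mem _)
        (K.smul_mem hT _)) _)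
    refine fun x => ⟨key g hg x, fun hx => ?_⟩
    simpa [mul_assoc] using key g⁻¹ (by rw [map_inv]; exact inv_mem hg) _ hx

end Cfsg.Lib.Class.SpGeo
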