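import Cfsg.Agent.Class.Tens.SpOMax

/-!
The stabiliser of a decomposition `Sp₂(3) ⊗ O₄⁻(3)` is maximal in `Sp₈(3)`.
-/

set_option autoImplicit false
set_option linter.unusedSectionVars false

namespace Cfsg.Lib.Class.Tn

open Module Form AO
open LinearMap (range ker)

section Abstract

variable {F U W V : Type*} [Field F] [AddCommGroup U] [Module F U] [AddCommGroup W] [Module F W]
  [AddCommGroup V] [Module F V] {X : Subgroup (V ≃ₗ[F] V)} {T : U →ₗ[F] W →ₗ[F] V}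
  {f : U →ₗ[F] U →ₗ[F] F} {h : W →ₗ[F] W →ₗ[F] F} {β : V →ₗ[F] V →ₗ[F] F}

/-- `s` is `-1` on the plane spanned by `a, b` and trivial on its orthogonal complement. -/
structure Bi (β : V →ₗ[F] V →ₗ[F] F) (s : V ≃ₗ[F] V) (a b : V) : Prop where
  ne : β a b ≠ 0
  l : s a = -a
  r : s b = -b
  fix : ∀ z, β a z = 0 → β b z = 0 → s z = z

theorem Bi.conj {s g : V ≃ₗ[F] V} {a b : V} (hs : Bi β s a b) (hg : g ∈ isomGroup β) :
    Bi β (g * s * g⁻¹) (g a) (g b) where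
  ne := by rw [iso hg]; exact hs.ne
  l := by simp [hs.l]
  r := by simp [hs.r]
  fix z h1 h2 := by
    obtain ⟨z, rfl⟩ := g.surjective z
    rw [iso hg] at h1 h2
    simp [hs.fix z h1 h2]

theorem Bi.neg {s : V ≃ₗ[F] V} {a b : V} (hs : Bi β s (-a) (-b)) : Bi β s a b where
  ne := by simpa using hs.ne
  l := by simpa [neg_eq_iff_eq_neg] using hs.l
  r := by simpa [neg_eq_iff_eq_neg] using hs.r
  fix z h1 h2 := hs.fix z (by simp [h1]) (by simp [h2])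

theorem Bi.apply {s : V ≃ₗ[F] V} {a b : V} (hs : Bi β s a b) (hβ : Hm β (-1)) (h2 : (2 : F) ≠ 0)
    (z : V) : s z = z - (2 / β a b) • (β a z • b - β b z • a) := by
  have := hs.ne
  have h1 := hs.fix (z - (1 / β a b) • (β a z • b - β b z • a))
    (by simp [hβ.alt h2]; field_simp; ring) (by simp [hβ.alt h2, hβ.skew b a]; field_simp; ring)
  simp only [map_sub, map_smul, hs.l, hs.r, sub_eq_iff_eq_add] at h1
  rw [h1]
  module

/-- An orthogonal frame of four non-singular vectors. -/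
structure Fr (h : W →ₗ[F] W →ₗ[F] F) (e₀ e₁ e₂ e₃ : W) : Prop where
  n0 : h e₀ e₀ ≠ 0
  n1 : h e₁ e₁ ≠ 0
  n2 : h e₂ e₂ ≠ 0
  n3 : h e₃ e₃ ≠ 0
  o01 : h e₀ e₁ = 0
  o02 : h e₀ e₂ = 0
  o03 : h e₀ e₃ = 0
  o12 : h e₁ e₂ = 0
  o13 : h e₁ e₃ = 0
  o23 : h e₂ e₃ = 0
  o10 : h e₁ e₀ = 0
  o20 : h e₂ e₀ = 0
  o30 : h e₃ e₀ = 0
  o21 : h e₂ e₁ = 0
  o31 : h e₃ e₁ = 0
  o32 : h e₃ e₂ = 0

section
variable {e₀ e₁ e₂ e₃ : W} (E : Fr h e₀ e₁ e₂ e₃)
include E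

theorem Fr.s01 : Fr h e₁ e₀ e₂ e₃ :=
  ⟨E.n1, E.n0, E.n2, E.n3, E.o10, E.o12, E.o13, E.o02, E.o03, E.o23, E.o01, E.o21, E.o31, E.o20,
    E.o30, E.o32⟩

theorem Fr.s12 : Fr h e₀ e₂ e₁ e₃ :=
  ⟨E.n0, E.n2, E.n1, E.n3, E.o02, E.o01, E.o03, E.o21, E.o23, E.o13, E.o20, E.o10, E.o30, E.o12,
    E.o32, E.o31⟩

theorem Fr.s23 : Fr h e₀ e₁ e₃ e₂ :=
  ⟨E.n0, E.n1, E.n3, E.n2, E.o01, E.o03, E.o02, E.o13, E.o12, E.o32, E.o10, E.o30, E.o20, E.o31,
    E.o21, E.o23⟩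

theorem Fr.span [FiniteDimensional F W] (hW : finrank F W = 4) (w : W) :
    ∃ a b c d : F, w = a • e₀ + b • e₁ + c • e₂ + d • e₃ := by
  have h1 : LinearIndependent F ![e₀, e₁, e₂, e₃] := by
    refine Fintype.linearIndependent_iff.2 fun g hg i => ?_
    simp only [Fin.sum_univ_four, Matrix.cons_val] at hg
    fin_cases i
    · simpa [E.n0, E.o01, E.o02, E.o03] using congrArg (h e₀) hg
    · simpa [E.n1, E.o10, E.o12, E.o13] using congrArg (h e₁) hg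
    · simpa [E.n2, E.o20, E.o21, E.o23] using congrArg (h e₂) hg
    · simpa [E.n3, E.o30, E.o31, E.o32] using congrArg (h e₃) hg
  have h2 := h1.span_eq_top_of_card_eq_finrank' (by simp [hW])
  obtain ⟨g, hg⟩ := (Submodule.mem_span_range_iff_exists_fun F).1 (h2 ▸ Submodule.mem_top (x := w))
  exact ⟨g 0, g 1, g 2, g 3, by simpa [Fin.sum_univ_four] using hg.symm⟩

end

/-- `y` maps `U ⊗ v` into `U ⊗ v'`. -/
def Mv (T : U →ₗ[F] W →ₗ[F] V) (y : V ≃ₗ[F] V) (v v' : W) : Prop :=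
  ∀ x, ∃ x', y (T x v) = T x' v'

theorem exists_dual_one {v : W} (hv : v ≠ 0) : ∃ η : Dual F W, η v = 1 :=
  (Module.Projective.exists_dual_eq_one F hv)

theorem Mv.equiv [FiniteDimensional F U] (hT : IsTens T) {y : V ≃ₗ[F] V} {v v' : W}
    (H : Mv T y v v') (hv : v ≠ 0) : ∃ A : U ≃ₗ[F] U, ∀ x, y (T x v) = T (A x) v' := by
  by_cases hv' : v' = 0
  · refine ⟨1, fun x => ?_⟩
    obtain ⟨x', e⟩ := H x
    simp [e, hv']
  obtain ⟨η, hη⟩ := exists_dual_one (F := F) hv'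
  have e : ∀ x, y (T x v) = T ((hT.cR η ∘ₗ y.toLinearMap ∘ₗ T.flip v) x) v' := fun x => by
    obtain ⟨x', e⟩ := H x
    simp [e, hη]
  refine ⟨LinearEquiv.ofInjectiveEndo (hT.cR η ∘ₗ y.toLinearMap ∘ₗ T.flip v)
    ((injective_iff_map_eq_zero _).2 fun x hx => ?_), e⟩
  have := e x
  rw [hx, LinearMap.map_zero₂, LinearEquiv.map_eq_zero_iff, hT.eq_zero_iff] at this
  exact this.resolve_right hv

theorem IsTens.par (hT : IsTens T) {k : V ≃ₗ[F] V} (hk : k ∈ tensG T) {v v' w w' : W} (hv : v ≠ 0)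
    (hw : w' ≠ 0) {A B : U → U} (hA : ∀ x, k (T x v) = T (A x) v')
    (hB : ∀ x, k (T x w) = T (B x) w') : ∃ c : F, ∀ x, B x = c • A x := by
  obtain ⟨a, b, e⟩ := hk
  obtain ⟨η, hη⟩ := exists_dual_one (F := F) (b.map_ne_zero_iff.2 hv)
  obtain ⟨θ, hθ⟩ := exists_dual_one (F := F) hw
  refine ⟨θ (b w) * η v', fun x => ?_⟩
  have h1 := congrArg (hT.cR η) ((e x v).symm.trans (hA x))
  have h2 := congrArg (hT.cR θ) ((e x w).symm.trans (hB x))
  simp only [IsTens.cR_apply, hη, hθ, one_smul] at h1 h2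
  rw [← h2, h1, smul_smul]

/-- An overgroup of `Sp₂(3) ⊗ O₄⁻(3)` other than `Sp₈(3)`. -/
structure S3 (T : U →ₗ[F] W →ₗ[F] V) (f : U →ₗ[F] U →ₗ[F] F) (h : W →ₗ[F] W →ₗ[F] F)
    (β : V →ₗ[F] V →ₗ[F] F) (X : Subgroup (V ≃ₗ[F] V)) : Prop extends SCtx T f h β X where
  tri : ∀ a : F, a = 0 ∨ a = 1 ∨ a = -1
  hU : finrank F U = 2
  hW : finrank F W = 4
  wi : Wi1 h
  nle : ¬ isomGroup β ≤ X

namespace S3

variable [FiniteDimensional F U] [FiniteDimensional F W] [Finite F] (c : S3 T f h β X)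
include c

theorem three : (3 : F) = 0 := by
  rcases c.tri 2 with e | e | e
  · exact absurd e c.two
  · exact absurd (by linear_combination e) (one_ne_zero (α := F))
  · linear_combination e

theorem alt (x : U) : f x x = 0 := c.hf.alt c.two x

theorem spanU {u u' : U} (hu : f u u' ≠ 0) (x : U) : ∃ a b : F, x = a • u + b • u' := by
  have := Submodule.eq_top_of_finrank_eq ((finrank_span_pair_eq (F := F) (p := u) (z := u')
    (fun e => by simp [e] at hu) fun a e => by simp [e, c.alt] at hu).trans c.hU.symm)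
  obtain ⟨a, b, e⟩ := Submodule.mem_span_pair.1 (this ▸ Submodule.mem_top (x := x))
  exact ⟨a, b, e.symm⟩

theorem pairU : ∃ u u', f u u' = 1 :=
  have : Nontrivial U := Module.nontrivial_of_finrank_pos (R := F) (by rw [c.hU]; omega)
  c.hf.exists_ne_pair

theorem dep {u v : U} (hu : u ≠ 0) (e : f u v = 0) : ∃ a : F, v = a • u := by
  obtain ⟨u', h1⟩ := c.hf.exists_eq_one hu
  obtain ⟨a, b, rfl⟩ := c.spanU (h1 ▸ one_ne_zero : f u u' ≠ 0) v
  exact ⟨a, by simp [show b = 0 by simpa [c.alt, h1] using e]⟩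

theorem cramer (a b x : U) : f a b • x = f x b • a - f x a • b := by
  obtain ⟨u, u', hu⟩ := c.pairU
  have hu' := hu ▸ one_ne_zero (α := F)
  obtain ⟨a1, a2, rfl⟩ := c.spanU hu' a
  obtain ⟨b1, b2, rfl⟩ := c.spanU hu' b
  obtain ⟨x1, x2, rfl⟩ := c.spanU hu' x
  simp only [map_add, map_smul, LinearMap.add_apply, LinearMap.smul_apply, c.alt, hu,
    c.hf.swap_one hu, smul_eq_mul]
  module

theorem eig_or_sq {q : U ≃ₗ[F] U} (hq : q ∈ isomGroup f) :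
    (∃ x, x ≠ 0 ∧ ∃ a : F, q x = a • x) ∨ ∀ x, q (q x) = -x := by
  obtain ⟨u, u', hu⟩ := c.pairU
  have hu0 : u ≠ 0 := fun e => by simp [e] at hu
  by_cases h1 : f u (q u) = 0
  · exact Or.inl ⟨u, hu0, c.dep hu0 h1⟩
  obtain ⟨a, b, e⟩ := c.spanU h1 (q (q u))
  obtain rfl : a = -1 := by
    have := iso hq u (q u)
    rw [e] at this
    simp only [map_add, map_smul, c.alt, c.hf.skew (q u) u, smul_eq_mul] at this
    exact mul_right_cancel₀ h1 (by linear_combination -this)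
  have h3 : ∀ x : U, (3 : F) • x = 0 := fun x => by simp [c.three]
  rcases c.tri b with rfl | rfl | rfl
  · refine Or.inr fun x => ?_
    obtain ⟨a, b, rfl⟩ := c.spanU h1 x
    simp only [map_add, map_smul, e]
    module
  · refine Or.inl ⟨q u + u, fun e => h1 (by simpa [c.alt] using congrArg (f u) e), -1, ?_⟩
    rw [map_add, e]
    linear_combination (norm := module) h3 (q u)
  · refine Or.inl ⟨q u - u, fun e => h1 (by simpa [c.alt] using congrArg (f u) e), 1, ?_⟩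
    rw [map_sub, e]
    linear_combination (norm := module) -h3 (q u)

theorem mem_line {y : V ≃ₗ[F] V} (hy : y ∈ X) {x x' : U} (hx : x ≠ 0) (hx' : x' ≠ 0)
    (H : ∀ w, ∃ w', y (T x w) = T x' w') : y ∈ tensG T := by
  obtain ⟨l, hl, e⟩ := SpB_exists_apply_eq c.hf.nondeg c.alt hx' hx
  refine (mul_mem_cancel_left (c.hT.mpE_mem l 1)).1 (c.mem_tensG_of_stab (Or.inl c.hW.ge) c.nle hx
    (mul_mem (c.mpE_mem hl (one_mem _)) hy) fun w => ?_)
  obtain ⟨w', e'⟩ := H w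
  exact ⟨w', by simp [e', e]⟩

theorem mem_of_pure {s : V ≃ₗ[F] V} (hs : s ∈ X) {a b : V} (hb : Bi β s a b) {α γ : F} {x : U}
    {w : W} (e : α • a + γ • b = T x w) (h0 : α ≠ 0 ∨ γ ≠ 0) : s ∈ tensG T := by
  have hx : x ≠ 0 := fun hx => by
    have h1 := congrArg (β a) e
    have h2 := congrArg (β b) e
    simp [hx, c.isAlt a, c.isAlt b, hb.ne, c.hβ.ne_comm hb.ne] at h1 h2
    simp [h1, h2] at h0
  refine c.mem_line hs hx hx fun w' => ?_
  have h1 : α * β a (T x w') + γ * β b (T x w') = 0 := by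
    simpa [c.tens, c.alt] using congrArg (β · (T x w')) e
  rw [hb.apply c.hβ c.two]
  rcases h0 with h0 | h0
  · refine ⟨w' + (2 / β a b * β b (T x w') / α) • w, ?_⟩
    rw [map_add, map_smul, ← e, show β a (T x w') = -(γ * β b (T x w') / α) by
      field_simp; linear_combination h1]
    match_scalars <;> field_simp
  · refine ⟨w' - (2 / β a b * β a (T x w') / γ) • w, ?_⟩
    rw [map_sub, map_smul, ← e, show β b (T x w') = -(α * β a (T x w') / γ) by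
      field_simp; linear_combination h1]
    match_scalars <;> field_simp

theorem pure_of_mem {s : V ≃ₗ[F] V} (hs : s ∈ tensG T) {a b : V} (hb : Bi β s a b) :
    ∃ v x y, a = T x v ∧ b = T y v := by
  have := c.hT.finiteDimensional
  obtain ⟨A, B, e⟩ := hs
  obtain ⟨t, ht⟩ := scalar_of_eigen (e := (A : End F U)) fun x => by
    obtain ⟨w, h0, h1, h2⟩ := finrank_ker_two' (by rw [c.hW]; omega) (β a ∘ₗ T x) (β b ∘ₗ T x)
    obtain ⟨η, hη⟩ := exists_dual_one (F := F) (B.map_ne_zero_iff.2 h0)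
    exact ⟨η w, by simpa [hη] using congrArg (c.hT.cR η) ((e x w).symm.trans (hb.fix _ h1 h2))⟩
  have h1 : ∀ z, c.hT.mp 1 (t • (B : End F W) - 1) z = s z - z := fun z =>
    LinearMap.congr_fun (c.hT.ext (a := c.hT.mp 1 _) (b := (s : End F V) - 1) fun x y => by
      simp [e, show A x = t • x from LinearMap.congr_fun ht x]) z
  have h2 : finrank F (range (c.hT.mp 1 (t • (B : End F W) - 1))) ≤ 2 :=
    (Submodule.finrank_mono (by
      rintro _ ⟨z, rfl⟩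
      exact Submodule.mem_span_pair.2 ⟨2 / β a b * β b z, -(2 / β a b * β a z), by
        rw [h1, hb.apply c.hβ c.two]; module⟩)).trans (Orth.finrank_span_pair_le (F := F) a b)
  rw [c.hT.finrank_range_mp, finrank_range_one, c.hU] at h2
  obtain ⟨v, hv⟩ := finrank_le_one_iff.1
    (show finrank F (range (t • (B : End F W) - 1)) ≤ 1 by omega)
  have h3 : ∀ z, s z = -z → ∃ x, z = T x v := fun z hz => by
    obtain ⟨x, -, hx⟩ := c.hT.mem_map₂_span_right.1 (c.hT.mp_mem (A := ⊤) (B := ⊤) (A' := ⊤)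
      (B' := Submodule.span F {(v : W)}) (a := 1) (b := t • (B : End F W) - 1) (fun _ _ => trivial)
      (fun y _ => let ⟨r, hr⟩ := hv ⟨_, y, rfl⟩
        Submodule.mem_span_singleton.2 ⟨r, congrArg Subtype.val hr⟩)
      (v := z) (c.hT.span ▸ trivial))
    refine ⟨(-2⁻¹ : F) • x, ?_⟩
    have := c.two
    rw [LinearMap.map_smul₂, hx, h1, hz]
    match_scalars
    field_simp
    norm_num
  obtain ⟨x, hx⟩ := h3 a hb.l
  obtain ⟨y, hy⟩ := h3 b hb.r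
  exact ⟨v, x, y, hx, hy⟩

theorem left' (x : U) (v : W) (z : V) : β (T x v) z = f x (c.hT.cR (h v) z) :=
  c.hT.ind (P := fun z => β (T x v) z = f x (c.hT.cR (h v) z)) (by simp)
    (fun a b ha hb => by simp [ha, hb]) (fun x y => by simp [c.tens, mul_comm]) z

theorem exists_t {v : W} (hv : h v v ≠ 0) : ∃ t ∈ X, t ∈ tensG T ∧
    (∀ z, t z = z - (2 / h v v) • T (c.hT.cR (h v) z) v) ∧
    ∀ x y, f x y ≠ 0 → Bi β t (T x v) (T y v) := by
  obtain ⟨r, hr, e, -⟩ := c.hh.exists_refl hv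
  have h1 : ∀ z, c.hT.mpE 1 r z = z - (2 / h v v) • T (c.hT.cR (h v) z) v := fun z =>
    c.hT.ind (P := fun z => c.hT.mpE 1 r z = z - (2 / h v v) • T (c.hT.cR (h v) z) v) (by simp)
      (fun a b ha hb => by simp only [map_add, ha, hb, LinearMap.add_apply]; module)
      (fun x y => by simp [e, smul_smul]) z
  have h2 : ∀ x, c.hT.mpE 1 r (T x v) = -T x v := fun x => by
    rw [h1]
    simp only [IsTens.cR_apply, LinearMap.map_smul₂]
    match_scalars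
    field_simp
    norm_num
  refine ⟨_, c.mpE_mem (one_mem _) hr, c.hT.mpE_mem _ _, h1, fun x y hxy =>
    ⟨by simp [c.tens, hxy, hv], h2 x, h2 y, fun z k1 k2 => ?_⟩⟩
  rw [c.left'] at k1 k2
  have := c.cramer x y (c.hT.cR (h v) z)
  rw [c.hf.comm k1, c.hf.comm k2] at this
  simp [h1, show c.hT.cR (h v) z = 0 by simpa [hxy] using this]

theorem not_sq {g : V ≃ₗ[F] V} (hg : g ∈ X) {e p : W} (he : h e e ≠ 0) (hp0 : p ≠ 0)
    (hp : h p p = 0) (hep : h e p = 0) {q : U ≃ₗ[F] U} (hq : q ∈ isomGroup f)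
    (h1 : ∀ x, g (T x e) = T (q x) e) (h2 : ∀ x, g (T x p) = T x p) : ¬ ∀ x, q (q x) = -x := by
  intro h3
  have hpe := c.hh.comm hep
  obtain ⟨u, u', hu⟩ := c.pairU
  have hu0 : u ≠ 0 := fun e => by simp [e] at hu
  have h4 : f u (q u) ≠ 0 := fun h0 => by
    obtain ⟨a, ha⟩ := c.dep hu0 h0
    have := h3 u
    rw [ha, map_smul, ha, smul_smul, ← neg_one_smul F u] at this
    have := smul_left_injective F hu0 this
    rcases c.tri a with rfl | rfl | rfl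
    · simp at this
    · exact c.two (by linear_combination this)
    · exact c.two (by linear_combination this)
  obtain ⟨l, hl, e1⟩ := c.hf.exists_tv (c.alt u) (c := (f u (q u))⁻¹) (by simp)
  have l1 : l u = u := by simp [e1, c.alt]
  have l2 : l (q u) = q u + u := by simp [e1, h4]
  have l3 : l.symm u = u := by rw [LinearEquiv.symm_apply_eq, l1]
  have l4 : l.symm (q u) = q u - u := by rw [LinearEquiv.symm_apply_eq]; simp [l1, l2]
  have g1 : ∀ x, g.symm (T x e) = T (q.symm x) e := fun x => by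
    rw [LinearEquiv.symm_apply_eq, h1, q.apply_symm_apply]
  have g2 : ∀ x, g.symm (T x p) = T x p := fun x => by rw [LinearEquiv.symm_apply_eq, h2]
  obtain ⟨r, hr, -, e2, -⟩ := c.exists_t (v := e - p) (by simpa [hp, hep, hpe])
  have z3 : ∀ z : V, (3 : F) • z = 0 := fun z => by simp [c.three]
  have r1 : ∀ x, r (T x e) = -T x e - T x p := fun x => by
    simp only [e2, IsTens.cR_apply, map_sub, LinearMap.sub_apply, hp, hep, hpe, sub_zero,
      LinearMap.map_smul₂, ← smul_sub, smul_smul, div_mul_cancel₀ _ he]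
    linear_combination (norm := module) z3 (T x p)
  have r2 : ∀ x, r (T x p) = T x p := fun x => by simp [e2, hp, hep]
  obtain ⟨t, ht, -, -, e3⟩ := c.exists_t (v := e + p) (by simpa [hp, hep, hpe])
  have hL := c.mpE_mem hl.1 (one_mem _)
  obtain ⟨z, hz, k1, k2⟩ : ∃ z ∈ X, (∀ x, z (T x e) = -T (l (q (l.symm x))) e - T x p) ∧
      ∀ x, z (T x p) = T (q x) p :=
    ⟨_, mul_mem (mul_mem (mul_mem (mul_mem hL hg) (inv_mem hL)) hr)
      (mul_mem (c.mpE_mem hq (one_mem _)) (inv_mem hg)),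
      fun x => by rw [IsTens.mpE_inv, inv_one]; simp [g1, r1, h1, h2],
      fun x => by rw [IsTens.mpE_inv, inv_one]; simp [g2, r2, h2]⟩
  have h5 := (e3 (u + q u) (u - q u) (by
    simpa [c.alt, c.hf.skew (q u) u, ← neg_add, sub_eq_add_neg, ← two_mul, c.two] using h4)).conj
      (c.le hz)
  replace hz := mul_mem (mul_mem hz ht) (inv_mem hz)
  have k3 : z (T (u + q u) (e + p)) = T u (e + p) := by
    simp only [map_add, map_sub, LinearMap.add_apply, k1, k2, l1, l2, l3, l4, h3, map_neg,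
      LinearMap.sub_apply, LinearMap.neg_apply]
    linear_combination (norm := module) -z3 (T u p)
  have k4 : z (T (u - q u) (e + p)) = T (q u) (e - p) := by
    simp only [map_add, map_sub, LinearMap.add_apply, k1, k2, l1, l2, l3, l4, h3, map_neg,
      LinearMap.sub_apply, LinearMap.neg_apply]
    linear_combination (norm := module) -z3 (T u e) - z3 (T (q u) e) + z3 (T (q u) p)
  rw [k3, k4] at h5
  obtain ⟨v, x, y, hx, hy⟩ := c.pure_of_mem
    (c.mem_of_pure hz h5 (α := 1) (γ := 0) (x := u) (w := e + p) (by simp) (by simp)) h5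
  have k5 := congrArg (c.hT.cL (f (q u))) hx
  have k6 := congrArg (c.hT.cL (f u)) hy
  simp only [IsTens.cL_apply, c.hf.skew (q u) u] at k5 k6
  have k7 : (2 * f u (q u)) • p = (-f (q u) x - f u y) • v := by
    linear_combination (norm := module) -k5 - k6
  have k8 := congrArg (h e) k7
  have k9 := congrArg (h e) k6
  simp only [map_smul, map_sub, hep, smul_eq_mul, mul_zero, sub_zero] at k8 k9
  rw [(mul_eq_zero.1 k8.symm).resolve_right fun h0 => by simp [h0, he, h4] at k9] at k7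
  simp [c.two, h4, hp0] at k7

theorem swapq {e₀ e₁ e₂ e₃ : W} (E : Fr h e₀ e₁ e₂ e₃) (h12 : h e₂ e₂ = h e₁ e₁)
    (h03 : h e₀ e₀ = -h e₃ e₃) {y : V ≃ₗ[F] V} (hy : y ∈ X) {A₀ A₁ A₂ A₃ : U ≃ₗ[F] U}
    (a0 : ∀ x, y (T x e₀) = T (A₀ x) e₀) (a1 : ∀ x, y (T x e₁) = T (A₁ x) e₁)
    (a2 : ∀ x, y (T x e₂) = T (A₂ x) e₂) (a3 : ∀ x, y (T x e₃) = T (A₃ x) e₃) :
    ∃ a : F, ∀ x, A₁ x = a • A₂ x := by
  obtain ⟨s, hs, -, e2, -⟩ := c.exists_t (v := e₁ - e₂)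
    (by simpa [E.o12, E.o21, h12, ← two_mul, c.two] using E.n1)
  have k : 2 / h (e₁ - e₂) (e₁ - e₂) * h e₁ e₁ = 1 := by
    have := c.two
    have := E.n1
    simp [E.o12, E.o21, h12, ← two_mul]
    field_simp
  have s0 : ∀ x, s (T x e₀) = T x e₀ := fun x => by simp [e2, E.o10, E.o20]
  have s3 : ∀ x, s (T x e₃) = T x e₃ := fun x => by simp [e2, E.o13, E.o23]
  have s1 : ∀ x, s (T x e₁) = T x e₂ := fun x => by
    rw [e2, IsTens.cR_apply, LinearMap.map_smul₂, smul_smul,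
      show h (e₁ - e₂) e₁ = h e₁ e₁ by simp [E.o21], k]
    simp
  have s2 : ∀ x, s (T x e₂) = T x e₁ := fun x => by
    rw [e2, IsTens.cR_apply, LinearMap.map_smul₂, smul_smul,
      show h (e₁ - e₂) e₂ = -h e₁ e₁ by simp [E.o12, h12], mul_neg, k]
    simp
  have b : ∀ {A : U ≃ₗ[F] U} {e : W}, (∀ x, y (T x e) = T (A x) e) →
      ∀ x, y.symm (T x e) = T (A.symm x) e := fun a x => by
    rw [LinearEquiv.symm_apply_eq, a, LinearEquiv.apply_symm_apply]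
  have i : ∀ {A : U ≃ₗ[F] U} {e : W}, h e e ≠ 0 → (∀ x, y (T x e) = T (A x) e) →
      A ∈ isomGroup f := fun he a x x' => mul_right_cancel₀ he (by
    rw [← c.tens, ← c.tens, ← a, ← a, iso (c.le hy)])
  obtain ⟨z, hz, k0, k1, k2, k3⟩ : ∃ z ∈ X, (∀ x, z (T x e₀) = T x e₀) ∧
      (∀ x, z (T x e₁) = T ((A₁ * A₂⁻¹) x) e₁) ∧ (∀ x, z (T x e₂) = T ((A₁ * A₂⁻¹)⁻¹ x) e₂) ∧
      ∀ x, z (T x e₃) = T x e₃ :=
    ⟨_, mul_mem (mul_mem (mul_mem hy hs) (inv_mem hy)) hs, fun x => by simp [s0, a0, b a0],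
      fun x => by simp [s1, s2, a1, b a2], fun x => by simp [s1, s2, a2, b a1],
      fun x => by simp [s3, a3, b a3]⟩
  have hq := mul_mem (i E.n1 a1) (inv_mem (i E.n2 a2))
  obtain ⟨x, hx, a, ha⟩ := (c.eig_or_sq hq).resolve_right (c.not_sq hz E.n1 (p := e₀ + e₃)
    (fun e => E.n0 (by simpa [E.o03] using congrArg (h e₀) e))
    (by simp [E.o03, E.o30, h03]) (by simp [E.o10, E.o13]) hq k1 fun x => by simp [k0, k3])
  have ha0 : a ≠ 0 := fun e => hx (by simpa [e] using ha)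
  have hb : (A₁ * A₂⁻¹)⁻¹ x = a⁻¹ • x := by
    rw [LinearEquiv.coe_inv, LinearEquiv.symm_apply_eq, map_smul, ha, inv_smul_smul₀ ha0]
  obtain ⟨r, hr⟩ := c.hT.par (c.mem_line hz hx hx fun w => by
    obtain ⟨a0, a1, a2, a3, rfl⟩ := E.span c.hW w
    exact ⟨a0 • e₀ + a1 • a • e₁ + a2 • a⁻¹ • e₂ + a3 • e₃, by
      simp only [map_add, map_smul, k0, k1, k2, k3, ha, hb, LinearMap.smul_apply]⟩)
    (fun e => by simpa [e] using E.n0) (fun e => by simpa [e] using E.n1) k0 k1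
  exact ⟨r, fun x => by simpa using hr (A₂ x)⟩

theorem exists_sgn {e₀ e₁ e₂ e₃ : W} (E : Fr h e₀ e₁ e₂ e₃) {a : F} (ha : a ≠ 0) :
    ∃ d ∈ X, d ∈ tensG T ∧ (∀ x, d (T x e₀) = T x e₀) ∧ (∀ x, d (T x e₁) = T x e₁) ∧
      (∀ x, d (T x e₂) = T x e₂) ∧ ∀ x, a • d (T x e₃) = T x e₃ := by
  rcases c.tri a with rfl | rfl | rfl
  · exact absurd rfl ha
  · exact ⟨1, one_mem _, one_mem _, by simp⟩
  obtain ⟨s, hs, hs', e, -⟩ := c.exists_t E.n3
  refine ⟨s, hs, hs', fun x => by simp [e, E.o30], fun x => by simp [e, E.o31],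
    fun x => by simp [e, E.o32], fun x => ?_⟩
  rw [e, IsTens.cR_apply, LinearMap.map_smul₂, smul_smul, div_mul_cancel₀ _ E.n3]
  module

theorem mem_of_diag' {e₀ e₁ e₂ e₃ : W} (E : Fr h e₀ e₁ e₂ e₃) (h1 : h e₀ e₀ = -h e₁ e₁)
    (h2 : h e₂ e₂ = h e₁ e₁) (h3 : h e₃ e₃ = h e₁ e₁) {y : V ≃ₗ[F] V} (hy : y ∈ X)
    (m0 : Mv T y e₀ e₀) (m1 : Mv T y e₁ e₁) (m2 : Mv T y e₂ e₂) (m3 : Mv T y e₃ e₃) :
    y ∈ tensG T := by
  obtain ⟨A₀, a0⟩ := m0.equiv c.hT fun e => by simpa [e] using E.n0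
  obtain ⟨A₁, a1⟩ := m1.equiv c.hT fun e => by simpa [e] using E.n1
  obtain ⟨A₂, a2⟩ := m2.equiv c.hT fun e => by simpa [e] using E.n2
  obtain ⟨A₃, a3⟩ := m3.equiv c.hT fun e => by simpa [e] using E.n3
  obtain ⟨r, hr⟩ := c.swapq E.s12 h2.symm (h1.trans (by rw [h3])) hy a0 a2 a1 a3
  obtain ⟨s, hs⟩ := c.swapq E.s23.s12 h3.symm (h1.trans (by rw [h2])) hy a0 a3 a1 a2
  obtain ⟨u, u', hu⟩ := c.pairU
  have hu0 : u ≠ 0 := fun e => by simp [e] at hu
  obtain ⟨d, hd, hd', d0, d1, d3, d2⟩ := c.exists_sgn E.s23 (a := r)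
    fun e => hu0 (by simpa [e] using hr u)
  obtain ⟨d', he, he', e0, e1, e2, e3⟩ := c.exists_sgn E (a := s)
    fun e => hu0 (by simpa [e] using hs u)
  have i : ∀ {A : U ≃ₗ[F] U} {e : W}, h e e ≠ 0 → (∀ x, y (T x e) = T (A x) e) →
      A ∈ isomGroup f := fun he a x x' => mul_right_cancel₀ he (by
    rw [← c.tens, ← c.tens, ← a, ← a, iso (c.le hy)])
  have hz := mul_mem (mul_mem (mul_mem hd he) hy) (c.mpE_mem (inv_mem (i E.n1 a1)) (one_mem _))
  rw [← mul_mem_cancel_left (mul_mem hd' he'), ← mul_mem_cancel_right (c.hT.mpE_mem A₁⁻¹ 1)]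
  obtain ⟨k0, k1, k2, k3⟩ : (∀ x, (d * d' * y * c.hT.mpE A₁⁻¹ 1) (T x e₀) =
      T ((A₀ * A₁⁻¹) x) e₀) ∧ (∀ x, (d * d' * y * c.hT.mpE A₁⁻¹ 1) (T x e₁) = T x e₁) ∧
      (∀ x, (d * d' * y * c.hT.mpE A₁⁻¹ 1) (T x e₂) = T x e₂) ∧
      ∀ x, (d * d' * y * c.hT.mpE A₁⁻¹ 1) (T x e₃) = T x e₃ :=
    ⟨fun x => by simp [a0, d0, e0], fun x => by simp [a1, d1, e1],
      fun x => by simp [a2, hr, e2, d2], fun x => by
        simp [a3, hs, ← map_smul d, e3, d3, -map_smul, LinearMap.map_smul₂, map_smul d']⟩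
  generalize d * d' * y * c.hT.mpE A₁⁻¹ 1 = z at *
  have hq := mul_mem (i E.n0 a0) (inv_mem (i E.n1 a1))
  obtain ⟨x, hx, a, ha⟩ := (c.eig_or_sq hq).resolve_right (c.not_sq hz E.n0 (p := e₁ + e₂ + e₃)
    (fun e => E.n1 (by simpa [E.o12, E.o13] using congrArg (h e₁) e))
    (by
      simp only [map_add, LinearMap.add_apply, E.o12, E.o13, E.o23, E.o21, E.o31, E.o32, h2, h3]
      linear_combination h e₁ e₁ * c.three)
    (by simp [E.o01, E.o02, E.o03]) hq k0 fun x => by simp [k1, k2, k3])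
  refine c.mem_line hz hx hx fun w => ?_
  obtain ⟨a0, a1, a2, a3, rfl⟩ := E.span c.hW w
  exact ⟨a0 • a • e₀ + a1 • e₁ + a2 • e₂ + a3 • e₃, by
    simp only [map_add, map_smul, k0, k1, k2, k3, ha, LinearMap.smul_apply]⟩

theorem eq_or_neg {a b : F} (ha : a ≠ 0) (hb : b ≠ 0) : a = b ∨ a = -b := by
  rcases c.tri a with rfl | rfl | rfl <;> rcases c.tri b with rfl | rfl | rfl <;> simp at *

theorem noA {e₀ e₁ e₂ e₃ : W} (E : Fr h e₀ e₁ e₂ e₃) (h1 : h e₁ e₁ = h e₀ e₀)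
    (h2 : h e₂ e₂ = h e₀ e₀) (h3 : h e₃ e₃ = h e₀ e₀) : False := by
  obtain ⟨a, ha⟩ := c.wi.eq_smul c.hh (e₀ + e₁ + e₂) (e₁ - e₂ + e₃)
    (fun e => E.n0 (by simpa [E.o01, E.o02] using congrArg (h e₀) e))
    (by
      simp only [map_add, LinearMap.add_apply, E.o01, E.o02, E.o12, E.o10, E.o20, E.o21, h1, h2]
      linear_combination h e₀ e₀ * c.three)
    (by
      simp only [map_add, map_sub, LinearMap.add_apply, LinearMap.sub_apply, E.o12, E.o13, E.o23,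
        E.o21, E.o31, E.o32, h1, h2, h3]
      linear_combination h e₀ e₀ * c.three)
    (by simp [E.o01, E.o02, E.o03, E.o12, E.o13, E.o21, E.o23, h1, h2])
  simpa [E.o30, E.o31, E.o32, E.n3] using congrArg (h e₃) ha

theorem noB {e₀ e₁ e₂ e₃ : W} (E : Fr h e₀ e₁ e₂ e₃) (h1 : h e₁ e₁ = -h e₀ e₀)
    (h3 : h e₃ e₃ = -h e₂ e₂) : False := by
  obtain ⟨a, ha⟩ := c.wi.eq_smul c.hh (e₀ + e₁) (e₂ + e₃)
    (fun e => E.n0 (by simpa [E.o01] using congrArg (h e₀) e))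
    (by simp [E.o01, E.o10, h1]) (by simp [E.o23, E.o32, h3])
    (by simp [E.o02, E.o03, E.o12, E.o13])
  simpa [E.o30, E.o31, E.o32, E.n3] using congrArg (h e₃) ha

theorem mem_of_diag {e₀ e₁ e₂ e₃ : W} (E : Fr h e₀ e₁ e₂ e₃) {y : V ≃ₗ[F] V} (hy : y ∈ X)
    (m0 : Mv T y e₀ e₀) (m1 : Mv T y e₁ e₁) (m2 : Mv T y e₂ e₂) (m3 : Mv T y e₃ e₃) :
    y ∈ tensG T := by
  rcases c.eq_or_neg E.n1 E.n0 with h1 | h1 <;> rcases c.eq_or_neg E.n3 E.n2 with h3 | h3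
  · rcases c.eq_or_neg E.n2 E.n0 with h2 | h2
    · exact (c.noA E h1 h2 (h3.trans h2)).elim
    · exact (c.noB E.s12 h2 (by rw [h3, h2, h1])).elim
  · rcases c.eq_or_neg E.n2 E.n0 with h2 | h2
    · exact c.mem_of_diag' E.s23.s12.s01 (by rw [h3, h2]) h1 h2 hy m3 m0 m1 m2
    · exact c.mem_of_diag' E.s12.s01 h2 h1 (by rw [h3, h2, neg_neg]) hy m2 m0 m1 m3
  · rcases c.eq_or_neg E.n2 E.n0 with h2 | h2
    · exact c.mem_of_diag' E.s01 h1 h2 (h3.trans h2) hy m1 m0 m2 m3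
    · exact c.mem_of_diag' E (by rw [h1, neg_neg]) (by rw [h1, h2]) (by rw [h1, h3, h2]) hy
        m0 m1 m2 m3
  · exact (c.noB E h1 h3).elim

theorem mem_of_mv {e₀ e₁ e₂ e₃ : W} (E : Fr h e₀ e₁ e₂ e₃) {y : V ≃ₗ[F] V} (hy : y ∈ X)
    (m0 : ∃ e, Mv T y e₀ e) (m1 : ∃ e, Mv T y e₁ e) (m2 : ∃ e, Mv T y e₂ e)
    (m3 : ∃ e, Mv T y e₃ e) : y ∈ tensG T := by
  obtain ⟨g₀, m0⟩ := m0
  obtain ⟨g₁, m1⟩ := m1
  obtain ⟨g₂, m2⟩ := m2
  obtain ⟨g₃, m3⟩ := m3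
  obtain ⟨A₀, a0⟩ := m0.equiv c.hT fun e => by simpa [e] using E.n0
  obtain ⟨A₁, a1⟩ := m1.equiv c.hT fun e => by simpa [e] using E.n1
  obtain ⟨A₂, a2⟩ := m2.equiv c.hT fun e => by simpa [e] using E.n2
  obtain ⟨A₃, a3⟩ := m3.equiv c.hT fun e => by simpa [e] using E.n3
  obtain ⟨u, u', hu⟩ := c.pairU
  have hu0 : u ≠ 0 := fun e => by simp [e] at hu
  have n : ∀ {A : U ≃ₗ[F] U} {e g : W}, (∀ x, y (T x e) = T (A x) g) → h e e ≠ 0 → h g g ≠ 0 :=
    fun {A e g} a he h0 => he (by simpa [a, c.tens, h0, hu] using (iso (c.le hy) (T u e) (T u' e)).symm)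
  have o : ∀ {A A' : U ≃ₗ[F] U} {e g e' g' : W}, (∀ x, y (T x e) = T (A x) g) →
      (∀ x, y (T x e') = T (A' x) g') → h e e' = 0 → h g g' = 0 := fun {A A' e g e' g'} a a' he => by
    simpa [a, a', c.tens, he, hu] using iso (c.le hy) (T (A.symm u) e) (T (A'.symm u') e')
  have G : Fr h g₀ g₁ g₂ g₃ := ⟨n a0 E.n0, n a1 E.n1, n a2 E.n2, n a3 E.n3, o a0 a1 E.o01,
    o a0 a2 E.o02, o a0 a3 E.o03, o a1 a2 E.o12, o a1 a3 E.o13, o a2 a3 E.o23, o a1 a0 E.o10,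
    o a2 a0 E.o20, o a3 a0 E.o30, o a2 a1 E.o21, o a3 a1 E.o31, o a3 a2 E.o32⟩
  obtain ⟨l, hl, e1⟩ := c.hf.exists_tv (c.alt u) (c := 1) (by simp)
  have b : ∀ {A : U ≃ₗ[F] U} {e g : W}, (∀ x, y (T x e) = T (A x) g) →
      ∀ x, (y * c.hT.mpE l 1 * y⁻¹) (T x g) = T (A (l (A.symm x))) g := fun {A e g} a x => by
    obtain ⟨x, rfl⟩ := A.surjective x
    rw [← a]
    simp only [LinearEquiv.mul_apply, LinearEquiv.coe_inv, LinearEquiv.symm_apply_apply]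
    simp [a]
  have hk := c.mem_of_diag G (mul_mem (mul_mem hy (c.mpE_mem hl.1 (one_mem _))) (inv_mem hy))
    (fun x => ⟨_, b a0 x⟩) (fun x => ⟨_, b a1 x⟩) (fun x => ⟨_, b a2 x⟩) fun x => ⟨_, b a3 x⟩
  have p : ∀ {A : U ≃ₗ[F] U} {e g : W}, (∀ x, y (T x e) = T (A x) g) → h g g ≠ 0 →
      ∃ r : F, A u = r • A₀ u := fun {A e g} a hg => by
    obtain ⟨r, hr⟩ := c.hT.par hk (fun e => by simpa [e] using G.n0)
      (fun e => by simp [e] at hg) (b a0) (b a)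
    obtain ⟨w, hw⟩ := A.surjective (A₀ u)
    have h1 : l w = r • w := A.injective (by
      have := hr (A₀ u)
      rw [A₀.symm_apply_apply, show l u = u by simp [e1, c.alt], ← hw, A.symm_apply_apply] at this
      rw [this, map_smul])
    have h2 : f u w = 0 := by_contra fun h2 => by
      obtain rfl : r = 1 := mul_right_cancel₀ h2 (by simpa [e1, c.alt] using (congrArg (f u) h1).symm)
      simp [e1, h2, hu0] at h1
    obtain ⟨s, rfl⟩ := c.dep hu0 h2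
    have hs : s ≠ 0 := fun e => hu0 (by simpa [e] using hw.symm)
    exact ⟨s⁻¹, by rw [← hw, map_smul, inv_smul_smul₀ hs]⟩
  obtain ⟨r1, h1⟩ := p a1 G.n1
  obtain ⟨r2, h2⟩ := p a2 G.n2
  obtain ⟨r3, h3⟩ := p a3 G.n3
  refine c.mem_line hy hu0 (A₀.map_ne_zero_iff.2 hu0) fun w => ?_
  obtain ⟨b0, b1, b2, b3, rfl⟩ := E.span c.hW w
  exact ⟨b0 • g₀ + b1 • r1 • g₁ + b2 • r2 • g₂ + b3 • r3 • g₃, by
    simp only [map_add, map_smul, a0, a1, a2, a3, h1, h2, h3, LinearMap.smul_apply]⟩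

theorem exists_mv {y : V ≃ₗ[F] V} (hy : y ∈ X) {e : W} (he : h e e ≠ 0)
    (H : ∀ s ∈ X, ∀ x x', Bi β s (y (T x e)) (y (T x' e)) → s ∈ tensG T) : ∃ g, Mv T y e g := by
  obtain ⟨u, u', hu⟩ := c.pairU
  have hu' := hu ▸ one_ne_zero (α := F)
  obtain ⟨t, ht, -, -, e1⟩ := c.exists_t he
  have h1 := (e1 u u' hu').conj (c.le hy)
  obtain ⟨v, x, x', h2, h3⟩ := c.pure_of_mem
    (H _ (mul_mem (mul_mem hy ht) (inv_mem hy)) _ _ h1) h1
  refine ⟨v, fun z => ?_⟩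
  obtain ⟨a, b, rfl⟩ := c.spanU hu' z
  exact ⟨a • x + b • x', by simp [h2, h3]⟩

theorem exists_orth {a b d : W} (ha : a = 0 ∨ h a a ≠ 0) (hb : b = 0 ∨ h b b ≠ 0)
    (hd : d = 0 ∨ h d d ≠ 0) (hab : h a b = 0) (had : h a d = 0) (hbd : h b d = 0) :
    ∃ e, h e e ≠ 0 ∧ h a e = 0 ∧ h b e = 0 ∧ h d e = 0 := by
  by_contra! hc
  obtain ⟨u, h1, h2⟩ := Hm.exists_orth_notMem (B := h) [a, b, d] ⊥ (by simp [c.hW])
  simp only [List.mem_cons, List.not_mem_nil, or_false, forall_eq_or_imp, forall_eq] at h1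
  have h3 : ∀ e, h a e = 0 → h b e = 0 → h d e = 0 → h e e = 0 := fun e k1 k2 k3 =>
    by_contra fun k => hc e k k1 k2 k3
  have h4 : ∀ {x : W}, x = 0 ∨ h x x ≠ 0 → ∀ z, h x z / h x x * h x x = h x z := fun hx z => by
    rcases hx with rfl | hx
    · simp
    · exact div_mul_cancel₀ _ hx
  refine h2 (c.hh.sep u fun z => ?_)
  have k1 : h a (z - (h a z / h a a) • a - (h b z / h b b) • b - (h d z / h d d) • d) = 0 := by
    simp [h4 ha, hab, had]
  have k2 : h b (z - (h a z / h a a) • a - (h b z / h b b) • b - (h d z / h d d) • d) = 0 := by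
    simp [h4 hb, c.hh.comm hab, hbd]
  have k3 : h d (z - (h a z / h a a) • a - (h b z / h b b) • b - (h d z / h d d) • d) = 0 := by
    simp [h4 hd, c.hh.comm had, c.hh.comm hbd]
  have k4 : h u (z - (h a z / h a a) • a - (h b z / h b b) • b - (h d z / h d d) • d) = h u z := by
    simp [c.hh.comm h1.1, c.hh.comm h1.2.1, c.hh.comm h1.2.2]
  generalize z - (h a z / h a a) • a - (h b z / h b b) • b - (h d z / h d d) • d = w at *
  have k5 := h3 (u + w) (by simp [h1.1, k1]) (by simp [h1.2.1, k2]) (by simp [h1.2.2, k3])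
  simp only [map_add, LinearMap.add_apply, h3 u h1.1 h1.2.1 h1.2.2, h3 w k1 k2 k3,
    c.hh.symm w u, k4] at k5
  exact mul_left_cancel₀ c.two (by linear_combination k5)

theorem exists_fr {a b : W} (ha : h a a ≠ 0) (hb : h b b ≠ 0) (hab : h a b = 0) :
    ∃ d e, Fr h a b d e := by
  obtain ⟨d, h1, h2, h3, -⟩ := c.exists_orth (d := 0) (Or.inr ha) (Or.inr hb) (Or.inl rfl) hab
    (by simp) (by simp)
  obtain ⟨e, h4, h5, h6, h7⟩ := c.exists_orth (Or.inr ha) (Or.inr hb) (Or.inr h1) hab h2 h3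
  exact ⟨d, e, ha, hb, h1, h4, hab, h2, h5, h3, h6, h7, c.hh.comm hab, c.hh.comm h2, c.hh.comm h5,
    c.hh.comm h3, c.hh.comm h6, c.hh.comm h7⟩

theorem exists_fr' {a : W} (ha : h a a ≠ 0) : ∃ b d e, Fr h a b d e := by
  obtain ⟨b, h1, h2, -⟩ := c.exists_orth (b := 0) (d := 0) (Or.inr ha) (Or.inl rfl) (Or.inl rfl)
    (by simp) (by simp) (by simp)
  exact ⟨b, c.exists_fr ha h1 h2⟩

theorem dec {e₀ e₁ e₂ e₃ : W} (E : Fr h e₀ e₁ e₂ e₃) (z : V) :
    z = T ((h e₀ e₀)⁻¹ • c.hT.cR (h e₀) z) e₀ + T ((h e₁ e₁)⁻¹ • c.hT.cR (h e₁) z) e₁ +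
      T ((h e₂ e₂)⁻¹ • c.hT.cR (h e₂) z) e₂ + T ((h e₃ e₃)⁻¹ • c.hT.cR (h e₃) z) e₃ := by
  induction z using c.hT.ind with
  | h0 => simp
  | hadd u v hu hv =>
    simp only [map_add, smul_add, LinearMap.add_apply]
    linear_combination (norm := module) hu + hv
  | hT x y =>
    obtain ⟨a0, a1, a2, a3, rfl⟩ := E.span c.hW y
    simp [E.n0, E.n1, E.n2, E.n3, E.o01, E.o02, E.o03, E.o12, E.o13, E.o23, E.o10, E.o20, E.o30,
      E.o21, E.o31, E.o32, smul_smul, mul_left_comm]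

theorem mv_of_fix {s : V ≃ₗ[F] V} {a b : V} (hb : Bi β s a b) {v : W}
    (h1 : c.hT.cR (h v) a = 0) (h2 : c.hT.cR (h v) b = 0) : Mv T s v v := fun x =>
  ⟨x, hb.fix _ (c.hβ.comm (by simp [c.left', h1])) (c.hβ.comm (by simp [c.left', h2]))⟩

theorem orth_of_mv {y : V ≃ₗ[F] V} (hy : y ∈ X) {v w : W} (hv : h v v ≠ 0) (m : Mv T y v v)
    (hw : h v w = 0) (x : U) : c.hT.cR (h v) (y (T x w)) = 0 := by
  obtain ⟨A, a⟩ := m.equiv c.hT fun e => by simp [e] at hv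
  refine c.hf.sep' _ fun u => ?_
  obtain ⟨u, rfl⟩ := A.surjective u
  rw [← c.left', ← a, iso (c.le hy), c.tens, hw, mul_zero]

theorem bi2 {e₀ e₁ e₂ e₃ : W} (E : Fr h e₀ e₁ e₂ e₃) {s : V ≃ₗ[F] V} (hs : s ∈ X) {a b : V}
    (hb : Bi β s a b) (a0 : c.hT.cR (h e₀) a = 0) (b0 : c.hT.cR (h e₀) b = 0)
    (a1 : c.hT.cR (h e₁) a = 0) (b1 : c.hT.cR (h e₁) b = 0) : s ∈ tensG T := by
  have m0 := c.mv_of_fix hb a0 b0
  have m1 := c.mv_of_fix hb a1 b1
  have ea := c.dec E a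
  have eb := c.dec E b
  simp only [a0, a1, b0, b1, smul_zero, LinearMap.map_zero₂, zero_add] at ea eb
  generalize (h e₂ e₂)⁻¹ • c.hT.cR (h e₂) a = a2, (h e₃ e₃)⁻¹ • c.hT.cR (h e₃) a = a3,
    (h e₂ e₂)⁻¹ • c.hT.cR (h e₂) b = b2, (h e₃ e₃)⁻¹ • c.hT.cR (h e₃) b = b3 at ea eb
  clear a0 a1 b0 b1
  subst ea eb
  have key : ∀ {e e' : W} {a a' b b' : U}, Bi β s (T a e + T a' e') (T b e + T b' e') →
      f a b = 0 → s ∈ tensG T := fun {e e' a a' b b'} hb h0 => by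
    by_cases ha : a = 0
    · exact c.mem_of_pure hs hb (α := 1) (γ := 0) (x := a') (w := e') (by simp [ha]) (by simp)
    · obtain ⟨r, rfl⟩ := c.dep ha h0
      exact c.mem_of_pure hs hb (α := -r) (γ := 1) (x := b' - r • a') (w := e') (by
        simp only [map_sub, map_smul, LinearMap.sub_apply, LinearMap.smul_apply]
        module) (by simp)
  have key2 : ∀ {e e' : W} {a a' b b' : U}, Bi β s (T a e + T a' e') (T b e + T b' e') →
      h e e' = 0 → h e' e = 0 → f a b * h e e = f a' b' * h e' e' → ∃ g, Mv T s e g :=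
    fun {e e' a a' b b'} hb k1 k2 k3 => ⟨e', fun x =>
      ⟨-(2 / (2 * (f a b * h e e)) * h e e) • (f a x • b' - f b x • a'), by
        have k4 := hb.ne
        have k5 : β (T a e + T a' e') (T b e + T b' e') = 2 * (f a b * h e e) := by
          simp [c.tens, k1, k2, ← k3, two_mul]
        rw [k5] at k4
        have k6 : f a b * h e e ≠ 0 := right_ne_zero_of_mul k4
        have k7 := congrArg (fun z => (f a b)⁻¹ • T z e) (c.cramer a b x)
        simp only [LinearMap.map_smul₂, inv_smul_smul₀ (left_ne_zero_of_mul k6)] at k7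
        rw [hb.apply c.hβ c.two, k5]
        nth_rw 1 [k7]
        simp only [map_add, map_sub, map_smul, LinearMap.add_apply, LinearMap.sub_apply,
          LinearMap.smul_apply, c.tens, k2, c.hf.skew x b, c.hf.skew x a]
        have := c.two
        have := left_ne_zero_of_mul k6
        have := right_ne_zero_of_mul k6
        match_scalars <;> field_simp <;> ring⟩⟩
  have hb' := hb
  rw [add_comm (T a2 e₂), add_comm (T b2 e₂)] at hb'
  by_cases h2 : f a2 b2 = 0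
  · exact key hb h2
  by_cases h3 : f a3 b3 = 0
  · exact key hb' h3
  have h4 := (c.eq_or_neg (mul_ne_zero h2 E.n2) (mul_ne_zero h3 E.n3)).resolve_right fun e =>
    hb.ne (by simp [c.tens, E.o23, E.o32, e])
  exact c.mem_of_mv E hs ⟨_, m0⟩ ⟨_, m1⟩ (key2 hb E.o23 E.o32 h4) (key2 hb' E.o32 E.o23 h4.symm)

theorem mem_of_two {v w : W} (hv : h v v ≠ 0) (hw : h w w ≠ 0) (hvw : h v w = 0)
    {y : V ≃ₗ[F] V} (hy : y ∈ X) (m0 : Mv T y v v) (m1 : Mv T y w w) : y ∈ tensG T := by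
  obtain ⟨d, e, E⟩ := c.exists_fr hv hw hvw
  exact c.mem_of_mv E hy ⟨_, m0⟩ ⟨_, m1⟩
    (c.exists_mv hy E.n2 fun s hs x x' hb => c.bi2 E hs hb (c.orth_of_mv hy hv m0 E.o02 _)
      (c.orth_of_mv hy hv m0 E.o02 _) (c.orth_of_mv hy hw m1 E.o12 _)
      (c.orth_of_mv hy hw m1 E.o12 _))
    (c.exists_mv hy E.n3 fun s hs x x' hb => c.bi2 E hs hb (c.orth_of_mv hy hv m0 E.o03 _)
      (c.orth_of_mv hy hv m0 E.o03 _) (c.orth_of_mv hy hw m1 E.o13 _)
      (c.orth_of_mv hy hw m1 E.o13 _))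

theorem exists_bi {s : V ≃ₗ[F] V} (hs : s ∈ X) {e : W} (he : h e e ≠ 0) {x y : U} {a b : V}
    (hb : Bi β s (T x e + a) (T y e + b)) (ha : c.hT.cR (h e) a = 0) (hb' : c.hT.cR (h e) b = 0)
    (h0 : β a b ≠ 0) : ∃ u ∈ X, Bi β u a b := by
  obtain ⟨t, ht, -, e1, e2⟩ := c.exists_t he
  have a1 : ∀ z, β (T z e) a = 0 := fun z => by simp [c.left', ha]
  have b1 : ∀ z, β (T z e) b = 0 := fun z => by simp [c.left', hb']
  have a2 : ∀ z, β a (T z e) = 0 := fun z => c.hβ.comm (a1 z)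
  have b2 : ∀ z, β b (T z e) = 0 := fun z => c.hβ.comm (b1 z)
  have z3 : ∀ z : V, (3 : F) • z = 0 := fun z => by simp [c.three]
  have h1 : β (T x e + a) (T y e + b) = f x y * h e e + β a b := by simp [c.tens, b1, a2]
  have sx : s (T x e) = T x e - (2 * (f x y * h e e) / (f x y * h e e + β a b)) • (T x e + a) := by
    rw [hb.apply c.hβ c.two, h1]
    simp only [map_add, LinearMap.add_apply, c.tens, c.alt, a2, b2, c.hf.skew y x]
    module
  have sy : s (T y e) = T y e - (2 * (f x y * h e e) / (f x y * h e e + β a b)) • (T y e + b) := by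
    rw [hb.apply c.hβ c.two, h1]
    simp only [map_add, LinearMap.add_apply, c.tens, c.alt, a2, b2]
    module
  rcases c.eq_or_neg (h1 ▸ hb.ne) h0 with h2 | h2
  · have h3 : f x y * h e e = 0 := by linear_combination h2
    simp only [h3, mul_zero, zero_div, zero_smul, sub_zero] at sx sy
    have k : ∀ {x : U} {a : V}, c.hT.cR (h e) a = 0 → s (T x e) = T x e →
        s (T x e + a) = -(T x e + a) → (s * t) (T x e + a) = -a := fun {x a} k1 k2 k3 => by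
      rw [LinearEquiv.mul_apply, e1, map_sub, k3]
      simp only [map_add, k1, IsTens.cR_apply, add_zero, map_smul, LinearMap.smul_apply, smul_smul,
        div_mul_cancel₀ _ he, k2]
      linear_combination (norm := module) -z3 (T x e)
    have := hb.conj (c.le (mul_mem hs ht))
    rw [k ha sx hb.l, k hb' sy hb.r] at this
    exact ⟨_, mul_mem (mul_mem (mul_mem hs ht) hs) (inv_mem (mul_mem hs ht)), this.neg⟩
  · have h3 : f x y * h e e = β a b := by linear_combination h2 - β a b * c.three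
    rw [h3, ← two_mul, div_self (mul_ne_zero c.two h0), one_smul, sub_add_cancel_left] at sx sy
    have := (e2 x y (left_ne_zero_of_mul (h3 ▸ h0))).conj (c.le hs)
    rw [sx, sy] at this
    exact ⟨_, mul_mem (mul_mem hs ht) (inv_mem hs), this.neg⟩

theorem cR_sub {e : W} (he : h e e ≠ 0) (a : V) :
    c.hT.cR (h e) (a - T ((h e e)⁻¹ • c.hT.cR (h e) a) e) = 0 := by simp [he]

theorem bi1' {v e : W} (hv : h v v ≠ 0) (he : h e e ≠ 0) (hve : h v e = 0) {s : V ≃ₗ[F] V}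
    (hs : s ∈ X) {a b : V} (hb : Bi β s a b) (a0 : c.hT.cR (h v) a = 0)
    (b0 : c.hT.cR (h v) b = 0) (h0 : β (a - T ((h e e)⁻¹ • c.hT.cR (h e) a) e)
      (b - T ((h e e)⁻¹ • c.hT.cR (h e) b) e) ≠ 0) : s ∈ tensG T := by
  have a1 := c.cR_sub he a
  have b1 := c.cR_sub he b
  obtain ⟨u, hu, h1⟩ := c.exists_bi hs he (by rwa [add_sub_cancel, add_sub_cancel]) a1 b1 h0
  have a2 : c.hT.cR (h v) (a - T ((h e e)⁻¹ • c.hT.cR (h e) a) e) = 0 := by simp [a0, hve]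
  have b2 : c.hT.cR (h v) (b - T ((h e e)⁻¹ • c.hT.cR (h e) b) e) = 0 := by simp [b0, hve]
  obtain ⟨w, x, y, hx, hy⟩ := c.pure_of_mem
    (c.mem_of_two hv he hve hu (c.mv_of_fix h1 a2 b2) (c.mv_of_fix h1 a1 b1)) h1
  rw [hx, hy, c.tens] at h0
  have hx0 : x ≠ 0 := fun e => by simp [e] at h0
  rw [hx, IsTens.cR_apply, smul_eq_zero_iff_left hx0] at a1 a2
  obtain ⟨d, k0, k1, k2, k3⟩ := c.exists_orth (Or.inr hv) (Or.inr he)
    (Or.inr (right_ne_zero_of_mul h0)) hve a2 a1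
  rw [sub_eq_iff_eq_add] at hx hy
  refine c.mem_of_two hv k0 k1 hs (c.mv_of_fix hb a0 b0) (c.mv_of_fix hb ?_ ?_)
  · rw [hx]; simp [c.hh.comm k2, c.hh.comm k3]
  · rw [hy]; simp [c.hh.comm k2, c.hh.comm k3]

theorem bi1 {v : W} (hv : h v v ≠ 0) {s : V ≃ₗ[F] V} (hs : s ∈ X) {a b : V} (hb : Bi β s a b)
    (a0 : c.hT.cR (h v) a = 0) (b0 : c.hT.cR (h v) b = 0) : s ∈ tensG T := by
  obtain ⟨e₁, e₂, e₃, E⟩ := c.exists_fr' hv
  by_contra hc
  have h1 := not_not.1 fun h0 => hc (c.bi1' hv E.n1 E.o01 hs hb a0 b0 h0)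
  have h2 := not_not.1 fun h0 => hc (c.bi1' hv E.n2 E.o02 hs hb a0 b0 h0)
  have h3 := not_not.1 fun h0 => hc (c.bi1' hv E.n3 E.o03 hs hb a0 b0 h0)
  have ea := c.dec E a
  have eb := c.dec E b
  have h0 := hb.ne
  simp only [a0, b0, smul_zero, LinearMap.map_zero₂, zero_add] at ea eb
  generalize (h e₁ e₁)⁻¹ • c.hT.cR (h e₁) a = a1, (h e₂ e₂)⁻¹ • c.hT.cR (h e₂) a = a2,
    (h e₃ e₃)⁻¹ • c.hT.cR (h e₃) a = a3, (h e₁ e₁)⁻¹ • c.hT.cR (h e₁) b = b1,
    (h e₂ e₂)⁻¹ • c.hT.cR (h e₂) b = b2, (h e₃ e₃)⁻¹ • c.hT.cR (h e₃) b = b3 at ea eb h1 h2 h3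
  clear a0 b0
  subst ea eb
  simp only [map_add, map_sub, LinearMap.add_apply, LinearMap.sub_apply, c.tens, E.o12, E.o13,
    E.o23, E.o21, E.o31, E.o32] at h0 h1 h2 h3
  exact h0 (mul_left_cancel₀ c.two (by linear_combination h1 + h2 + h3))

theorem mem_of_one {v : W} (hv : h v v ≠ 0) {y : V ≃ₗ[F] V} (hy : y ∈ X) (m : Mv T y v v) :
    y ∈ tensG T := by
  obtain ⟨e₁, e₂, e₃, E⟩ := c.exists_fr' hv
  have k : ∀ {e}, h e e ≠ 0 → h v e = 0 → ∃ g, Mv T y e g := fun he hve =>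
    c.exists_mv hy he fun s hs x x' hb => c.bi1 hv hs hb (c.orth_of_mv hy hv m hve _)
      (c.orth_of_mv hy hv m hve _)
  exact c.mem_of_mv E hy ⟨_, m⟩ (k E.n1 E.o01) (k E.n2 E.o02) (k E.n3 E.o03)

theorem bi0 {s : V ≃ₗ[F] V} (hs : s ∈ X) {a b : V} (hb : Bi β s a b) : s ∈ tensG T := by
  obtain ⟨u, u', hu⟩ := c.pairU
  obtain ⟨S, h1, h2⟩ := exists_le_finrank_eq (ker (h (c.c u a)) ⊓ ker (h (c.c u' a))) (k := 2) (by
    have := finrank_ker_two (h (c.c u a)) (h (c.c u' a))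
    rw [c.hW] at this
    omega)
  obtain ⟨e, h3, he⟩ := c.wi S h2
  have a1 : c.hT.cR (h e) a = 0 := c.hf.sep' _ fun z => by
    obtain ⟨r, t, rfl⟩ := c.spanU (hu ▸ one_ne_zero : f u u' ≠ 0) z
    simp [← c.left', c.left, c.hh.comm (u := c.c u a) (h1 h3).1,
      c.hh.comm (u := c.c u' a) (h1 h3).2]
  have b1 := c.cR_sub he b
  obtain ⟨t, ht, h4⟩ := c.exists_bi hs he (x := 0)
    (by rwa [add_sub_cancel, LinearMap.map_zero₂, zero_add]) a1 b1
    (by simpa [c.hβ.skew a (T _ _), c.left', a1] using hb.ne)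
  obtain ⟨w, x, y, hx, -⟩ := c.pure_of_mem (c.mem_of_one he ht (c.mv_of_fix h4 a1 b1)) h4
  exact c.mem_of_pure hs hb (α := 1) (γ := 0) (x := x) (w := w) (by simp [hx]) (by simp)

theorem le_tensG : X ≤ tensG T := fun y hy => by
  obtain ⟨v, hv, -⟩ := c.exists_orth (a := 0) (b := 0) (d := 0) (Or.inl rfl) (Or.inl rfl)
    (Or.inl rfl) (by simp) (by simp) (by simp)
  obtain ⟨e₁, e₂, e₃, E⟩ := c.exists_fr' hv
  have k : ∀ {e}, h e e ≠ 0 → ∃ g, Mv T y e g := fun he =>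
    c.exists_mv hy he fun s hs x x' hb => c.bi0 hs hb
  exact c.mem_of_mv E hy (k hv) (k E.n1) (k E.n2) (k E.n3)

end S3

end Abstract

open Cfsg.Geo

/-- The stabiliser in `Sp₈` of a decomposition `Sp₂ ⊗ O₄⁻` is maximal. -/
theorem isMaximalIn_sp_tensor_two_four {F : Type*} [Field F] [Fintype F]
    (hq : Odd (Fintype.card F)) {m : ℕ} {e : (Fin m ⊕ Fin m) ≃ Fin 2 × Fin 4}
    {P : Matrix.GeneralLinearGroup (Fin m ⊕ Fin m) F}
    {f₁ : (Fin 2 → F) → (Fin 2 → F) → F} {f₂ : (Fin 4 → F) → (Fin 4 → F) → F}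
    (h₁ : IsSymplecticForm f₁) (h₂ : IsSymmetricForm f₂)
    (h4 : ¬ IsPlusTypeOn (fun v => f₂ v v) ⊤)
    (hT : IsTensorFormStructure id (sympForm m F) f₁ f₂ e P) :
    IsMaximalIn (spGL m F) (tensorProductSubgroup 2 4 e P ⊓ spGL m F) := by
  by_cases h3 : Fintype.card F = 3
  swap
  · exact isMaximalIn_sp_tensor hq (by omega) (by omega) (by omega) h₁ h₂ (fun _ _ => ⟨h3, h4⟩) hT
  have h2 := two_ne_zero_of_odd_card hq
  obtain ⟨c, hc, hT⟩ := AL.exists_form_ptv h₁.bilinear h₂.bilinear hT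
  have t : TF (tb e P) (c • geoBilin h₁.bilinear) (-1) (geoBilin h₂.bilinear) 1 (sympBilin m F) :=
    ⟨isTens_tb e P, (hm_of_alt (geoSymp_nondegenerate h₁) h₁.alternating).smul hc rfl,
      hm_of_symm h2 (geoBilin_nondegenerate _ h₂.nondegenerate) h₂.symm,
      fun x y x' y' => by simpa [mul_assoc, tb_apply] using hT x y x' y'⟩
  refine isMaximalIn_spGL_of m (mem_tensorProductSubgroup_iff_glLin e P) (isMaximalIn_of_forall
    inf_le_right (fun hle => SCtx.not_le ⟨t, h2, le_rfl, fun _ _ h => h⟩ (by simp)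
      (hle.trans inf_le_left)) fun M h5 h6 g hg hg' => by_contra fun hc => hg' ⟨?_, h6 hg⟩)
  refine S3.le_tensG ⟨⟨t, h2, h6, fun g h7 h8 => h5 ⟨h7, h8⟩⟩, fun a => ?_, by simp, by simp,
    fun S hS => by_contra fun hc => h4
      ⟨S, le_top, fun v hv => by_contra fun h => hc ⟨v, hv, h⟩, by simp [hS]⟩, hc⟩ hg
  have := FiniteField.pow_card a
  rw [h3] at this
  have : a * ((a - 1) * (a + 1)) = 0 := by linear_combination this
  simpa only [mul_eq_zero, sub_eq_zero, add_eq_zero_iff_eq_neg] using this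

end Cfsg.Lib.Class.Tn
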