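import Cfsg.Agent.Class.Tens.OOMax
import Cfsg.Agent.Class.Tens.SpO
import Cfsg.Agent.Class.AL.SpTens

/-!
Maximality of the stabiliser of a tensor decomposition with a symplectic and an orthogonal factor.
-/

set_option autoImplicit false
set_option linter.unusedSectionVars false

namespace Cfsg.Lib.Class.Tn

open Module Form AO Wr Tens
open LinearMap (range ker)

section Abstract

variable {F U W V : Type*} [Field F] [AddCommGroup U] [Module F U] [AddCommGroup W] [Module F W]
  [AddCommGroup V] [Module F V] {X : Subgroup (V ≃ₗ[F] V)} {T : U →ₗ[F] W →ₗ[F] V}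
  {f : U →ₗ[F] U →ₗ[F] F} {h : W →ₗ[F] W →ₗ[F] F} {β : V →ₗ[F] V →ₗ[F] F}
  [FiniteDimensional F U] [FiniteDimensional F W]

theorem IsTens.finrank_range_mp (hT : IsTens T) (a : End F U) (b : End F W) :
    finrank F (range (hT.mp a b)) = finrank F (range a) * finrank F (range b) := by
  rw [hT.range_mp, hT.finrank_map₂]

theorem finrank_range_one : finrank F (range (1 : End F U)) = finrank F U := by
  rw [End.one_eq_id, LinearMap.range_id, finrank_top]

theorem finrank_range_smulRight {φ : Dual F U} {x y : U} (hx : x ≠ 0) (hy : φ y ≠ 0) :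
    finrank F (range (φ.smulRight x)) = 1 := by
  rw [← finrank_span_singleton (K := F) hx, show range (φ.smulRight x) = Submodule.span F {x} from
    le_antisymm (by rintro _ ⟨v, rfl⟩; exact Submodule.mem_span_singleton.2 ⟨_, rfl⟩)
      ((Submodule.span_singleton_le_iff_mem _ _).2 ⟨(φ y)⁻¹ • y, by simp [hy]⟩)]

theorem IsTens.not_mem_of_rank_one (hT : IsTens T) (h2 : (2 : F) ≠ 0) (hU : 2 ≤ finrank F U)
    (hW : 2 ≤ finrank F W) {x : V ≃ₗ[F] V} {r : End F V} (e : ∀ z, x z = z + r z) (h0 : r * r = 0)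
    (h1 : finrank F (range r) = 1) : x ∉ tensG T := fun hx => by
  rcases inE_or_inC_odd hT h2 e h0 hx with hE | hE
  · obtain ⟨b, rfl⟩ := (inE_iff hT).1 hE
    rw [hT.finrank_range_mp, finrank_range_one] at h1
    have := Nat.eq_one_of_mul_eq_one_right h1
    omega
  · obtain ⟨b, rfl⟩ := (inC_iff hT).1 hE
    rw [hT.finrank_range_mp, finrank_range_one] at h1
    have := Nat.eq_one_of_mul_eq_one_left h1
    omega

theorem Hm.two_le_of_alt (hf : Hm f (-1)) (ha : ∀ u, f u u = 0) [Nontrivial U] :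
    2 ≤ finrank F U := by
  obtain ⟨x, x', hx⟩ := hf.exists_ne_pair
  rw [← finrank_span_pair_eq (F := F) (p := x) (z := x') (fun e => by simp [e] at hx)
    fun a e => by simp [e, ha] at hx]
  exact Submodule.finrank_le _

/-- The long root map attached to two vectors. -/
def nu (h : W →ₗ[F] W →ₗ[F] F) (p z : W) : End F W := (h p).smulRight z - (h z).smulRight p

theorem nu_apply (p z y : W) : nu h p z y = h p y • z - h z y • p := rfl

theorem finrank_range_nu (p z : W) : finrank F (range (nu h p z)) ≤ 2 :=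
  (Submodule.finrank_mono (by
    rintro _ ⟨y, rfl⟩
    exact Submodule.mem_span_pair.2 ⟨-h z y, h p y, by rw [nu_apply]; module⟩)).trans
      (Orth.finrank_span_pair_le (F := F) p z)

theorem Ctx.uin_nu {ε : F} (c : Ctx T f ε h 1 β X) {p z : W} (hp : h p p = 0) (hz : h z z = 0)
    (hpz : h p z = 0) : UIn X (c.hT.mp 1 (nu h p z)) :=
  ⟨_, c.radR_mem hp (c.hh.eich_mem_Rad hp hpz (c := 0) (by simp [hz])),
    LinearMap.congr_fun (c.hT.ext (a := c.hT.mp 1 _) (b := 1 + c.hT.mp 1 _) fun u y => by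
      simp [Hm.eich_apply, nu_apply, add_sub_assoc])⟩

variable [Finite F] [Nontrivial U] [Nontrivial W]

theorem SCtx.not_comm (c : SCtx T f h β X) (hL : Loc X T.flip)
    (hG : ∀ g ∈ X, Good T.flip (tr T.flip g))
    (H : finrank F W < 2 * finrank F U ∨ Wi1 h ∨
      3 ≤ finrank F U ∧ finrank F W = 2 * finrank F U) {g : V ≃ₗ[F] V} (hg : g ∈ X) :
    ¬ Comm T.flip (tr T.flip g) := fun hC => by
  have := hL.tens.finiteDimensional
  have hT' := isTens_tr hL.tens g
  obtain ⟨t, ht⟩ := hL.exists_rt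
  replace ht := ht.tr hg
  obtain ⟨n, hn⟩ := (inC_iff hL.tens).1 (hC.inC hL.tens ht.inE)
  rw [c.hT.mp_flip] at hn
  obtain ⟨u, u', hu⟩ := c.hf.exists_ne_pair
  have h1 := skew_of_uin c.two c.le ht.uin (ht.sq hT')
  have h2 : ∀ y y', h (n y) y' = -h y (n y') := fun y y' => by
    simpa [hn, c.tens, hu] using h1 (T u y) (T u' y')
  have h3 : n * n = 0 := c.hT.mp_injective_right one_ne_zero (by
    rw [IsTens.mp_zero_right, ← ht.sq hT', hn, ← c.hT.mp_mul, mul_one])
  have h3' : ∀ y, n (n y) = 0 := LinearMap.congr_fun h3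
  have h4 := ht.finrank_range hT'
  rw [hn, c.hT.finrank_range_mp, finrank_range_one] at h4
  have h5 : n ≠ 0 := fun e => let ⟨_, _, ht⟩ := ht; ht.ne_zero hT' (by simp [hn, e])
  have h6 := c.hh.two_le_rank c.two h2 h5
  rcases H with H | H | ⟨h7, H⟩
  · have := Nat.mul_le_mul_left (finrank F U) h6
    omega
  · obtain ⟨y, hy⟩ := DFunLike.ne_iff.1 h5
    obtain ⟨x', hx⟩ := c.hh.exists_eq_one hy
    obtain ⟨a, e⟩ := H.eq_smul c.hh (n y) (n x') hy (by simp [h2, h3']) (by simp [h2, h3'])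
      (by simp [h2, h3'])
    have k1 : h (n x') x' = 0 :=
      mul_left_cancel₀ c.two (by linear_combination h2 x' x' - c.hh.symm x' (n x'))
    obtain rfl : a = 0 := by simpa [e, hx] using k1
    simp [h2, e] at hx
  have key : ∀ p z, h p p = 0 → h z z = 0 → h p z = 0 →
      InE (tr T.flip g) (c.hT.mp 1 (nu h p z)) ∨ InC (tr T.flip g) (c.hT.mp 1 (nu h p z)) := by
    intro p z hp hz hpz
    obtain ⟨x, hx, e⟩ := c.ctx.uin_nu hp hz hpz
    have h0 : c.hT.mp 1 (nu h p z) * c.hT.mp 1 (nu h p z) = 0 :=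
      c.hT.ext fun u y => by simp [nu_apply, hp, hz, hpz, c.hh.comm hpz]
    have k1 := (hG _ (mul_mem (mul_mem (inv_mem hg) hx) hg)).tr g
    rw [tr_tr, show g * (g⁻¹ * x * g) = x * g by group, ← tr_tr] at k1
    exact inE_or_inC_odd hT' c.two e h0 (k1.resolve_right (not_comm_odd hT' c.two hL.two e h0))
  refine h5 (LinearMap.ker_eq_top.1 ?_)
  obtain ⟨p₀, hp₀, hp₀', -⟩ := exists_iso_orth h (by omega) 0 0
  refine c.hh.spanOpp_of_three c.two (by omega) p₀ hp₀ hp₀' _ fun p hp hpp => ?_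
  have hp0 : p ≠ 0 := fun e => by simp [e] at hpp
  obtain ⟨p', k1⟩ := c.hh.exists_eq_one hp0
  obtain ⟨z, hz0, hz, k2, k3⟩ := exists_iso_orth h (by omega) p p'
  obtain ⟨y, k4, k5⟩ := c.hh.exists_orth_ne hp0 (c.hh.ne_smul_of k1 hz0 k3)
  obtain ⟨s, k6, k7⟩ := c.hh.partner hz k5
  have k8 : h p (y - s • z) = 0 := by simp [k4, k2]
  generalize y - s • z = z' at k6 k7 k8
  have m1 : c.hT.mp 1 (nu h p z) * c.hT.mp 1 (nu h p z') = c.hT.mp 1 ((-h p).smulRight p) :=
    c.hT.ext fun u y => by simp [nu_apply, hp, k8, k7, c.hh.comm k2]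
  have m2 : c.hT.mp 1 (nu h p z') * c.hT.mp 1 (nu h p z) = c.hT.mp 1 ((-h p).smulRight p) :=
    c.hT.ext fun u y => by simp [nu_apply, hp, k2, c.hh.swap_one k7, c.hh.comm k8]
  have rk : ∀ {a b : W}, InE (tr T.flip g) (c.hT.mp 1 (nu h p a)) →
      InE (tr T.flip g) (c.hT.mp 1 (nu h p b)) ∨ InC (tr T.flip g) (c.hT.mp 1 (nu h p b)) →
      c.hT.mp 1 (nu h p a) * c.hT.mp 1 (nu h p b) ≠ c.hT.mp 1 ((-h p).smulRight p) := by
    intro a b ha hb e
    have r0 := c.hT.finrank_range_mp 1 ((-h p).smulRight p)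
    rw [finrank_range_one, finrank_range_smulRight (y := p') hp0 (by simp [k1]), ← e] at r0
    obtain ⟨a', ea⟩ := (inE_iff hT').1 ha
    have r1 := congrArg (fun r => finrank F (range r)) ea
    have r2 := Nat.mul_le_mul_left (finrank F U) (finrank_range_nu (h := h) p a)
    rcases hb with hb | hb
    · obtain ⟨b', eb⟩ := (inE_iff hT').1 hb
      rw [ea, eb, ← hT'.mp_mul, mul_one, hT'.finrank_range_mp, finrank_range_one, H] at r0
      have : 2 * finrank F (range (a' * b')) = 1 :=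
        Nat.eq_of_mul_eq_mul_left (show 0 < finrank F U by omega) (by linarith)
      omega
    · obtain ⟨b', eb⟩ := (inC_iff hT').1 hb
      have r3 := congrArg (fun r => finrank F (range r)) eb
      have r4 := Nat.mul_le_mul_left (finrank F U) (finrank_range_nu (h := h) p b)
      rw [ea, eb, ← hT'.mp_mul, mul_one, one_mul, hT'.finrank_range_mp] at r0
      simp only [IsTens.finrank_range_mp, finrank_range_one, H] at r1 r3
      have r5 : finrank F (range a') ≤ 1 :=
        Nat.le_of_mul_le_mul_left (by linarith) (show 0 < 2 * finrank F U by omega)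
      have r6 : finrank F (range b') ≤ 2 :=
        Nat.le_of_mul_le_mul_left (by linarith) (show 0 < finrank F U by omega)
      have := Nat.mul_le_mul r6 r5
      omega
  have c1 := (key p z hp hz k2).resolve_left fun hE => rk hE (key p z' hp k6 k8) m1
  have c2 := (key p z' hp k6 k8).resolve_left fun hE => rk hE (key p z hp hz k2) m2
  have c3 := LinearMap.congr_fun (ht.inE.comm hT' (c1.mul c2)) (T u p')
  simp only [m1, hn, End.mul_apply, IsTens.mp_apply, End.one_apply, LinearMap.smulRight_apply,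
    LinearMap.neg_apply, k1] at c3
  have c4 : n p = h p (n p') • p := by
    simpa using c.hT.injective (fun e => by simp [e] at hu) c3
  have c5 := h3' p
  rw [c4, map_smul, c4, smul_smul, smul_eq_zero, mul_self_eq_zero] at c5
  rw [LinearMap.mem_ker, c4, c5.resolve_right hp0, zero_smul]

theorem SCtx.le_tensG (c : SCtx T f h β X) (hW : 3 ≤ finrank F W)
    (H : (∃ t : F, t ≠ 0 ∧ t ^ 2 ≠ 1) ∨ 4 ≤ finrank F W ∧ (finrank F U = 2 → finrank F W ≠ 4))
    (H4 : finrank F U = 2 → finrank F W = 4 → Wi1 h) (hX : ¬ isomGroup β ≤ X) : X ≤ tensG T := by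
  have ha := c.hf.alt c.two
  have h2 := c.hf.two_le_of_alt ha
  by_cases hb : 2 * finrank F U < finrank F W
  · refine (c.ctx.oLoc c.two (by omega) (fun p hp0 hp y hy e =>
      c.mem_tensG_of_stab' (by omega) hX hp0 hp hy e) fun a _ _ e => ?_).le_tensG
    rcases Nat.eq_zero_or_pos (finrank F (range a)) with h0 | h0
    · rw [h0] at e
      omega
    · have := Nat.mul_le_mul_right (finrank F W) h0
      omega
  have hL := c.ctx.flip.loc one_ne_zero (by simp) (iso2_of_alt ha) h2 (Or.inl c.two)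
    fun p hp0 _ y hy e => (tensG_flip T).ge (c.mem_tensG_of_stab
      (H.symm.imp And.left fun h => ⟨hW, h⟩) hX hp0 hy e)
  have hG : ∀ g ∈ X, Good T.flip (tr T.flip g) := fun g hg => by
    by_cases h3 : 3 ≤ finrank F U
    · exact c.ctx.flip.good_of_fixed one_ne_zero (by simp) (iso2_of_alt ha) hL (a := -1) rfl
        (by simp) (fun e => c.two (by linear_combination -e)) (Or.inl h3) hg
    · obtain ⟨t, ht0, ht⟩ := H.resolve_right fun h => by omega
      exact c.ctx.flip.good_of_fixed one_ne_zero (by simp) (iso2_of_alt ha) hL (a := t) rfl ht0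
        (fun e => ht (by simp [e])) (Or.inr ⟨by rwa [← pow_two], ha⟩) hg
  refine fun g hg => (tensG_flip T).le ((hG g hg).resolve_right (c.not_comm hL hG ?_ hg))
  by_cases h4 : finrank F W < 2 * finrank F U
  · exact Or.inl h4
  by_cases h3 : 3 ≤ finrank F U
  · exact Or.inr (Or.inr ⟨h3, by omega⟩)
  · exact Or.inr (Or.inl (H4 (by omega) (by omega)))

theorem SCtx.not_le (c : SCtx T f h β X) (hW : 2 ≤ finrank F W) : ¬ isomGroup β ≤ tensG T := by
  have := c.hT.finiteDimensional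
  obtain ⟨u, hu⟩ := exists_ne (0 : U)
  obtain ⟨w, hw⟩ := exists_ne (0 : W)
  obtain ⟨y, hy⟩ := c.hβ.exists_eq_one (c.hT.ne_zero hu hw)
  obtain ⟨b, hb, e⟩ := c.hβ.exists_tv (c.isAlt (T u w)) (c := 1) (by simp)
  exact fun hle => c.hT.not_mem_of_rank_one c.two (c.hf.two_le_of_alt (c.hf.alt c.two)) hW
    (r := (β (T u w)).smulRight (T u w)) (by simpa using e)
    (LinearMap.ext fun v => by simp [c.isAlt (T u w)])
    (finrank_range_smulRight (y := y) (c.hT.ne_zero hu hw) (by simp [hy])) (hle hb.1)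

end Abstract

open Cfsg.Geo

/-- The stabiliser in `Sp` of a decomposition as symplectic ⊗ orthogonal is maximal. -/
theorem isMaximalIn_sp_tensor {F : Type*} [Field F] [Fintype F] (hq : Odd (Fintype.card F))
    {m d k : ℕ} (hd : 0 < d) (hk : 3 ≤ k) (hex : ¬ (Fintype.card F = 3 ∧ k = 3))
    {e : (Fin m ⊕ Fin m) ≃ Fin d × Fin k} {P : Matrix.GeneralLinearGroup (Fin m ⊕ Fin m) F}
    {f₁ : (Fin d → F) → (Fin d → F) → F} {f₂ : (Fin k → F) → (Fin k → F) → F}
    (h₁ : IsSymplecticForm f₁) (h₂ : IsSymmetricForm f₂)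
    (h4 : d = 2 → k = 4 → Fintype.card F ≠ 3 ∧ ¬ IsPlusTypeOn (fun v => f₂ v v) ⊤)
    (hT : IsTensorFormStructure id (sympForm m F) f₁ f₂ e P) :
    IsMaximalIn (spGL m F) (tensorProductSubgroup d k e P ⊓ spGL m F) := by
  have h2 := two_ne_zero_of_odd_card hq
  have : Nonempty (Fin d) := ⟨⟨0, hd⟩⟩
  have : Nonempty (Fin k) := ⟨⟨0, by omega⟩⟩
  obtain ⟨c, hc, hT⟩ := AL.exists_form_ptv h₁.bilinear h₂.bilinear hT
  have t : TF (tb e P) (c • geoBilin h₁.bilinear) (-1) (geoBilin h₂.bilinear) 1 (sympBilin m F) :=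
    ⟨isTens_tb e P, (hm_of_alt (geoSymp_nondegenerate h₁) h₁.alternating).smul hc rfl,
      hm_of_symm h2 (geoBilin_nondegenerate _ h₂.nondegenerate) h₂.symm,
      fun x y x' y' => by simpa [mul_assoc, tb_apply] using hT x y x' y'⟩
  refine isMaximalIn_spGL_of m (mem_tensorProductSubgroup_iff_glLin e P) (isMaximalIn_of_forall
    inf_le_right (fun hle => SCtx.not_le ⟨t, h2, le_rfl, fun _ _ h => h⟩ (by simp; omega)
      (hle.trans inf_le_left)) fun M h5 h6 g hg hg' => by_contra fun hc => hg' ⟨?_, h6 hg⟩)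
  refine SCtx.le_tensG ⟨t, h2, h6, fun g h7 h8 => h5 ⟨h7, h8⟩⟩ (by simpa) ?_ (fun h7 h8 => ?_) hc hg
  · by_cases h3 : Fintype.card F = 3
    · simp only [finrank_fin_fun]
      exact Or.inr ⟨by by_contra; exact hex ⟨h3, by omega⟩, fun h7 h8 => (h4 h7 h8).1 h3⟩
    · refine Or.inl (Orth.exists_sq_ne_one ?_)
      have := Fintype.one_lt_card (α := F)
      obtain ⟨r, hr⟩ := hq
      omega
  · rw [finrank_fin_fun] at h7 h8
    exact fun S hS => by_contra fun hc => (h4 h7 h8).2
      ⟨S, le_top, fun v hv => by_contra fun h => hc ⟨v, hv, h⟩, by simp [hS, h8]⟩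

end Cfsg.Lib.Class.Tn
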