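import Cfsg.Agent.Class.Tens.OOMax
import Cfsg.Agent.Class.SpCore

/-!
Maximality of the stabiliser in `Ω` of a tensor decomposition with two symplectic factors.
-/

set_option autoImplicit false
set_option linter.unusedSectionVars false

namespace Cfsg.Lib.Class.Tn

open Module Form AO Wr Tens QuadraticMap Orth OMax
open LinearMap (range ker)

section Abstract

variable {F U W V : Type*} [Field F] [AddCommGroup U] [Module F U] [AddCommGroup W] [Module F W]
  [AddCommGroup V] [Module F V] {Q : QuadraticForm F V} {X : Subgroup (V ≃ₗ[F] V)}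
  {T : U →ₗ[F] W →ₗ[F] V} {f : U →ₗ[F] U →ₗ[F] F} {h : W →ₗ[F] W →ₗ[F] F}

theorem Hm.alt' (hh : Hm h (-1)) (u : W) : h u u = 0 := by
  obtain ⟨a, ha⟩ := hh.tr u
  simpa using ha.symm

theorem uin_commutator {A B : End F V} (hA : UIn X A) (hB : UIn X B) (aa : A * A = 0)
    (bb : B * B = 0) (aba : A * B * A = 0) (bab : B * A * B = 0) : UIn X (A * B - B * A) := by
  convert (hA.mul hB).mul ((hA.neg aa).mul (hB.neg bb)) using 1
  linear_combination (norm := noncomm_ring) aa - aa * B + bb - bab + aba + A * bb - aba * B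

/-- A conjugation invariant algebra containing a non-scalar contains the rank one maps. -/
theorem Hm.tau_mem [FiniteDimensional F W] (hh : Hm h (-1))
    (hn : 3 ≤ finrank F W ∨ finrank F W = 2 ∧ ∃ s : F, s ≠ 0 ∧ s ≠ 1) {A : End F W → Prop}
    (h1 : ∀ γ δ, A γ → A δ → A (γ - δ)) (h2 : ∀ (a : F) γ, A γ → A (a • γ)) (h3 : A 1)
    (h4 : ∀ γ δ, A γ → A δ → A (γ * δ))
    (h5 : ∀ p, ∀ b ∈ Rad h (Submodule.span F {p}), ∀ γ, A γ → A (b.conj γ)) {γ : End F W}
    (hγ : A γ) (hγ' : ¬ ∃ s : F, γ = s • 1) {p : W} (hp0 : p ≠ 0) : A ((h p).smulRight p) := by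
  obtain ⟨γ, k1, k2, k3⟩ := exists_fix_Rad (B := h) (S := Submodule.span F {p}) (A := A)
    (A₀ := fun γ => ∃ s : F, γ = s • 1) (fun b hb γ hγ => h1 _ _ (h5 p b hb γ hγ) hγ)
    ⟨0, by simp⟩ hγ hγ'
  have hp := hh.alt' p
  have key : ∀ a d : F, (∀ y, γ y = a • y + (d * h p y) • p) → A ((h p).smulRight p) := fun a d e => by
    have hd : d ≠ 0 := fun h0 => k2 ⟨a, LinearMap.ext fun y => by simp [e, h0]⟩
    convert h2 d⁻¹ _ (h1 _ _ k1 (h2 a _ h3))
    ext y
    simp [e, smul_smul, hd]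
  rcases hn with hn | ⟨hn, s, hs0, hs1⟩
  swap
  · obtain ⟨a, d, e⟩ := hh.cent_two hn hs0 one_ne_zero hs1 (by simp) (by simp) hp0 hp k3
    exact key a d e
  obtain ⟨d, hd⟩ := hh.eigen_of_tv hn one_ne_zero (by simp) hp0 hp k3
  obtain ⟨p', hpp⟩ := hh.exists_eq_one hp0
  obtain ⟨a, z, k4, k5, k6⟩ := hh.cent hn hp hpp (Hm.comm_of_eigen hp0 hd k3)
  have e : ∀ y, γ y = a • y + h p y • z - (h z y + h p y * h p' z) • p := fun y => by
    have := k6 (y - h p y • p') (by simp [hpp])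
    simp only [map_sub, map_smul, k5, LinearMap.sub_apply, LinearMap.smul_apply, hh.skew y z,
      smul_eq_mul] at this
    linear_combination (norm := module) this
  by_cases hz : ∃ l : F, z = l • p
  · obtain ⟨l, rfl⟩ := hz
    exact key a l fun y => by simp only [e, map_smul, LinearMap.smul_apply, hh.swap_one hpp]; module
  obtain ⟨z', k7, k8⟩ := hh.exists_orth_ne hp0 (not_exists.1 hz)
  obtain ⟨b, hb, eb⟩ := hh.exists_tv (hh.alt' z') (c := 1) (by simp)
  convert h4 _ _ (h1 _ _ k1 (h2 a _ h3)) (h1 _ _ (h5 z' b hb γ k1) k1)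
  ext y
  simp only [End.mul_apply, LinearMap.sub_apply, conj_tv_apply (hh.alt' z') eb, e, map_add, map_sub,
    map_smul, hh.alt', k4, k7, k8, hh.comm k4, hh.comm k7, hh.swap_one k8, LinearMap.smul_apply,
    End.one_apply, LinearMap.smulRight_apply, smul_eq_mul]
  module

variable [FiniteDimensional F U] [FiniteDimensional F W] (c : OCtx Q T f h (-1) X)

namespace OCtx

theorem sp_mem {a : U ≃ₗ[F] U} (ha : a ∈ isomGroup f) : c.hT.mpE a 1 ∈ X :=
  SpB_le_of_altT_mem c.hf.nondeg c.hf.alt' (X.comap (c.hT.mpHom.comp (MonoidHom.inl _ _)))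
    (fun w s => c.ctx.radL_mem (c.hf.alt' w) (mem_Rad_span.2 ⟨altTEquiv_mem_SpB c.hf.alt' w s,
      (altTEquiv_apply' c.hf.alt' w s w).trans (by simp [c.hf.alt']), fun v _ => ⟨_, rfl⟩⟩)) ha

/-- Elements of the centre of the radical attached to a totally isotropic plane. -/
noncomputable def NN (x u : U) (e e' : End F W) : End F V :=
  T u ∘ₗ e ∘ₗ c.c x + T x ∘ₗ e' ∘ₗ c.c u

theorem NN_apply (x u : U) (e e' : End F W) (v : V) :
    c.NN x u e e' v = T u (e (c.c x v)) + T x (e' (c.c u v)) := rfl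

/-- The maps of the second factor all of whose plane elements lie in the group. -/
def CC (e : End F W) : Prop := ∃ e', (∀ a b, h (e a) b = h a (e' b)) ∧
  ∀ x u, x ≠ 0 → u ∉ Submodule.span F {x} → f x u = 0 → UIn X (c.NN x u e e')

theorem uin_map {a : U ≃ₗ[F] U} (ha : a ∈ isomGroup f) {e e' γ : End F W}
    {x u : U} (H : UIn X (c.NN x u e e' + T x ∘ₗ γ ∘ₗ c.c x)) :
    UIn X (c.NN (a x) (a u) e e' + T (a x) ∘ₗ γ ∘ₗ c.c (a x)) := by
  convert H.cj (c.sp_mem ha)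
  ext v
  obtain ⟨v, rfl⟩ := (c.hT.mpE a 1).surjective v
  simp [NN_apply, c.c_mpE ha]

theorem cc_of {e e' : End F W} (he : ∀ a b, h (e a) b = h a (e' b)) {x u : U} (hx : x ≠ 0)
    (hu : u ∉ Submodule.span F {x}) (hxu : f x u = 0) (H : UIn X (c.NN x u e e')) : c.CC e :=
  ⟨e', he, fun y v hy hv hyv => by
    obtain ⟨a, ha, rfl, rfl⟩ := SpB_exists_pair c.hf.nondeg c.hf.alt' hx hy hu hv (hxu.trans hyv.symm)
    simpa using c.uin_map ha (γ := 0) (by simpa using H)⟩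

variable {c}

theorem CC.sub {e d : End F W} (h1 : c.CC e) (h2 : c.CC d) : c.CC (e - d) := by
  obtain ⟨e', k1, k2⟩ := h1
  obtain ⟨d', k3, k4⟩ := h2
  refine ⟨e' - d', by simp [k1, k3], fun x u hx hu hxu => ?_⟩
  convert (k2 x u hx hu hxu).add ((k4 x u hx hu hxu).neg ?_) ?_ using 1 <;> ext v <;>
    simp [NN_apply, c.hf.alt', hxu, c.hf.comm hxu]
  abel

theorem CC.smul (a : F) {e : End F W} (h1 : c.CC e) : c.CC (a • e) := by
  obtain ⟨e', k1, k2⟩ := h1
  refine ⟨a • e', by simp [k1], fun x u hx hu hxu => ?_⟩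
  by_cases ha : a = 0
  · convert UIn.zero
    ext v
    simp [NN_apply, ha]
  convert k2 x (a • u) hx (by rwa [Submodule.smul_mem_iff _ ha]) (by simp [hxu]) using 1
  ext v
  simp [NN_apply, c.c_smul]

theorem CC.one : c.CC 1 := ⟨1, fun _ _ => rfl, fun x u _ _ hxu =>
  ⟨_, c.ctx.radL_mem (c.hf.alt' x) (c.hf.eich_mem_Rad (c.hf.alt' x) hxu (c := 0)
    (by simp [c.hf.alt'])), fun v => by
      rw [c.mpE_eich (c.hf.eich_apply _ _ _)]
      simp [NN_apply, add_assoc]⟩⟩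

theorem CC.conj {e : End F W} (h1 : c.CC e) {b : W ≃ₗ[F] W} (hb : b ∈ isomGroup h) :
    c.CC (b.conj e) := by
  obtain ⟨e', k1, k2⟩ := h1
  refine ⟨b.conj e', fun x y => by
    obtain ⟨x, rfl⟩ := b.surjective x
    obtain ⟨y, rfl⟩ := b.surjective y
    simp [iso hb, k1], fun x u hx hu hxu => ?_⟩
  convert (k2 x u hx hu hxu).cj (c.hT.mpE_flip 1 b ▸ c.flip.sp_mem hb)
  ext v
  obtain ⟨v, rfl⟩ := (c.hT.mpE 1 b).surjective v
  have := fun x => c.c_mpE (one_mem _) b x v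
  simp only [LinearEquiv.coe_one, id] at this
  simp [NN_apply, this]

variable (hU : 5 ≤ finrank F U)
include hU

theorem CC.mul {e d : End F W} (h1 : c.CC e) (h2 : c.CC d) : c.CC (e * d) := by
  obtain ⟨e', k1, k2⟩ := h1
  obtain ⟨d', k3, k4⟩ := h2
  refine ⟨d' * e', by simp [k1, k3], fun x z hx hz hxz => ?_⟩
  obtain ⟨u, u', a1, a2, a3, a4, a5⟩ := c.hf.exists_perp_pair hU x z
  obtain ⟨u, a1, a2, a5⟩ : ∃ u, f x u = 0 ∧ f z u = 0 ∧ f u' u = -1 :=
    ⟨(-(f u' u)⁻¹) • u, by simp [a1], by simp [a2], by simp [a5]⟩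
  have a6 : f u u' = 1 := by rw [c.hf.skew, a5, neg_neg]
  convert uin_commutator (k4 x u hx (fun hm => ?_) a1) (k2 u' z (fun h0 => by simp [h0] at a5)
    (fun hm => ?_) (c.hf.comm a4)) ?_ ?_ ?_ ?_ using 1
  rotate_left
  · obtain ⟨a, rfl⟩ := Submodule.mem_span_singleton.1 hm
    simp [a3] at a6
  · obtain ⟨a, rfl⟩ := Submodule.mem_span_singleton.1 hm
    simp [a5] at a2
    simp [a2] at hz
  all_goals
    ext v
    simp [NN_apply, c.hf.alt', hxz, a1, a2, a3, a4, a5, a6, c.hf.comm hxz, c.hf.comm a1,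
      c.hf.comm a2, c.hf.comm a3, c.hf.comm a4, add_comm]

theorem cc_of_gam {x : U} (hx0 : x ≠ 0) {γ : End F W} (hγ : c.ctx.Gam x γ) : c.CC γ := by
  obtain ⟨x', hxx⟩ := c.hf.exists_eq_one hx0
  have key : ∀ y, y ≠ 0 → UIn X (T y ∘ₗ γ ∘ₗ c.c y) := fun y hy => by
    obtain ⟨a, ha, rfl⟩ := SpB_exists_apply_eq c.hf.nondeg c.hf.alt' hx0 hy
    exact hγ.mapL ha (c.sp_mem ha)
  obtain ⟨u, h1, h2⟩ := Hm.exists_orth_notMem_one (B := f) (by omega) x x
  refine c.cc_of (e' := γ) (fun a b => by simpa using hγ.adj (c.hf.alt' x) hxx a b) hx0 h2 h1 ?_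
  convert ((key (x + u) fun e => h2 ?_).add ((key x hx0).neg ?_) ?_).add
    ((key u fun e => h2 (e ▸ zero_mem _)).neg ?_) ?_ using 1
  rotate_left
  · exact Submodule.mem_span_singleton.2 ⟨-1, by linear_combination (norm := module) -e⟩
  all_goals
    ext v
    simp [NN_apply, c.hf.alt', h1, c.hf.comm h1, c.c_add]
  abel

theorem cc_of_eel {x x' u : U} (hxx : f x x' = 1) (hu : f x u = 0) (hu' : f x' u = 0)
    {e : End F W} (he : c.ctx.Eel x x' u e) : c.CC e := by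
  have hx0 : x ≠ 0 := fun h0 => by simp [h0] at hxx
  obtain ⟨q, hq, hR, he⟩ := he
  by_cases hu0 : u = 0
  · obtain rfl : e = 0 := LinearMap.ext fun w => by
      simpa [← he] using c.c_smul 0 u (q (T x' w)) |>.trans (by simp) |> fun h => by
        simpa [hu0] using h
    simpa using CC.one.smul (c := c) 0
  obtain ⟨h1, h2, h3⟩ := c.mem_Rad_JL.1 hR
  set e' : End F W := c.c x' ∘ₗ (q : End F V) ∘ₗ T u
  have h4 : ∀ w, q (T u w) = T u w - T x (e' w) := fun w => by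
    obtain ⟨w', hw⟩ := h3 (T u w) (by simp [hu])
    simp [e', hw, hu', c.hf.swap_one hxx]
  have h5 : ∀ a b, h (e a) b = h a (e' b) := fun a b => by
    have := iso h1 (T u b + T x (e' b)) (T x' a)
    rw [map_add q, h4, h2, sub_add_cancel, c.left, he] at this
    simp [c.tens, c.hf.comm hu', hxx] at this
    rw [c.hh.skew, this, ← c.hh.skew]
  have h6 : ∀ v, c.c u (q⁻¹ v) = c.c u v - e (c.c x v) := fun v => c.hh.ext_right fun w => by
    rw [← c.left, ← iso h1, h4, FE.apply_inv_self, map_sub, map_sub, LinearMap.sub_apply, c.left, c.left,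
      c.hh.skew w (e _), h5, ← c.hh.skew]
  obtain ⟨a, ha, ea⟩ := c.hf.exists_tv (c.hf.alt' u) (c := 1) (by simp)
  have h7 : UIn X (T u ∘ₗ c.c u) := ⟨_, c.sp_mem ha.1, fun v => by simp [c.mpE_tv ea]⟩
  have h8 : UIn X (c.NN x u e e' + T x ∘ₗ (-(e' * e)) ∘ₗ c.c x) := by
    convert h7.add ((h7.neg ?_).cj hq) ?_ using 1 <;> ext v <;>
      simp [NN_apply, c.hf.alt', h4, h6, -LinearEquiv.coe_inv, c.hf.comm hu]
    abel
  obtain ⟨u₂, a1, a2⟩ := Hm.exists_orth_notMem (B := f) [x, u] (Submodule.span F {x, u}) (by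
    have := Orth.finrank_span_pair_le (F := F) x u
    simp only [List.length_cons, List.length_nil]; omega)
  have a3 := a1 x (by simp)
  have a4 := a1 u (by simp)
  obtain ⟨b, hb, b1, rfl⟩ := SpB_exists_pair c.hf.nondeg c.hf.alt' hx0 hx0 (y := u) (y' := u₂)
    (fun hm => let ⟨a, e⟩ := Submodule.mem_span_singleton.1 hm
      c.hf.ne_smul_of hxx hu0 hu' a e.symm)
    (fun hm => a2 (Submodule.span_mono (by simp) hm)) (hu.trans a3.symm)
  have h9 := c.uin_map hb h8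
  rw [b1] at h9
  refine c.cc_of h5 hx0 (u := b u - u) (fun hm => a2 ?_) (by simp [a3, hu]) ?_
  · obtain ⟨a, e⟩ := Submodule.mem_span_singleton.1 hm
    exact Submodule.mem_span_pair.2 ⟨a, 1, by rw [e]; simp⟩
  convert h9.add (h8.neg ?_) ?_ using 1 <;> ext v <;>
    simp [NN_apply, c.hf.alt', hu, c.hf.comm hu, a3, c.hf.comm a3, c.hf.comm a4, c.c_sub]
  abel

variable [Finite F]

theorem scalar_of_cc (hW : 3 ≤ finrank F W ∨ finrank F W = 2 ∧ ∃ s : F, s ≠ 0 ∧ s ≠ 1)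
    (hX : ¬ Om Q ≤ X) {e : End F W} (he : c.CC e) : ∃ s : F, e = s • 1 := by
  have : Nontrivial W := Module.nontrivial_of_finrank_pos (R := F) (by omega)
  obtain ⟨p, hp⟩ := exists_ne (0 : W)
  refine by_contra fun h0 => hX (c.le_of_RS hU (c.hh.spanOpp_of_tv one_ne_zero (by simp))
    ⟨p, hp, c.hh.alt' p⟩ fun x p u _ hx0 _ hp0 hu _ => ⟨by simp [c.tens, hu], fun a => ?_⟩)
  by_cases hm : u ∈ Submodule.span F {x}
  · obtain ⟨b, rfl⟩ := Submodule.mem_span_singleton.1 hm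
    exact ⟨1, one_mem _, 0, fun v => by simp [smul_smul, mul_comm, mul_left_comm]⟩
  obtain ⟨e', h1, h2⟩ := (c.hh.tau_mem hW (fun _ _ => CC.sub) (fun a _ => CC.smul a) CC.one
    (fun _ _ => CC.mul hU) (fun _ b hb _ h => h.conj hb.1) he h0 hp0).smul a
  obtain ⟨k, hk, e⟩ := h2 x u hx0 hm hu
  have h3 : ∀ y, e' y = -(a * h p y) • p := fun y => c.hh.ext_right fun w => by
    simp [← h1, c.hh.skew w p]; ring
  refine ⟨k, hk, 0, fun v => ?_⟩
  simp only [e, NN_apply, h3, c.left, map_smul, LinearMap.smul_apply, LinearMap.smulRight_apply,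
    smul_eq_mul]
  module

variable (c)
include c

/-- The local theorem for `Sp ⊗ Sp`. -/
theorem mem_tensG_of_stab_alt (hW : 3 ≤ finrank F W ∨ finrank F W = 2 ∧ ∃ s : F, s ≠ 0 ∧ s ≠ 1)
    (hX : ¬ Om Q ≤ X) {x : U} (hx0 : x ≠ 0) {g : V ≃ₗ[F] V} (hg : g ∈ X)
    (hJ : ∀ w, g (T x w) ∈ JL T x) : g ∈ tensG T := by
  have : Nontrivial W := Module.nontrivial_of_finrank_pos (R := F) (by omega)
  obtain ⟨x', hxx⟩ := c.hf.exists_eq_one hx0
  exact c.ctx.mem_tensG_of_stab hx0 (c.hf.alt' x) (c.ctx.loc_of (c.hf.alt' x) hxx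
    (fun γ hγ => scalar_of_cc (c := c) hU hW hX (cc_of_gam hU hx0 hγ))
    fun u e h1 h2 he => scalar_of_cc (c := c) hU hW hX (cc_of_eel hU hxx h1 h2 he))
    (Or.inr ⟨1, one_ne_zero, by simp⟩) hg hJ

end OCtx

include c in
theorem OCtx.le_tensG_alt [Finite F] (h2 : 2 ≤ finrank F U) (hlt : finrank F U < finrank F W)
    (hW : 5 ≤ finrank F W) (hq : finrank F U = 2 → ∃ s : F, s ≠ 0 ∧ s ≠ 1) (hX : ¬ Om Q ≤ X) :
    X ≤ tensG T := by
  have : Nontrivial U := Module.nontrivial_of_finrank_pos (R := F) (by omega)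
  exact c.ctx.le_tensG one_ne_zero (by simp) (iso2_of_alt c.hh.alt') hlt (Or.inr (Or.inl hW))
    fun p hp0 _ y hy e => tensG_flip T ▸ c.flip.mem_tensG_of_stab_alt hW
      (h2.eq_or_lt.symm.imp id fun h => ⟨h.symm, hq h.symm⟩) hX hp0 hy e

end Abstract

open Cfsg.Geo

/-- The stabiliser in `Ω` of a tensor decomposition with two symplectic factors is maximal. -/
theorem isMaximalIn_omega_tensor_alt {F : Type*} [Field F] [Fintype F] {ι : Type} [Fintype ι]
    [DecidableEq ι] {Q : QuadraticForm F (ι → F)} (hQ : (polarBilin Q).Nondegenerate) {d k : ℕ}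
    (hd : 0 < d) (hdk : d < k) (hk : 5 ≤ k) (hex : ¬ (Fintype.card F = 2 ∧ d = 2))
    {e : ι ≃ Fin d × Fin k} {P : Matrix.GeneralLinearGroup ι F}
    {f₁ : (Fin d → F) → (Fin d → F) → F} {f₂ : (Fin k → F) → (Fin k → F) → F}
    (h₁ : IsSymplecticForm f₁) (h₂ : IsSymplecticForm f₂)
    (hT : IsTensorFormStructure id (polar Q) f₁ f₂ e P)
    (h0 : ∀ x y, Q (Asch.vec e P (Asch.ptv x y)) = 0) :
    IsMaximalIn (omegaGL Q) (tensorProductSubgroup d k e P ⊓ omegaGL Q) := by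
  have : Nonempty (Fin d) := ⟨⟨0, hd⟩⟩
  have hf := hm_of_alt (geoSymp_nondegenerate h₁) h₁.alternating
  have h2 : 2 ≤ d := by
    obtain ⟨x, x', hx⟩ := hf.exists_ne_pair
    have := Submodule.finrank_le (Submodule.span F {x, x'})
    rwa [finrank_span_pair_eq (fun e => by simp [e] at hx) (fun a e => by
      rw [e, map_smul, hf.alt', smul_zero] at hx; exact zero_ne_one hx), finrank_fin_fun] at this
  have hn : 10 ≤ Fintype.card ι := by rw [card_eq_mul e]; nlinarith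
  refine isMaximalIn_omega_of (mem_tensorProductSubgroup_iff_glLin e P)
    (not_le_tensor_alt hQ (by omega) h2 (by omega) h₁ h₂ hT h0) fun X le ge hX => ?_
  obtain ⟨c, hc, t⟩ := exists_tens h₁.bilinear h₁.nondegenerate h₂.bilinear h₂.nondegenerate hT
  refine OCtx.le_tensG_alt (Q := Q) ⟨⟨isTens_tb e P, hf.smul hc rfl,
    hm_of_alt t.ndg h₂.alternating, t.polar_eq⟩, by simp; omega, fun x y _ => h0 x y,
    fun m ⟨a, b, hm⟩ hm' => mem_O.2 ((isTens_tb e P).ind (by simp) (fun u v hu hv => ?_)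
      fun x y => by rw [hm]; exact (h0 _ _).trans (h0 _ _).symm), le, ge⟩ (by simpa) (by simpa)
    (by simpa) (fun h3 => ?_) hX
  · rw [map_add, Q_add, Q_add, hu, hv]
    exact congrArg _ (hm' u v)
  · by_contra! hc
    refine hex ⟨le_antisymm ?_ Fintype.one_lt_card, by simpa using h3⟩
    classical
    exact (Finset.card_le_card (t := {0, 1}) fun s _ => by simpa using (em _).imp_right (hc s)).trans
      Finset.card_le_two

end Cfsg.Lib.Class.Tn
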